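import Mathlib
import Cfsg.Prelude.Def_GeometricClasses
import Cfsg.Agent.Lib.Helper93.Parabolic
import Cfsg.Agent.Lib.Helper5.SLGen

set_option autoImplicit false

/-! Transvections `x ↦ x + (ψ ⬝ᵥ x) • v` with row-vector functionals, and rational vectors over a
subfield. -/

namespace Cfsg.Agent.Lib.Helper94.Subf

open Matrix

variable {F : Type*} [Field F] {n : ℕ}

/-- the functional `x ↦ ψ ⬝ᵥ x` -/
def rowD (ψ : Fin n → F) : Module.Dual F (Fin n → F) where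
  toFun x := ψ ⬝ᵥ x
  map_add' x y := dotProduct_add ψ x y
  map_smul' c x := by
    rw [dotProduct_smul]
    rfl

theorem rowD_apply (ψ x : Fin n → F) : rowD ψ x = ψ ⬝ᵥ x := rfl

/-- the transvection `x ↦ x + (ψ ⬝ᵥ x) • v` (or `1` when `ψ ⬝ᵥ v ≠ 0`) -/
noncomputable def tv (ψ v : Fin n → F) : GL (Fin n) F := by
  classical
  exact if h : ψ ⬝ᵥ v = 0 then Cfsg.Agent.Lib.Helper93.tvGL (rowD ψ) v h else 1

theorem tv_mulVec {ψ v : Fin n → F} (h : ψ ⬝ᵥ v = 0) (x : Fin n → F) :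
    (tv ψ v : Matrix (Fin n) (Fin n) F) *ᵥ x = x + (ψ ⬝ᵥ x) • v := by
  rw [tv, dif_pos h]
  exact Cfsg.Agent.Lib.Helper93.tvGL_mulVec (rowD ψ) v h x

theorem tv_mem_SL (ψ v : Fin n → F) : tv ψ v ∈ Cfsg.Geo.specialLinear (Fin n) F := by
  unfold tv
  split_ifs with h
  · exact Cfsg.Agent.Lib.Helper93.tvGL_mem_SL _ _ _
  · exact Subgroup.one_mem _

theorem tv_mul {ψ ψ' v : Fin n → F} (h : ψ ⬝ᵥ v = 0) (h' : ψ' ⬝ᵥ v = 0) :
    tv ψ v * tv ψ' v = tv (ψ + ψ') v := by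
  have h2 : (ψ + ψ') ⬝ᵥ v = 0 := by rw [add_dotProduct, h, h', add_zero]
  apply Cfsg.Agent.Lib.Helper93.gl_ext
  intro x
  rw [Cfsg.Agent.Lib.Helper93.gl_mul_mulVec, tv_mulVec h', tv_mulVec h, tv_mulVec h2]
  simp only [dotProduct_add, dotProduct_smul, add_dotProduct, smul_eq_mul, h, mul_zero, add_zero]
  module

theorem tv_zero (v : Fin n → F) : tv (0 : Fin n → F) v = 1 := by
  have h : (0 : Fin n → F) ⬝ᵥ v = 0 := zero_dotProduct v
  apply Cfsg.Agent.Lib.Helper93.gl_ext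
  intro x
  rw [tv_mulVec h, zero_dotProduct, zero_smul, add_zero, Units.val_one, Matrix.one_mulVec]

theorem tv_inv {ψ v : Fin n → F} (h : ψ ⬝ᵥ v = 0) : (tv ψ v)⁻¹ = tv (-ψ) v := by
  have h2 : (-ψ) ⬝ᵥ v = 0 := by rw [neg_dotProduct, h, neg_zero]
  apply inv_eq_of_mul_eq_one_right
  rw [tv_mul h h2, add_neg_cancel, tv_zero]

theorem tv_smul_comm {ψ v : Fin n → F} (h : ψ ⬝ᵥ v = 0) (a : F) :
    tv (a • ψ) v = tv ψ (a • v) := by
  have h1 : (a • ψ) ⬝ᵥ v = 0 := by rw [smul_dotProduct, h, smul_zero]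
  have h2 : ψ ⬝ᵥ (a • v) = 0 := by rw [dotProduct_smul, h, smul_zero]
  apply Cfsg.Agent.Lib.Helper93.gl_ext
  intro x
  rw [tv_mulVec h1, tv_mulVec h2, smul_dotProduct, smul_eq_mul, smul_smul, mul_comm]

/-- conjugation of a transvection -/
theorem tv_conj (g : GL (Fin n) F) {ψ v : Fin n → F} (h : ψ ⬝ᵥ v = 0) :
    g * tv ψ v * g⁻¹ = tv (ψ ᵥ* ((g⁻¹ : GL (Fin n) F) : Matrix (Fin n) (Fin n) F))
      ((g : Matrix (Fin n) (Fin n) F) *ᵥ v) := by
  have h2 : (ψ ᵥ* ((g⁻¹ : GL (Fin n) F) : Matrix (Fin n) (Fin n) F)) ⬝ᵥ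
      ((g : Matrix (Fin n) (Fin n) F) *ᵥ v) = 0 := by
    rw [← Matrix.dotProduct_mulVec, Cfsg.Agent.Lib.Helper93.gl_inv_mulVec, h]
  apply Cfsg.Agent.Lib.Helper93.gl_ext
  intro x
  rw [Cfsg.Agent.Lib.Helper93.gl_mul_mulVec, Cfsg.Agent.Lib.Helper93.gl_mul_mulVec, tv_mulVec h,
    tv_mulVec h2, Matrix.mulVec_add, Matrix.mulVec_smul, Cfsg.Agent.Lib.Helper93.gl_mulVec_inv,
    ← Matrix.dotProduct_mulVec]

/-- the commutator relation -/
theorem tv_comm {φ u ψ v : Fin n → F} (hφu : φ ⬝ᵥ u = 0) (hψv : ψ ⬝ᵥ v = 0)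
    (hφv : φ ⬝ᵥ v = 0) :
    tv φ u * tv ψ v * (tv φ u)⁻¹ * (tv ψ v)⁻¹ = tv (-(ψ ⬝ᵥ u) • φ) v := by
  have h1 : (-φ) ⬝ᵥ u = 0 := by rw [neg_dotProduct, hφu, neg_zero]
  have h2 : (-ψ) ⬝ᵥ v = 0 := by rw [neg_dotProduct, hψv, neg_zero]
  have h3 : (-(ψ ⬝ᵥ u) • φ) ⬝ᵥ v = 0 := by rw [smul_dotProduct, hφv, smul_zero]
  rw [tv_inv hφu, tv_inv hψv]
  apply Cfsg.Agent.Lib.Helper93.gl_ext
  intro x
  rw [Cfsg.Agent.Lib.Helper93.gl_mul_mulVec, Cfsg.Agent.Lib.Helper93.gl_mul_mulVec,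
    Cfsg.Agent.Lib.Helper93.gl_mul_mulVec, tv_mulVec h2, tv_mulVec h1, tv_mulVec hψv,
    tv_mulVec hφu, tv_mulVec h3]
  simp only [dotProduct_add, dotProduct_smul, neg_dotProduct, smul_dotProduct, smul_eq_mul, hφu,
    hψv, hφv, mul_zero, add_zero, neg_zero]
  module

/-- elementary transvections generate the special linear group -/
theorem sl_le_of_elem (hn : 2 ≤ n) (M : Subgroup (GL (Fin n) F))
    (hM : ∀ (i j : Fin n), i ≠ j → ∀ c : F, tv (c • Pi.single j 1) (Pi.single i 1) ∈ M) :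
    Cfsg.Geo.specialLinear (Fin n) F ≤ M := by
  have : Nontrivial (Fin n) := Fin.nontrivial_iff_two_le.mpr hn
  intro g hg
  have hdet : (g : Matrix (Fin n) (Fin n) F).det = 1 :=
    (Cfsg.Agent.Lib.Helper93.mem_specialLinear_iff g).mp hg
  have key : M.comap (Matrix.SpecialLinearGroup.toGL :
      Matrix.SpecialLinearGroup (Fin n) F →* GL (Fin n) F) = ⊤ := by
    apply Cfsg.Agent.Lib.Helper5.eq_top_of_transvection_mem
    intro i j hij c
    show Matrix.SpecialLinearGroup.toGL (Matrix.SpecialLinearGroup.transvection hij c) ∈ M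
    have h0 : (c • (Pi.single j 1 : Fin n → F)) ⬝ᵥ (Pi.single i 1) = 0 := by
      rw [smul_dotProduct, single_dotProduct, Pi.single_eq_of_ne (Ne.symm hij)]
      simp
    have e : Matrix.SpecialLinearGroup.toGL (Matrix.SpecialLinearGroup.transvection hij c)
        = tv (c • (Pi.single j 1 : Fin n → F)) (Pi.single i 1) := by
      apply Cfsg.Agent.Lib.Helper93.gl_ext
      intro x
      rw [tv_mulVec h0]
      show (Matrix.SpecialLinearGroup.transvection hij c).1 *ᵥ x = _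
      rw [Matrix.SpecialLinearGroup.transvection_coe, Matrix.add_mulVec, Matrix.one_mulVec]
      congr 1
      ext k
      simp [Matrix.mulVec, dotProduct, Matrix.single_apply, Pi.single_apply]
      by_cases hk : i = k
      · simp [hk]
      · simp [hk, Ne.symm hk]
    rw [e]
    exact hM i j hij c
  have hmem : (⟨(g : Matrix (Fin n) (Fin n) F), hdet⟩ : Matrix.SpecialLinearGroup (Fin n) F)
      ∈ M.comap (Matrix.SpecialLinearGroup.toGL :
        Matrix.SpecialLinearGroup (Fin n) F →* GL (Fin n) F) := by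
    rw [key]
    trivial
  have hA : Matrix.SpecialLinearGroup.toGL
      (⟨(g : Matrix (Fin n) (Fin n) F), hdet⟩ : Matrix.SpecialLinearGroup (Fin n) F) = g :=
    Units.ext rfl
  rw [← hA]
  exact hmem

/-! ### rational vectors -/

/-- vectors with all coordinates in the subfield -/
def Rat (F₀ : Subfield F) (x : Fin n → F) : Prop := ∀ i, x i ∈ F₀

theorem rat_zero (F₀ : Subfield F) : Rat F₀ (0 : Fin n → F) := fun _ => F₀.zero_mem

theorem Rat.add {F₀ : Subfield F} {x y : Fin n → F} (hx : Rat F₀ x) (hy : Rat F₀ y) :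
    Rat F₀ (x + y) := fun i => F₀.add_mem (hx i) (hy i)

theorem Rat.sub {F₀ : Subfield F} {x y : Fin n → F} (hx : Rat F₀ x) (hy : Rat F₀ y) :
    Rat F₀ (x - y) := fun i => F₀.sub_mem (hx i) (hy i)

theorem Rat.neg {F₀ : Subfield F} {x : Fin n → F} (hx : Rat F₀ x) : Rat F₀ (-x) :=
  fun i => F₀.neg_mem (hx i)

theorem Rat.smul {F₀ : Subfield F} {x : Fin n → F} {c : F} (hc : c ∈ F₀) (hx : Rat F₀ x) :
    Rat F₀ (c • x) := fun i => F₀.mul_mem hc (hx i)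

theorem rat_single (F₀ : Subfield F) (i : Fin n) {c : F} (hc : c ∈ F₀) :
    Rat F₀ (Pi.single i c : Fin n → F) := by
  intro k
  by_cases h : k = i
  · subst h
    rw [Pi.single_eq_same]
    exact hc
  · rw [Pi.single_eq_of_ne h]
    exact F₀.zero_mem

theorem Rat.dot {F₀ : Subfield F} {x y : Fin n → F} (hx : Rat F₀ x) (hy : Rat F₀ y) :
    x ⬝ᵥ y ∈ F₀ := F₀.sum_mem fun i _ => F₀.mul_mem (hx i) (hy i)

theorem exists_ne_zero_coord {x : Fin n → F} (hx : x ≠ 0) : ∃ i, x i ≠ 0 := by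
  by_contra h
  push Not at h
  exact hx (funext h)

/-- a nonzero rational vector orthogonal to fewer than `n` given rational vectors -/
theorem exists_rat_perp (F₀ : Subfield F) {k : ℕ} (hk : k < n) (A : Fin k → Fin n → F)
    (hA : ∀ j, Rat F₀ (A j)) :
    ∃ z : Fin n → F, Rat F₀ z ∧ z ≠ 0 ∧ ∀ j, z ⬝ᵥ A j = 0 := by
  obtain ⟨f, hf⟩ : ∃ f : (Fin n → F₀) →ₗ[F₀] (Fin k → F₀),
      f = Matrix.mulVecLin (Matrix.of fun j i => (⟨A j i, hA j i⟩ : F₀)) := ⟨_, rfl⟩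
  have hlt : Module.finrank F₀ (Fin k → F₀) < Module.finrank F₀ (Fin n → F₀) := by
    rw [Module.finrank_fin_fun, Module.finrank_fin_fun]
    exact hk
  obtain ⟨z₀, hz₀mem, hz₀⟩ := (Submodule.ne_bot_iff _).mp (LinearMap.ker_ne_bot_of_finrank_lt hlt)
  have hfz : f z₀ = 0 := hz₀mem
  refine ⟨fun i => (z₀ i : F), fun i => (z₀ i).2, ?_, ?_⟩
  · intro h
    apply hz₀
    funext i
    exact Subtype.ext (congrFun h i)
  · intro j
    have h1 := congrFun hfz j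
    rw [hf, Matrix.mulVecLin_apply] at h1
    have h2 := congrArg (F₀.subtype) h1
    simp only [Matrix.mulVec, dotProduct, Matrix.of_apply, map_sum, map_mul, Pi.zero_apply,
      map_zero, Subfield.coe_subtype] at h2
    rw [dotProduct]
    rw [← h2]
    exact Finset.sum_congr rfl fun i _ => mul_comm _ _

theorem exists_rat_perp1 (F₀ : Subfield F) (hn : 2 ≤ n) {a : Fin n → F} (ha : Rat F₀ a) :
    ∃ z : Fin n → F, Rat F₀ z ∧ z ≠ 0 ∧ z ⬝ᵥ a = 0 := by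
  obtain ⟨z, hz, hz0, h⟩ := exists_rat_perp F₀ (k := 1) (by omega) ![a]
    (by intro j; fin_cases j; exact ha)
  exact ⟨z, hz, hz0, h 0⟩

theorem exists_rat_perp2 (F₀ : Subfield F) (hn : 3 ≤ n) {a b : Fin n → F} (ha : Rat F₀ a)
    (hb : Rat F₀ b) :
    ∃ z : Fin n → F, Rat F₀ z ∧ z ≠ 0 ∧ z ⬝ᵥ a = 0 ∧ z ⬝ᵥ b = 0 := by
  obtain ⟨z, hz, hz0, h⟩ := exists_rat_perp F₀ (k := 2) (by omega) ![a, b]
    (by intro j; fin_cases j <;> assumption)
  exact ⟨z, hz, hz0, h 0, h 1⟩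

theorem exists_rat_perp3 (F₀ : Subfield F) (hn : 4 ≤ n) {a b c : Fin n → F} (ha : Rat F₀ a)
    (hb : Rat F₀ b) (hc : Rat F₀ c) :
    ∃ z : Fin n → F, Rat F₀ z ∧ z ≠ 0 ∧ z ⬝ᵥ a = 0 ∧ z ⬝ᵥ b = 0 ∧ z ⬝ᵥ c = 0 := by
  obtain ⟨z, hz, hz0, h⟩ := exists_rat_perp F₀ (k := 3) (by omega) ![a, b, c]
    (by intro j; fin_cases j <;> assumption)
  exact ⟨z, hz, hz0, h 0, h 1, h 2⟩

/-- if every rational vector orthogonal to the rational `v ≠ 0` is orthogonal to `u`, then `u`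
is a multiple of `v` -/
theorem prop_of_forall_perp (F₀ : Subfield F) {v u : Fin n → F} (hv : Rat F₀ v) (hv0 : v ≠ 0)
    (h : ∀ z : Fin n → F, Rat F₀ z → z ⬝ᵥ v = 0 → z ⬝ᵥ u = 0) : ∃ c : F, u = c • v := by
  obtain ⟨i, hi⟩ := exists_ne_zero_coord hv0
  refine ⟨u i / v i, ?_⟩
  funext j
  have h1 := h (Pi.single i (v j) - Pi.single j (v i))
    ((rat_single F₀ i (hv j)).sub (rat_single F₀ j (hv i)))
    (by rw [sub_dotProduct, single_dotProduct, single_dotProduct]; ring)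
  rw [sub_dotProduct, single_dotProduct, single_dotProduct] at h1
  rw [Pi.smul_apply, smul_eq_mul]
  field_simp
  linear_combination -h1

end Cfsg.Agent.Lib.Helper94.Subf
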