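import Mathlib
import Cfsg.Agent.Lib.Helper94.SubTv

set_option autoImplicit false

/-! Overgroups of the rational transvections: the parameter field of the root subgroups. -/

namespace Cfsg.Agent.Lib.Helper94.Subf

open Matrix

variable {F : Type*} [Field F] {n : ℕ} (F₀ : Subfield F) (M : Subgroup (GL (Fin n) F))

/-- `M` contains the rational transvections -/
def HasRat : Prop :=
  ∀ ψ v : Fin n → F, Rat F₀ ψ → Rat F₀ v → ψ ⬝ᵥ v = 0 → tv ψ v ∈ M

/-- rational root subgroups of `M` have parameters in `F₀` only -/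
def NoExtra : Prop :=
  ∀ ψ v : Fin n → F, Rat F₀ ψ → Rat F₀ v → ψ ≠ 0 → v ≠ 0 → ψ ⬝ᵥ v = 0 →
    ∀ a : F, tv (a • ψ) v ∈ M → a ∈ F₀

theorem comm_mem {φ u ψ v : Fin n → F} (h1 : tv φ u ∈ M) (h2 : tv ψ v ∈ M)
    (hφu : φ ⬝ᵥ u = 0) (hψv : ψ ⬝ᵥ v = 0) (hφv : φ ⬝ᵥ v = 0) :
    tv (-(ψ ⬝ᵥ u) • φ) v ∈ M := by
  rw [← tv_comm hφu hψv hφv]
  exact M.mul_mem (M.mul_mem (M.mul_mem h1 h2) (M.inv_mem h1)) (M.inv_mem h2)

variable {F₀ M}

theorem axis_move (hM : HasRat F₀ M) {ψ v φ u : Fin n → F} (hψ : Rat F₀ ψ)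
    (hψv : ψ ⬝ᵥ v = 0) (hφ : Rat F₀ φ) (hφv : φ ⬝ᵥ v = 0) (hu : Rat F₀ u)
    (hφu : φ ⬝ᵥ u = 0) (hψu : ψ ⬝ᵥ u ≠ 0) {a : F} (ha : tv (a • ψ) v ∈ M) :
    tv (a • φ) v ∈ M := by
  have hc : -(ψ ⬝ᵥ u)⁻¹ ∈ F₀ := F₀.neg_mem (F₀.inv_mem (hψ.dot hu))
  have h1 : tv ((-(ψ ⬝ᵥ u)⁻¹) • φ) u ∈ M :=
    hM _ _ (hφ.smul hc) hu (by rw [smul_dotProduct, hφu, smul_zero])
  have h := comm_mem M h1 ha (by rw [smul_dotProduct, hφu, smul_zero])
    (by rw [smul_dotProduct, hψv, smul_zero]) (by rw [smul_dotProduct, hφv, smul_zero])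
  have e : -((a • ψ) ⬝ᵥ u) • ((-(ψ ⬝ᵥ u)⁻¹) • φ) = a • φ := by
    rw [smul_smul, smul_dotProduct, smul_eq_mul]
    congr 1
    field_simp
  rwa [e] at h

theorem center_move (hM : HasRat F₀ M) {φ u v ψ : Fin n → F} (hφu : φ ⬝ᵥ u = 0)
    (hv : Rat F₀ v) (hφv : φ ⬝ᵥ v = 0) (hψ : Rat F₀ ψ) (hψv : ψ ⬝ᵥ v = 0)
    (hψu : ψ ⬝ᵥ u ≠ 0) (hψu' : ψ ⬝ᵥ u ∈ F₀) (h : tv φ u ∈ M) : tv φ v ∈ M := by
  have hc : -(ψ ⬝ᵥ u)⁻¹ ∈ F₀ := F₀.neg_mem (F₀.inv_mem hψu')
  have h2 : tv ((-(ψ ⬝ᵥ u)⁻¹) • ψ) v ∈ M :=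
    hM _ _ (hψ.smul hc) hv (by rw [smul_dotProduct, hψv, smul_zero])
  have h3 := comm_mem M h h2 hφu (by rw [smul_dotProduct, hψv, smul_zero]) hφv
  have e : -(((-(ψ ⬝ᵥ u)⁻¹) • ψ) ⬝ᵥ u) • φ = φ := by
    rw [smul_dotProduct, smul_eq_mul]
    have : -(-(ψ ⬝ᵥ u)⁻¹ * ψ ⬝ᵥ u) = 1 := by field_simp
    rw [this, one_smul]
  rwa [e] at h3

theorem exists_ne2 (hn : 3 ≤ n) (a b : Fin n) : ∃ d, d ≠ a ∧ d ≠ b := by
  by_contra h
  push Not at h
  have hsub : (Finset.univ : Finset (Fin n)) ⊆ {a, b} := by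
    intro d _
    by_cases h1 : d = a
    · simp [h1]
    · have := h d h1
      simp [this]
  have h1 := Finset.card_le_card hsub
  have h2 : ({a, b} : Finset (Fin n)).card ≤ 2 := Finset.card_le_two
  rw [Finset.card_univ, Fintype.card_fin] at h1
  omega

theorem exists_ne3 (hn : 4 ≤ n) (a b c : Fin n) : ∃ d, d ≠ a ∧ d ≠ b ∧ d ≠ c := by
  by_contra h
  push Not at h
  have hsub : (Finset.univ : Finset (Fin n)) ⊆ {a, b, c} := by
    intro d _
    by_cases h1 : d = a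
    · simp [h1]
    · by_cases h2 : d = b
      · simp [h2]
      · have := h d h1 h2
        simp [this]
  have h1 := Finset.card_le_card hsub
  have h2 : ({a, b, c} : Finset (Fin n)).card ≤ 3 := Finset.card_le_three
  rw [Finset.card_univ, Fintype.card_fin] at h1
  omega

theorem single_dot_single_ne {i j : Fin n} (h : i ≠ j) (a b : F) :
    (Pi.single i a : Fin n → F) ⬝ᵥ Pi.single j b = 0 := by
  rw [single_dotProduct, Pi.single_eq_of_ne h, mul_zero]

/-- all rational root subgroups have the same parameters -/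
theorem par_move (hn : 4 ≤ n) (hM : HasRat F₀ M) {ψ v ψ' v' : Fin n → F}
    (hψ : Rat F₀ ψ) (hv : Rat F₀ v) (hψ0 : ψ ≠ 0) (hv0 : v ≠ 0) (hψv : ψ ⬝ᵥ v = 0)
    (hψ' : Rat F₀ ψ') (hv' : Rat F₀ v') (hψ'0 : ψ' ≠ 0) (hv'0 : v' ≠ 0) (hψv' : ψ' ⬝ᵥ v' = 0)
    {a : F} (ha : tv (a • ψ) v ∈ M) : tv (a • ψ') v' ∈ M := by
  obtain ⟨i, hi⟩ := exists_ne_zero_coord hv0
  obtain ⟨j, hj⟩ := exists_ne_zero_coord hψ0
  obtain ⟨i', hi'⟩ := exists_ne_zero_coord hv'0
  obtain ⟨j', hj'⟩ := exists_ne_zero_coord hψ'0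
  obtain ⟨a₀, ha₀i, ha₀i'⟩ := exists_ne2 (by omega) i i'
  have h1F : (1 : F) ∈ F₀ := F₀.one_mem
  obtain ⟨φ, hφ, hφ0, hφv, hφj, hφa⟩ := exists_rat_perp3 F₀ hn hv
    (rat_single F₀ j h1F) (rat_single F₀ a₀ h1F)
  obtain ⟨φ', hφ', hφ'0, hφv', hφj', hφa'⟩ := exists_rat_perp3 F₀ hn hv'
    (rat_single F₀ j' h1F) (rat_single F₀ a₀ h1F)
  obtain ⟨k, hk⟩ := exists_ne_zero_coord hφ0
  obtain ⟨k', hk'⟩ := exists_ne_zero_coord hφ'0
  obtain ⟨b₀, hb₀a, hb₀k, hb₀k'⟩ := exists_ne3 hn a₀ k k'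
  -- (ψ, v) → (φ, v)
  have s1 : tv (a • φ) v ∈ M :=
    axis_move hM hψ hψv hφ hφv (rat_single F₀ j h1F) hφj
      (by rw [dotProduct_single, mul_one]; exact hj) ha
  -- (φ, v) → (φ, e_{a₀})
  have s2 : tv (a • φ) (Pi.single a₀ 1) ∈ M :=
    center_move hM (by rw [smul_dotProduct, hφv, smul_zero]) (rat_single F₀ a₀ h1F)
      (by rw [smul_dotProduct, hφa, smul_zero]) (rat_single F₀ i h1F)
      (single_dot_single_ne (Ne.symm ha₀i) 1 1)
      (by rw [single_dotProduct, one_mul]; exact hi)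
      (by rw [single_dotProduct, one_mul]; exact hv i) s1
  -- (φ, e_{a₀}) → (e_{b₀}, e_{a₀})
  have s3 : tv (a • (Pi.single b₀ 1 : Fin n → F)) (Pi.single a₀ 1) ∈ M :=
    axis_move hM hφ hφa (rat_single F₀ b₀ h1F) (single_dot_single_ne hb₀a 1 1)
      (rat_single F₀ k h1F) (single_dot_single_ne hb₀k 1 1)
      (by rw [dotProduct_single, mul_one]; exact hk) s2
  -- (e_{b₀}, e_{a₀}) → (φ', e_{a₀})
  have s4 : tv (a • φ') (Pi.single a₀ 1) ∈ M := by
    refine axis_move hM (rat_single F₀ b₀ h1F) (single_dot_single_ne hb₀a 1 1) hφ' hφa'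
      (u := Pi.single b₀ (φ' k') - Pi.single k' (φ' b₀))
      ((rat_single F₀ b₀ (hφ' k')).sub (rat_single F₀ k' (hφ' b₀))) ?_ ?_ s3
    · rw [dotProduct_sub, dotProduct_single, dotProduct_single]
      ring
    · rw [dotProduct_sub, single_dotProduct, single_dotProduct, Pi.single_eq_same,
        Pi.single_eq_of_ne hb₀k', one_mul, mul_zero, sub_zero]
      exact hk'
  -- (φ', e_{a₀}) → (φ', v')
  have s5 : tv (a • φ') v' ∈ M := by
    refine center_move hM (by rw [smul_dotProduct, hφa', smul_zero]) hv'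
      (by rw [smul_dotProduct, hφv', smul_zero])
      (ψ := Pi.single a₀ (v' i') - Pi.single i' (v' a₀))
      ((rat_single F₀ a₀ (hv' i')).sub (rat_single F₀ i' (hv' a₀))) ?_ ?_ ?_ s4
    · rw [sub_dotProduct, single_dotProduct, single_dotProduct]
      ring
    · rw [sub_dotProduct, single_dotProduct, single_dotProduct, Pi.single_eq_same,
        Pi.single_eq_of_ne (Ne.symm ha₀i'), mul_one, mul_zero, sub_zero]
      exact hi'
    · rw [sub_dotProduct, single_dotProduct, single_dotProduct, Pi.single_eq_same,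
        Pi.single_eq_of_ne (Ne.symm ha₀i'), mul_one, mul_zero, sub_zero]
      exact hv' i'
  -- (φ', v') → (ψ', v')
  refine axis_move hM hφ' hφv' hψ' hψv'
    (u := Pi.single k' (ψ' j') - Pi.single j' (ψ' k'))
    ((rat_single F₀ k' (hψ' j')).sub (rat_single F₀ j' (hψ' k'))) ?_ ?_ s5
  · rw [dotProduct_sub, dotProduct_single, dotProduct_single]
    ring
  · rw [dotProduct_sub, dotProduct_single, dotProduct_single]
    have h0 : φ' j' = 0 := by
      have := hφj'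
      rwa [dotProduct_single, mul_one] at this
    rw [h0, zero_mul, sub_zero]
    exact mul_ne_zero hk' hj'

/-- the parameter field of the rational root subgroups -/
def parField [Fintype F] (hn : 4 ≤ n) (hM : HasRat F₀ M) (i0 i1 i2 : Fin n) (h01 : i0 ≠ i1)
    (h02 : i0 ≠ i2) (h12 : i1 ≠ i2) : Subfield F := by
  have h1F : (1 : F) ∈ F₀ := F₀.one_mem
  have hmul : ∀ a b : F, tv (a • (Pi.single i1 1 : Fin n → F)) (Pi.single i0 1) ∈ M →
      tv (b • (Pi.single i1 1 : Fin n → F)) (Pi.single i0 1) ∈ M →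
      tv ((a * b) • (Pi.single i1 1 : Fin n → F)) (Pi.single i0 1) ∈ M := by
    intro a b ha hb
    have s0 : ∀ i : Fin n, (Pi.single i (1 : F) : Fin n → F) ≠ 0 := by
      intro i h
      have := congrFun h i
      simp at this
    have ha' : tv (a • (Pi.single i2 1 : Fin n → F)) (Pi.single i0 1) ∈ M :=
      par_move hn hM (rat_single F₀ i1 h1F) (rat_single F₀ i0 h1F) (s0 i1) (s0 i0)
        (single_dot_single_ne (Ne.symm h01) 1 1) (rat_single F₀ i2 h1F) (rat_single F₀ i0 h1F)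
        (s0 i2) (s0 i0) (single_dot_single_ne (Ne.symm h02) 1 1) ha
    have hb' : tv (b • (Pi.single i1 1 : Fin n → F)) (Pi.single i2 1) ∈ M :=
      par_move hn hM (rat_single F₀ i1 h1F) (rat_single F₀ i0 h1F) (s0 i1) (s0 i0)
        (single_dot_single_ne (Ne.symm h01) 1 1) (rat_single F₀ i1 h1F) (rat_single F₀ i2 h1F)
        (s0 i1) (s0 i2) (single_dot_single_ne h12 1 1) hb
    have h := comm_mem M hb' ha'
      (by rw [smul_dotProduct, single_dot_single_ne h12, smul_zero])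
      (by rw [smul_dotProduct, single_dot_single_ne (Ne.symm h02), smul_zero])
      (by rw [smul_dotProduct, single_dot_single_ne (Ne.symm h01), smul_zero])
    have e : -((a • (Pi.single i2 1 : Fin n → F)) ⬝ᵥ (Pi.single i2 1)) •
        (b • (Pi.single i1 1 : Fin n → F)) = -((a * b) • (Pi.single i1 1 : Fin n → F)) := by
      rw [smul_dotProduct, single_dotProduct, Pi.single_eq_same, smul_smul, smul_eq_mul]
      rw [← neg_smul]
      congr 1
      ring
    rw [e] at h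
    have h2 := M.inv_mem h
    rw [tv_inv (by rw [neg_dotProduct, smul_dotProduct, single_dot_single_ne (Ne.symm h01),
      smul_zero, neg_zero]), neg_neg] at h2
    exact h2
  have hone : tv ((1 : F) • (Pi.single i1 1 : Fin n → F)) (Pi.single i0 1) ∈ M :=
    hM _ _ ((rat_single F₀ i1 h1F).smul h1F) (rat_single F₀ i0 h1F)
      (by rw [smul_dotProduct, single_dot_single_ne (Ne.symm h01), smul_zero])
  exact
  { carrier := {a | tv (a • (Pi.single i1 1 : Fin n → F)) (Pi.single i0 1) ∈ M}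
    mul_mem' := fun {a b} ha hb => hmul a b ha hb
    one_mem' := hone
    add_mem' := by
      intro a b ha hb
      show tv ((a + b) • (Pi.single i1 1 : Fin n → F)) (Pi.single i0 1) ∈ M
      rw [add_smul, ← tv_mul
        (by rw [smul_dotProduct, single_dot_single_ne (Ne.symm h01), smul_zero])
        (by rw [smul_dotProduct, single_dot_single_ne (Ne.symm h01), smul_zero])]
      exact M.mul_mem ha hb
    zero_mem' := by
      show tv ((0 : F) • (Pi.single i1 1 : Fin n → F)) (Pi.single i0 1) ∈ M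
      rw [zero_smul, tv_zero]
      exact M.one_mem
    neg_mem' := by
      intro a ha
      show tv ((-a) • (Pi.single i1 1 : Fin n → F)) (Pi.single i0 1) ∈ M
      rw [neg_smul, ← tv_inv
        (by rw [smul_dotProduct, single_dot_single_ne (Ne.symm h01), smul_zero])]
      exact M.inv_mem ha
    inv_mem' := by
      intro c hc
      by_cases h0 : c = 0
      · subst h0
        show tv ((0 : F)⁻¹ • (Pi.single i1 1 : Fin n → F)) (Pi.single i0 1) ∈ M
        rw [_root_.inv_zero, zero_smul, tv_zero]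
        exact M.one_mem
      · have hpow : ∀ m : ℕ,
            tv ((c ^ m) • (Pi.single i1 1 : Fin n → F)) (Pi.single i0 1) ∈ M := by
          intro m
          induction m with
          | zero => rw [pow_zero]; exact hone
          | succ m ih => rw [pow_succ]; exact hmul _ _ ih hc
        have hinv : c⁻¹ = c ^ (Fintype.card F - 2) := by
          have h1 := FiniteField.pow_card_sub_one_eq_one c h0
          have h2 : Fintype.card F - 1 = (Fintype.card F - 2) + 1 := by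
            have := Fintype.one_lt_card (α := F)
            omega
          rw [h2, pow_succ] at h1
          exact (eq_inv_of_mul_eq_one_left h1).symm
        show tv (c⁻¹ • (Pi.single i1 1 : Fin n → F)) (Pi.single i0 1) ∈ M
        rw [hinv]
        exact hpow _ }

theorem mem_parField [Fintype F] (hn : 4 ≤ n) (hM : HasRat F₀ M) (i0 i1 i2 : Fin n)
    (h01 : i0 ≠ i1) (h02 : i0 ≠ i2) (h12 : i1 ≠ i2) (a : F) :
    a ∈ parField hn hM i0 i1 i2 h01 h02 h12 ↔
      tv (a • (Pi.single i1 1 : Fin n → F)) (Pi.single i0 1) ∈ M := Iff.rfl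

/-- either `M` contains all elementary transvections, or its rational root subgroups have
parameters in `F₀` only -/
theorem par_cases [Fintype F] (hn : 4 ≤ n)
    (hmax : ∀ K : Subfield F, F₀ ≤ K → K = F₀ ∨ K = ⊤) (hM : HasRat F₀ M) :
    (∀ (i j : Fin n), i ≠ j → ∀ c : F, tv (c • Pi.single j 1) (Pi.single i 1) ∈ M) ∨
      NoExtra F₀ M := by
  have h1F : (1 : F) ∈ F₀ := F₀.one_mem
  have s0 : ∀ i : Fin n, (Pi.single i (1 : F) : Fin n → F) ≠ 0 := by
    intro i h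
    have := congrFun h i
    simp at this
  obtain ⟨i0, hi0⟩ : ∃ i0 : Fin n, i0 = ⟨0, by omega⟩ := ⟨_, rfl⟩
  obtain ⟨i1, hi1⟩ : ∃ i1 : Fin n, i1 = ⟨1, by omega⟩ := ⟨_, rfl⟩
  obtain ⟨i2, hi2⟩ : ∃ i2 : Fin n, i2 = ⟨2, by omega⟩ := ⟨_, rfl⟩
  have h01 : i0 ≠ i1 := by rw [hi0, hi1]; intro h; simp [Fin.ext_iff] at h
  have h02 : i0 ≠ i2 := by rw [hi0, hi2]; intro h; simp [Fin.ext_iff] at h
  have h12 : i1 ≠ i2 := by rw [hi1, hi2]; intro h; simp [Fin.ext_iff] at h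
  have hle : F₀ ≤ parField hn hM i0 i1 i2 h01 h02 h12 := by
    intro a ha
    rw [mem_parField]
    exact hM _ _ ((rat_single F₀ i1 h1F).smul ha) (rat_single F₀ i0 h1F)
      (by rw [smul_dotProduct, single_dot_single_ne (Ne.symm h01), smul_zero])
  rcases hmax _ hle with h | h
  · right
    intro ψ v hψ hv hψ0 hv0 hψv a ha
    have h2 := par_move hn hM hψ hv hψ0 hv0 hψv (rat_single F₀ i1 h1F) (rat_single F₀ i0 h1F)
      (s0 i1) (s0 i0) (single_dot_single_ne (Ne.symm h01) 1 1) ha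
    rw [← mem_parField hn hM i0 i1 i2 h01 h02 h12, h] at h2
    exact h2
  · left
    intro i j hij c
    have hc : c ∈ parField hn hM i0 i1 i2 h01 h02 h12 := by rw [h]; trivial
    rw [mem_parField] at hc
    exact par_move hn hM (rat_single F₀ i1 h1F) (rat_single F₀ i0 h1F)
      (s0 i1) (s0 i0) (single_dot_single_ne (Ne.symm h01) 1 1) (rat_single F₀ j h1F)
      (rat_single F₀ i h1F) (s0 j) (s0 i) (single_dot_single_ne (Ne.symm hij) 1 1) hc

/-- a transvection of `M` with rational axis has rational centre -/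
theorem center_rat (hn : 3 ≤ n) (hM : HasRat F₀ M) (hR : NoExtra F₀ M) {ψ u : Fin n → F}
    (hψ : Rat F₀ ψ) (hψ0 : ψ ≠ 0) (hψu : ψ ⬝ᵥ u = 0) (h : tv ψ u ∈ M) : Rat F₀ u := by
  intro i
  have h1F : (1 : F) ∈ F₀ := F₀.one_mem
  obtain ⟨w, hw, hw0, hwφ, hwψ⟩ := exists_rat_perp2 F₀ hn (rat_single F₀ i h1F) hψ
  have hφw : (Pi.single i (1 : F) : Fin n → F) ⬝ᵥ w = 0 := by rw [dotProduct_comm]; exact hwφ
  have hψw : ψ ⬝ᵥ w = 0 := by rw [dotProduct_comm]; exact hwψ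
  have h2 : tv (Pi.single i (1 : F) : Fin n → F) w ∈ M :=
    hM _ _ (rat_single F₀ i h1F) hw hφw
  have h3 := comm_mem M h h2 hψu hφw hψw
  have h4 := hR ψ w hψ hw hψ0 hw0 hψw _ h3
  rw [single_dotProduct, one_mul] at h4
  have := F₀.neg_mem h4
  rwa [neg_neg] at this

/-- a transvection of `M` whose centre lies in a rational hyperplane has a centre proportional
to a rational vector -/
theorem center_prop (hn : 3 ≤ n) (hM : HasRat F₀ M) (hR : NoExtra F₀ M) {φ u ψ : Fin n → F}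
    (hφu : φ ⬝ᵥ u = 0) (hφ0 : φ ≠ 0) (h : tv φ u ∈ M) (hψ : Rat F₀ ψ) (hψ0 : ψ ≠ 0)
    (hψu : ψ ⬝ᵥ u = 0) : ∃ c : F, c ≠ 0 ∧ Rat F₀ (c • u) := by
  by_cases hex : ∃ v : Fin n → F, Rat F₀ v ∧ ψ ⬝ᵥ v = 0 ∧ φ ⬝ᵥ v ≠ 0
  · obtain ⟨v, hv, hψv, hφv⟩ := hex
    have h1 : tv ψ v ∈ M := hM _ _ hψ hv hψv
    have h2 := comm_mem M h1 h hψv hφu hψu
    rw [tv_smul_comm hψu] at h2
    refine ⟨-(φ ⬝ᵥ v), neg_ne_zero.mpr hφv, ?_⟩
    exact center_rat hn hM hR hψ hψ0 (by rw [dotProduct_smul, hψu, smul_zero]) h2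
  · push Not at hex
    obtain ⟨d, hd⟩ := prop_of_forall_perp F₀ hψ hψ0 (u := φ) (by
      intro z hz hzψ
      rw [dotProduct_comm]
      exact hex z hz (by rw [dotProduct_comm]; exact hzψ))
    have hd0 : d ≠ 0 := by
      rintro rfl
      rw [zero_smul] at hd
      exact hφ0 hd
    refine ⟨d, hd0, ?_⟩
    rw [hd, tv_smul_comm hψu] at h
    exact center_rat hn hM hR hψ hψ0 (by rw [dotProduct_smul, hψu, smul_zero]) h

end Cfsg.Agent.Lib.Helper94.Subf
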