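import Mathlib
import Cfsg.Agent.Lib.Helper94.SubPar
import Cfsg.Agent.Lib.Helper13.SubfieldRat

set_option autoImplicit false

/-! Membership in the subfield subgroup (trivial change of basis), and maximal subfields. -/

namespace Cfsg.Agent.Lib.Helper94.Subf

open Matrix

variable {F : Type*} [Field F] [Fintype F] {n : ℕ}

theorem isRat_one_iff (F₀ : Subfield F) (x : Fin n → F) :
    Cfsg.Agent.Lib.Helper13.IsRat F₀ (1 : GL (Fin n) F) x ↔ Rat F₀ x := by
  constructor
  · rintro ⟨u, hu, rfl⟩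
    rw [Units.val_one, Matrix.one_mulVec]
    exact hu
  · intro hx
    exact ⟨x, hx, by rw [Units.val_one, Matrix.one_mulVec]⟩

theorem single_one_ne_zero (i : Fin n) : (Pi.single i (1 : F) : Fin n → F) ≠ 0 := by
  intro h
  have := congrFun h i
  simp at this

/-- an invertible matrix mapping every rational vector to a multiple of a rational vector lies
in the subfield subgroup -/
theorem mem_subfield_of_maps (F₀ : Subfield F) (hn : 1 ≤ n) (g : GL (Fin n) F)
    (h : ∀ x : Fin n → F, Rat F₀ x → ∃ (c : F) (y : Fin n → F), Rat F₀ y ∧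
      (g : Matrix (Fin n) (Fin n) F) *ᵥ x = c • y) :
    g ∈ Cfsg.Geo.subfieldSubgroup F₀ (1 : GL (Fin n) F) := by
  have hginj : ∀ v, (g : Matrix (Fin n) (Fin n) F) *ᵥ v = 0 → v = 0 := by
    intro v hv
    have := congrArg (fun t => ((g⁻¹ : GL (Fin n) F) : Matrix (Fin n) (Fin n) F) *ᵥ t) hv
    simpa only [Cfsg.Agent.Lib.Helper93.gl_inv_mulVec, Matrix.mulVec_zero] using this
  obtain ⟨i0, hi0⟩ : ∃ i0 : Fin n, i0 = ⟨0, by omega⟩ := ⟨_, rfl⟩
  have h1F : (1 : F) ∈ F₀ := F₀.one_mem
  obtain ⟨c₀, y₀, hy₀, hgy₀⟩ := h (Pi.single i0 1) (rat_single F₀ i0 h1F)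
  have he0 : (Pi.single i0 (1 : F) : Fin n → F) ≠ 0 := single_one_ne_zero i0
  have hc₀ : c₀ ≠ 0 := by
    rintro rfl
    rw [zero_smul] at hgy₀
    exact he0 (hginj _ hgy₀)
  have hy₀0 : y₀ ≠ 0 := by
    rintro rfl
    rw [smul_zero] at hgy₀
    exact he0 (hginj _ hgy₀)
  apply Cfsg.Agent.Lib.Helper13.mem_subfieldSubgroup_of_maps F₀ 1 g c₀ hc₀
  intro x hx
  rw [isRat_one_iff] at hx
  suffices hs : ∃ v', Rat F₀ v' ∧ (g : Matrix (Fin n) (Fin n) F) *ᵥ x = c₀ • v' by
    obtain ⟨v', hv', e⟩ := hs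
    exact ⟨v', (isRat_one_iff F₀ v').mpr hv', e⟩
  obtain ⟨c, y, hy, hgy⟩ := h x hx
  by_cases hc : c = 0
  · refine ⟨0, rat_zero F₀, ?_⟩
    rw [hgy, hc, zero_smul, smul_zero]
  obtain ⟨c', y', hy', hgy'⟩ := h (Pi.single i0 1 + x) ((rat_single F₀ i0 h1F).add hx)
  rw [Matrix.mulVec_add, hgy₀, hgy] at hgy'
  by_cases hD : ∃ k l, y₀ k * y l - y₀ l * y k ≠ 0
  · obtain ⟨k, l, hkl⟩ := hD
    have hk := congrFun hgy' k
    have hl := congrFun hgy' l
    simp only [Pi.add_apply, Pi.smul_apply, smul_eq_mul] at hk hl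
    have hα : c₀ * (y₀ k * y l - y₀ l * y k) = c' * (y' k * y l - y' l * y k) := by
      linear_combination y l * hk - y k * hl
    have hβ : c * (y₀ k * y l - y₀ l * y k) = c' * (y' l * y₀ k - y' k * y₀ l) := by
      linear_combination y₀ k * hl - y₀ l * hk
    have hc' : c' ≠ 0 := by
      rintro rfl
      rw [zero_mul] at hα
      exact mul_ne_zero hc₀ hkl hα
    have hα0 : y' k * y l - y' l * y k ≠ 0 := by
      intro h0
      rw [h0, mul_zero] at hα
      exact mul_ne_zero hc₀ hkl hα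
    have key : c * (y' k * y l - y' l * y k) = c₀ * (y' l * y₀ k - y' k * y₀ l) := by
      have h1 : c * (y' k * y l - y' l * y k) * c' = c₀ * (y' l * y₀ k - y' k * y₀ l) * c' := by
        linear_combination c₀ * hβ - c * hα
      exact mul_right_cancel₀ hc' h1
    refine ⟨((y' l * y₀ k - y' k * y₀ l) / (y' k * y l - y' l * y k)) • y,
      hy.smul (F₀.div_mem (F₀.sub_mem (F₀.mul_mem (hy' l) (hy₀ k)) (F₀.mul_mem (hy' k) (hy₀ l)))
        (F₀.sub_mem (F₀.mul_mem (hy' k) (hy l)) (F₀.mul_mem (hy' l) (hy k)))), ?_⟩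
    rw [hgy, smul_smul]
    congr 1
    rw [← mul_div_assoc, eq_div_iff hα0]
    exact key
  · push Not at hD
    obtain ⟨i, hi⟩ := exists_ne_zero_coord hy₀0
    have hyd : y = (y i / y₀ i) • y₀ := by
      funext l
      have h1 := hD i l
      rw [Pi.smul_apply, smul_eq_mul]
      field_simp
      linear_combination h1
    have hx2 : x = (c * (y i / y₀ i) / c₀) • Pi.single i0 1 := by
      have h0 : (g : Matrix (Fin n) (Fin n) F) *ᵥ
          (x - (c * (y i / y₀ i) / c₀) • Pi.single i0 1) = 0 := by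
        rw [Matrix.mulVec_sub, Matrix.mulVec_smul, hgy₀, hgy, smul_smul, div_mul_cancel₀ _ hc₀]
        nth_rewrite 1 [hyd]
        rw [smul_smul, sub_self]
      exact sub_eq_zero.mp (hginj _ h0)
    have ht : c * (y i / y₀ i) / c₀ = x i0 := by
      have h1 := congrFun hx2 i0
      rw [Pi.smul_apply, Pi.single_eq_same, smul_eq_mul, mul_one] at h1
      exact h1.symm
    refine ⟨x i0 • y₀, hy₀.smul (hx i0), ?_⟩
    rw [hgy, smul_smul, ← ht, mul_div_cancel₀ _ hc₀]
    nth_rewrite 1 [hyd]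
    rw [smul_smul]

/-- a subfield of prime index is maximal and proper -/
theorem subfield_max_of_card (F₀ : Subfield F) (r : ℕ) (hr : r.Prime)
    (hcard : Fintype.card F = Nat.card F₀ ^ r) :
    (∀ K : Subfield F, F₀ ≤ K → K = F₀ ∨ K = ⊤) ∧ F₀ ≠ ⊤ := by
  have : Fintype F₀ := Fintype.ofFinite _
  have h2 : 2 ≤ Nat.card F₀ := by
    rw [Nat.card_eq_fintype_card]
    exact Fintype.one_lt_card
  have hfr : Module.finrank F₀ F = r := by
    have h1 := Module.card_eq_pow_finrank (K := F₀) (V := F)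
    rw [hcard, Nat.card_eq_fintype_card] at h1
    exact (Nat.pow_right_injective (by rw [← Nat.card_eq_fintype_card]; exact h2) h1).symm
  constructor
  · intro K hK
    have hsimp := IntermediateField.isSimpleOrder_of_finrank_prime F₀ F (by rw [hfr]; exact hr)
    obtain ⟨K', hK'⟩ : ∃ K' : IntermediateField F₀ F, K' =
        Subfield.toIntermediateField K (fun x => hK x.2) := ⟨_, rfl⟩
    have hmem : ∀ x : F, x ∈ K' ↔ x ∈ K := by
      intro x
      rw [hK']
      rfl
    rcases hsimp.eq_bot_or_eq_top K' with h | h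
    · left
      apply le_antisymm _ hK
      intro x hx
      have h1 : x ∈ K' := (hmem x).mpr hx
      rw [h, IntermediateField.mem_bot] at h1
      obtain ⟨y, rfl⟩ := h1
      exact y.2
    · right
      rw [eq_top_iff]
      intro x _
      rw [← hmem, h]
      exact IntermediateField.mem_top
  · intro htop
    have h1 : Nat.card F₀ = Fintype.card F := by
      rw [htop, ← Nat.card_eq_fintype_card]
      exact Nat.card_congr (Subfield.topEquiv (K := F)).toEquiv
    rw [h1] at hcard h2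
    have h3 : Fintype.card F ^ 1 = Fintype.card F ^ r := by rw [pow_one]; exact hcard
    have h4 := Nat.pow_right_injective h2 h3
    have := hr.two_le
    omega

/-- maximality is preserved by an automorphism -/
theorem isMaximalIn_map {G : Type*} [Group G] (e : G ≃* G) {K H : Subgroup G}
    (h : Cfsg.Geo.IsMaximalIn K H) :
    Cfsg.Geo.IsMaximalIn (K.map e.toMonoidHom) (H.map e.toMonoidHom) := by
  obtain ⟨hlt, hmax⟩ := h
  refine ⟨?_, ?_⟩
  · exact (Subgroup.map_lt_map_iff_of_injective e.injective).mpr hlt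
  · intro M hHM hMK
    have h1 : H ≤ M.comap e.toMonoidHom := Subgroup.map_le_iff_le_comap.mp hHM
    have h2 : M.comap e.toMonoidHom ≤ K := by
      have := Subgroup.comap_mono (f := e.toMonoidHom) hMK
      rwa [Subgroup.comap_map_eq_self_of_injective e.injective] at this
    have h3 : (M.comap e.toMonoidHom).map e.toMonoidHom = M :=
      Subgroup.map_comap_eq_self_of_surjective e.surjective M
    rcases hmax _ h1 h2 with h | h
    · left
      rw [← h3, h]
    · right
      rw [← h3, h]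

end Cfsg.Agent.Lib.Helper94.Subf
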