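import Cfsg.Agent.Lib.Helper93.Parabolic
import Cfsg.Agent.Lib.Helper94.PlaneThree

set_option autoImplicit false

namespace Cfsg.Agent.Lib.Helper94

open Cfsg Cfsg.Geo
open scoped MatrixGroups Matrix

variable {F : Type*} [Field F]

/-- The diagonal matrix with one entry `δ` and the others `1`. -/
noncomputable def diagOneGL {n : ℕ} (i₀ : Fin n) (δ : Fˣ) : GL (Fin n) F :=
  ⟨Matrix.diagonal (fun i => if i = i₀ then (δ : F) else 1),
    Matrix.diagonal (fun i => if i = i₀ then ((δ⁻¹ : Fˣ) : F) else 1),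
    by
      rw [Matrix.diagonal_mul_diagonal, ← Matrix.diagonal_one]
      congr 1
      funext i
      by_cases h : i = i₀ <;> simp [h],
    by
      rw [Matrix.diagonal_mul_diagonal, ← Matrix.diagonal_one]
      congr 1
      funext i
      by_cases h : i = i₀ <;> simp [h]⟩

theorem diagOneGL_mulVec {n : ℕ} (i₀ : Fin n) (δ : Fˣ) (v : Fin n → F) (i : Fin n) :
    (((diagOneGL i₀ δ : GL (Fin n) F) : Matrix (Fin n) (Fin n) F) *ᵥ v) i
      = (if i = i₀ then (δ : F) else 1) * v i := by
  rw [diagOneGL]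
  simp [Matrix.mulVec_diagonal]

theorem diagOneGL_det {n : ℕ} (i₀ : Fin n) (δ : Fˣ) :
    Matrix.GeneralLinearGroup.det (diagOneGL i₀ δ : GL (Fin n) F) = δ := by
  apply Units.ext
  rw [Matrix.GeneralLinearGroup.val_det_apply, diagOneGL]
  simp [Matrix.det_diagonal, Finset.prod_ite_eq']

/-- The subspace of vectors supported on the first `k` coordinates. -/
def firstCoords (F : Type*) [Field F] (n k : ℕ) : Submodule F (Fin n → F) where
  carrier := {v : Fin n → F | ∀ i : Fin n, k ≤ (i : ℕ) → v i = 0}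
  add_mem' := by
    intro a b ha hb i hi
    rw [Pi.add_apply, ha i hi, hb i hi, add_zero]
  zero_mem' := by
    intro i _
    rfl
  smul_mem' := by
    intro c v hv i hi
    rw [Pi.smul_apply, hv i hi, smul_zero]

theorem diagOneGL_mem {n : ℕ} (k : ℕ) (i₀ : Fin n) (δ : Fˣ) :
    (diagOneGL i₀ δ : GL (Fin n) F) ∈ subspaceStabilizer (firstCoords F n k) := by
  intro v
  constructor
  · intro hv i hi
    show (((diagOneGL i₀ δ : GL (Fin n) F) : Matrix (Fin n) (Fin n) F) *ᵥ v) i = 0
    rw [diagOneGL_mulVec, hv i hi, mul_zero]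
  · intro hv i hi
    have h1 : (((diagOneGL i₀ δ : GL (Fin n) F) : Matrix (Fin n) (Fin n) F) *ᵥ v) i = 0 :=
      hv i hi
    rw [diagOneGL_mulVec] at h1
    rcases mul_eq_zero.mp h1 with h2 | h2
    · exfalso
      by_cases h : i = i₀
      · rw [if_pos h] at h2
        exact δ.ne_zero h2
      · rw [if_neg h] at h2
        exact one_ne_zero h2
    · exact h2

/-- Maximal parabolic subgroups of `GL` are coatoms. -/
theorem gl_parabolic_isCoatom (n k : ℕ) (hk0 : 0 < k) (hkn : k < n) :
    IsCoatom (stabilizing (glToMat (Fin n) F)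
      {v : Fin n → F | ∀ i : Fin n, k ≤ (i : ℕ) → v i = 0}) := by
  classical
  have hn : 0 < n := by omega
  have hW0 : firstCoords F n k ≠ ⊥ := by
    intro h
    have hmem : (Pi.single (⟨0, hn⟩ : Fin n) (1 : F) : Fin n → F) ∈ firstCoords F n k := by
      intro i hi
      have : i ≠ (⟨0, hn⟩ : Fin n) := by
        intro h'
        rw [h'] at hi
        simp at hi
        omega
      rw [Pi.single_eq_of_ne this]
    rw [h, Submodule.mem_bot] at hmem
    have := congrFun hmem (⟨0, hn⟩ : Fin n)
    simp at this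
  have hW1 : firstCoords F n k ≠ ⊤ := by
    intro h
    have hmem : (Pi.single (⟨k, hkn⟩ : Fin n) (1 : F) : Fin n → F) ∈ firstCoords F n k := by
      rw [h]
      exact Submodule.mem_top
    have := hmem (⟨k, hkn⟩ : Fin n) (le_refl k)
    simp at this
  have hmax := Cfsg.Agent.Lib.Helper93.parabolic_maximal (firstCoords F n k) hW0 hW1
  have hset : stabilizing (glToMat (Fin n) F)
      {v : Fin n → F | ∀ i : Fin n, k ≤ (i : ℕ) → v i = 0}
      = subspaceStabilizer (firstCoords F n k) := rfl
  rw [hset]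
  obtain ⟨hlt, hmax⟩ := hmax
  have hSL : ∀ g : GL (Fin n) F, g ∈ specialLinear (Fin n) F ↔
      Matrix.GeneralLinearGroup.det g = 1 := fun g => MonoidHom.mem_ker
  constructor
  · intro htop
    rw [htop, top_inf_eq] at hlt
    exact lt_irrefl _ hlt
  · intro M hM
    have hle : subspaceStabilizer (firstCoords F n k) ⊓ specialLinear (Fin n) F
        ≤ M ⊓ specialLinear (Fin n) F := inf_le_inf_right _ hM.le
    rcases hmax (M ⊓ specialLinear (Fin n) F) hle inf_le_right with h | h
    · exfalso
      obtain ⟨g, hgM, hgH⟩ := SetLike.exists_of_lt hM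
      apply hgH
      have hd := diagOneGL_mem (F := F) k (⟨0, hn⟩ : Fin n) (Matrix.GeneralLinearGroup.det g)⁻¹
      have hgd : g * diagOneGL (⟨0, hn⟩ : Fin n) (Matrix.GeneralLinearGroup.det g)⁻¹
          ∈ M ⊓ specialLinear (Fin n) F := by
        refine ⟨M.mul_mem hgM (hM.le hd), (hSL _).mpr ?_⟩
        rw [map_mul, diagOneGL_det, mul_inv_cancel]
      rw [h] at hgd
      have := (subspaceStabilizer (firstCoords F n k)).mul_mem hgd.1
        ((subspaceStabilizer (firstCoords F n k)).inv_mem hd)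
      rwa [mul_inv_cancel_right] at this
    · rw [eq_top_iff]
      intro g _
      have hd := diagOneGL_mem (F := F) k (⟨0, hn⟩ : Fin n) (Matrix.GeneralLinearGroup.det g)
      have hgd : g * (diagOneGL (⟨0, hn⟩ : Fin n) (Matrix.GeneralLinearGroup.det g))⁻¹
          ∈ M ⊓ specialLinear (Fin n) F := by
        rw [h]
        apply (hSL _).mpr
        rw [map_mul, map_inv, diagOneGL_det, mul_inv_cancel]
      have := M.mul_mem hgd.1 (hM.le hd)
      rwa [inv_mul_cancel_right] at this

end Cfsg.Agent.Lib.Helper94
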