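import Cfsg.Agent.Lib.Helper94.FrameMax

set_option autoImplicit false
set_option linter.unusedSectionVars false

namespace Cfsg.Agent.Lib.Helper94

open Cfsg Cfsg.Geo
open scoped MatrixGroups Matrix

variable {F : Type*} [Field F] (n : ℕ)

theorem hf_add_left (q : ℕ) (u u' v : Fin n → F) :
    hermForm n F q (u + u') v = hermForm n F q u v + hermForm n F q u' v := by
  unfold Cfsg.hermForm
  rw [← Finset.sum_add_distrib]
  exact Finset.sum_congr rfl fun i _ => by simp only [Pi.add_apply]; ring

theorem hf_smul_left (q : ℕ) (a : F) (u v : Fin n → F) :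
    hermForm n F q (a • u) v = a * hermForm n F q u v := by
  unfold Cfsg.hermForm
  rw [Finset.mul_sum]
  exact Finset.sum_congr rfl fun i _ => by simp only [Pi.smul_apply, smul_eq_mul]; ring

theorem hf_zero_left (q : ℕ) (v : Fin n → F) : hermForm n F q 0 v = 0 := by
  unfold Cfsg.hermForm
  simp

theorem hf_smul_right (q : ℕ) (a : F) (u v : Fin n → F) :
    hermForm n F q u (a • v) = a ^ q * hermForm n F q u v := by
  unfold Cfsg.hermForm
  rw [Finset.mul_sum]
  exact Finset.sum_congr rfl fun i _ => by simp only [Pi.smul_apply, smul_eq_mul]; ring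

theorem hf_add_right_two (h2 : (2 : F) = 0) (u v v' : Fin n → F) :
    hermForm n F 2 u (v + v') = hermForm n F 2 u v + hermForm n F 2 u v' := by
  unfold Cfsg.hermForm
  rw [← Finset.sum_add_distrib]
  exact Finset.sum_congr rfl fun i _ => by
    simp only [Pi.add_apply]
    linear_combination (u i * v i * v' i) * h2

theorem sq_sum_two (h2 : (2 : F) = 0) {κ : Type*} (s : Finset κ) (f : κ → F) :
    (∑ i ∈ s, f i) ^ 2 = ∑ i ∈ s, f i ^ 2 := by
  classical
  induction s using Finset.induction_on with
  | empty => simp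
  | insert a s ha ih =>
    rw [Finset.sum_insert ha, Finset.sum_insert ha, ← ih]
    linear_combination (f a * ∑ i ∈ s, f i) * h2

theorem hf_conj_two (h2 : (2 : F) = 0) (h4 : ∀ x : F, x ^ 4 = x) (u v : Fin n → F) :
    hermForm n F 2 v u = hermForm n F 2 u v ^ 2 := by
  unfold Cfsg.hermForm
  rw [sq_sum_two h2]
  exact Finset.sum_congr rfl fun i _ => by
    linear_combination (-(u i) ^ 2) * h4 (v i)

/-- The functional `x ↦ h(x, v)`. -/
def hfL (q : ℕ) (v : Fin n → F) : (Fin n → F) →ₗ[F] F where
  toFun x := hermForm n F q x v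
  map_add' x y := hf_add_left n q x y v
  map_smul' c x := by simpa using hf_smul_left n q c x v

/-- The unitary transvection `x ↦ x + h(x, v) v` as a linear map. -/
def hermTransLin (v : Fin n → F) : (Fin n → F) →ₗ[F] (Fin n → F) :=
  LinearMap.id + (hfL n 2 v).smulRight v

theorem hermTransLin_apply (v x : Fin n → F) :
    hermTransLin n v x = x + hermForm n F 2 x v • v := by
  simp [hermTransLin, hfL]

theorem hermTransLin_invol (h2 : (2 : F) = 0) (v : Fin n → F) (hv : hermForm n F 2 v v = 0)
    (x : Fin n → F) : hermTransLin n v (hermTransLin n v x) = x := by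
  rw [hermTransLin_apply, hermTransLin_apply, hf_add_left, hf_smul_left, hv]
  match_scalars
  · ring
  · linear_combination (hermForm n F 2 x v) * h2

/-- The unitary transvection as an invertible matrix. -/
noncomputable def hermTransGL (h2 : (2 : F) = 0) (v : Fin n → F) (hv : hermForm n F 2 v v = 0) :
    GL (Fin n) F :=
  glOfLin (hermTransLin n v) (hermTransLin n v)
    (LinearMap.ext fun x => by simpa using hermTransLin_invol n h2 v hv x)
    (LinearMap.ext fun x => by simpa using hermTransLin_invol n h2 v hv x)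

theorem hermTransGL_mulVec (h2 : (2 : F) = 0) (v : Fin n → F) (hv : hermForm n F 2 v v = 0)
    (x : Fin n → F) :
    ((hermTransGL n h2 v hv : GL (Fin n) F) : Matrix (Fin n) (Fin n) F) *ᵥ x
      = x + hermForm n F 2 x v • v := by
  rw [hermTransGL, glOfLin_mulVec, hermTransLin_apply]

theorem mem_GU_iff (q : ℕ) (g : GL (Fin n) F) :
    g ∈ GU n F q ↔ ∀ u v, hermForm n F q
      ((g : Matrix (Fin n) (Fin n) F) *ᵥ u)
      ((g : Matrix (Fin n) (Fin n) F) *ᵥ v) = hermForm n F q u v := Iff.rfl

theorem hermTransGL_mem_GU (h2 : (2 : F) = 0) (h4 : ∀ x : F, x ^ 4 = x) (v : Fin n → F)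
    (hv : hermForm n F 2 v v = 0) : hermTransGL n h2 v hv ∈ GU n F 2 := by
  rw [mem_GU_iff]
  intro x y
  rw [hermTransGL_mulVec, hermTransGL_mulVec]
  simp only [hf_add_left, hf_add_right_two n h2, hf_smul_left, hf_smul_right, hv]
  rw [hf_conj_two n h2 h4 y v]
  linear_combination (hermForm n F 2 x v * hermForm n F 2 y v ^ 2) * h2

theorem hermTransGL_det (h2 : (2 : F) = 0) (v : Fin n → F)
    (hv : hermForm n F 2 v v = 0) :
    ((hermTransGL n h2 v hv : GL (Fin n) F) : Matrix (Fin n) (Fin n) F).det = 1 := by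
  have hmat : ((hermTransGL n h2 v hv : GL (Fin n) F) : Matrix (Fin n) (Fin n) F)
      = 1 + Matrix.replicateCol Unit v * Matrix.replicateRow Unit (fun j => v j ^ 2) := by
    show LinearMap.toMatrix' (hermTransLin n v) = _
    ext i j
    rw [LinearMap.toMatrix'_apply, hermTransLin_apply]
    simp [Matrix.one_apply, Matrix.mul_apply, Cfsg.hermForm, Pi.single_apply, eq_comm]
    ring
  rw [hmat, Matrix.det_one_add_replicateCol_mul_replicateRow]
  have : (fun j => v j ^ 2) ⬝ᵥ v = hermForm n F 2 v v := by
    unfold Cfsg.hermForm dotProduct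
    exact Finset.sum_congr rfl fun i _ => by ring
  rw [this, hv, add_zero]

theorem hermTransGL_mem_SL (h2 : (2 : F) = 0) (v : Fin n → F)
    (hv : hermForm n F 2 v v = 0) : hermTransGL n h2 v hv ∈ specialLinear (Fin n) F := by
  unfold specialLinear
  rw [MonoidHom.mem_ker]
  ext
  rw [Matrix.GeneralLinearGroup.val_det_apply, hermTransGL_det]
  rfl

end Cfsg.Agent.Lib.Helper94
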