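import Cfsg.Agent.Lib.Helper94.Herm

set_option autoImplicit false
set_option linter.unusedSectionVars false

namespace Cfsg.Agent.Lib.Helper94

open Cfsg Cfsg.Geo
open scoped MatrixGroups Matrix

variable {F : Type*} [Field F] {n : ℕ}

lemma two_eq_zero_of_card_four [Fintype F] (hF : Fintype.card F = 4) : (2 : F) = 0 := by
  have h := FiniteField.cast_card_eq_zero F
  rw [hF] at h
  have h' : (2 : F) * 2 = 0 := by
    have : ((4 : ℕ) : F) = 2 * 2 := by norm_num
    rw [← this]
    exact h
  exact mul_self_eq_zero.mp h'

lemma pow_four_of_card_four [Fintype F] (hF : Fintype.card F = 4) (x : F) : x ^ 4 = x := by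
  have := FiniteField.pow_card x
  rwa [hF] at this

lemma pow_three_of_card_four [Fintype F] (hF : Fintype.card F = 4) (x : F) (hx : x ≠ 0) :
    x ^ 3 = 1 := by
  have := FiniteField.pow_card_sub_one_eq_one x hx
  rwa [hF] at this

lemma exists_ne_zero_one_of_card_four [Fintype F] (hF : Fintype.card F = 4) :
    ∃ l : F, l ≠ 0 ∧ l ≠ 1 := by
  classical
  by_contra h
  push Not at h
  have hsub : (Finset.univ : Finset F) ⊆ {0, 1} := by
    intro x _
    by_cases hx : x = 0
    · simp [hx]
    · simp [h x hx]
  have h1 := Finset.card_le_card hsub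
  rw [Finset.card_univ, hF] at h1
  have h2 : ({0, 1} : Finset F).card ≤ 2 := Finset.card_le_two
  omega

/-- An orthonormal basis of a non-degenerate unitary plane over the field with four elements. -/
lemma exists_orthonormal_pair [Fintype F] (hF : Fintype.card F = 4)
    (D0 : Submodule F (Fin n → F)) (hfr : Module.finrank F D0 = 2)
    (hnd : IsNondegenerateOn (hermForm n F 2) D0) :
    ∃ e f : Fin n → F, e ∈ D0 ∧ f ∈ D0 ∧ hermForm n F 2 e e = 1 ∧ hermForm n F 2 f f = 1 ∧
      hermForm n F 2 e f = 0 ∧ hermForm n F 2 f e = 0 ∧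
      ∀ d ∈ D0, ∃ x y : F, d = x • e + y • f := by
  have h2 := two_eq_zero_of_card_four hF
  have h4 := pow_four_of_card_four hF
  have hself : ∀ v : Fin n → F, hermForm n F 2 v v = 0 ∨ hermForm n F 2 v v = 1 := by
    intro v
    have hc := hf_conj_two n h2 h4 v v
    by_cases h0 : hermForm n F 2 v v = 0
    · exact Or.inl h0
    · right
      have : hermForm n F 2 v v * (hermForm n F 2 v v - 1) = 0 := by linear_combination -hc
      rcases mul_eq_zero.mp this with h | h
      · exact absurd h h0
      · linear_combination h
  have hA : ∃ e ∈ D0, hermForm n F 2 e e ≠ 0 := by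
    by_contra hcon
    push Not at hcon
    have hne : D0 ≠ ⊥ := by
      intro h
      rw [h] at hfr
      simp at hfr
    obtain ⟨w, hwD, hw0⟩ := Submodule.exists_mem_ne_zero_of_ne_bot hne
    obtain ⟨⟨x, hxD, hxw⟩, -⟩ := hnd w hwD hw0
    obtain ⟨l, hl0, hl1⟩ := exists_ne_zero_one_of_card_four hF
    obtain ⟨β, hβ⟩ : ∃ β, β = hermForm n F 2 x w := ⟨_, rfl⟩
    have hβ0 : β ≠ 0 := by rw [hβ]; exact hxw
    obtain ⟨x', hx'def⟩ : ∃ x' : Fin n → F, x' = β⁻¹ • x := ⟨_, rfl⟩
    have hx' : hermForm n F 2 x' w = 1 := by
      rw [hx'def, hf_smul_left, ← hβ]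
      exact inv_mul_cancel₀ hβ0
    have hx'D : x' ∈ D0 := by
      rw [hx'def]
      exact D0.smul_mem _ hxD
    have key := hcon (l • x' + w) (D0.add_mem (D0.smul_mem _ hx'D) hwD)
    have k1 := hcon x' hx'D
    have k2 := hcon w hwD
    have k3 : hermForm n F 2 w x' = 1 := by
      rw [hf_conj_two n h2 h4 x' w, hx']
      ring
    rw [hf_add_left, hf_add_right_two n h2, hf_add_right_two n h2, hf_smul_left, hf_smul_left,
      hf_smul_right, hf_smul_right, k1, k2, k3, hx'] at key
    have : l * (l + 1) = 0 := by linear_combination key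
    rcases mul_eq_zero.mp this with h | h
    · exact hl0 h
    · exact hl1 (by linear_combination h - h2)
  obtain ⟨e, heD, hee⟩ := hA
  have hee1 : hermForm n F 2 e e = 1 := (hself e).resolve_left hee
  have he0 : e ≠ 0 := by
    rintro rfl
    rw [hf_zero_left] at hee
    exact hee rfl
  have hlt : ¬ D0 ≤ Submodule.span F {e} := by
    intro hle
    have hle' : Submodule.span F {e} ≤ D0 := by
      rw [Submodule.span_le]
      intro v hv
      rw [Set.mem_singleton_iff] at hv
      rw [hv]
      exact heD
    have := le_antisymm hle hle'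
    rw [this, finrank_span_singleton he0] at hfr
    omega
  obtain ⟨f', hf'D, hf'e⟩ := SetLike.not_le_iff_exists.mp hlt
  obtain ⟨f, hf⟩ : ∃ f, f = f' + hermForm n F 2 f' e • e := ⟨_, rfl⟩
  have hfD : f ∈ D0 := by
    rw [hf]
    exact D0.add_mem hf'D (D0.smul_mem _ heD)
  have hfe : hermForm n F 2 f e = 0 := by
    rw [hf, hf_add_left, hf_smul_left, hee1]
    linear_combination (hermForm n F 2 f' e) * h2
  have hef : hermForm n F 2 e f = 0 := by
    rw [hf_conj_two n h2 h4 f e, hfe]
    ring
  have hfspan : f ∉ Submodule.span F {e} := by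
    intro h
    apply hf'e
    have : f' = f + hermForm n F 2 f' e • e := by
      rw [hf]
      match_scalars
      · ring
      · linear_combination (-(hermForm n F 2 f' e)) * h2
    rw [this]
    exact Submodule.add_mem _ h (Submodule.smul_mem _ _ (Submodule.mem_span_singleton_self e))
  have hf0 : f ≠ 0 := by
    rintro rfl
    exact hfspan (Submodule.zero_mem _)
  have hli : LinearIndependent F ![e, f] := by
    rw [LinearIndependent.pair_iff]
    intro s t hst
    have e1 : hermForm n F 2 (s • e + t • f) e = 0 := by rw [hst, hf_zero_left]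
    rw [hf_add_left, hf_smul_left, hf_smul_left, hee1, hfe] at e1
    have hs : s = 0 := by linear_combination e1
    rw [hs, zero_smul, zero_add] at hst
    exact ⟨hs, (smul_eq_zero.mp hst).resolve_right hf0⟩
  have hspan_le : Submodule.span F {e, f} ≤ D0 := by
    rw [Submodule.span_le]
    intro v hv
    rcases hv with rfl | rfl
    · exact heD
    · exact hfD
  have hfr' : Module.finrank F (Submodule.span F {e, f}) = 2 := by
    have := finrank_span_eq_card hli
    rw [Matrix.range_cons_cons_empty] at this
    simpa using this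
  have heq : Submodule.span F {e, f} = D0 :=
    Submodule.eq_of_le_of_finrank_eq hspan_le (by rw [hfr', hfr])
  have hspan : ∀ d ∈ D0, ∃ x y : F, d = x • e + y • f := by
    intro v hv
    rw [← heq, Submodule.mem_span_pair] at hv
    obtain ⟨x, y, hxy⟩ := hv
    exact ⟨x, y, hxy.symm⟩
  have hff : hermForm n F 2 f f ≠ 0 := by
    intro hff
    obtain ⟨⟨x, hxD, hxf⟩, -⟩ := hnd f hfD hf0
    obtain ⟨a, b, rfl⟩ := hspan x hxD
    apply hxf
    rw [hf_add_left, hf_smul_left, hf_smul_left, hef, hff]
    ring
  exact ⟨e, f, heD, hfD, hee1, (hself f).resolve_left hff, hef, hfe, hspan⟩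

lemma nonisotropic_cases [Fintype F] (hF : Fintype.card F = 4) (e f : Fin n → F)
    (hee : hermForm n F 2 e e = 1) (hff : hermForm n F 2 f f = 1)
    (hef : hermForm n F 2 e f = 0) (hfe : hermForm n F 2 f e = 0) (x y : F)
    (h : hermForm n F 2 (x • e + y • f) (x • e + y • f) ≠ 0) : x = 0 ∨ y = 0 := by
  have h2 := two_eq_zero_of_card_four hF
  by_contra hcon
  push Not at hcon
  apply h
  simp only [hf_add_left, hf_add_right_two n h2, hf_smul_left, hf_smul_right, hee, hff, hef, hfe]
  have h3x := pow_three_of_card_four hF x hcon.1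
  have h3y := pow_three_of_card_four hF y hcon.2
  linear_combination h3x + h3y + h2

/-- Over the field with four elements the stabiliser in the special unitary group of a
decomposition into pairwise orthogonal non-degenerate planes is not maximal. -/
theorem su_four_decomp_not_max [Fintype F] (hF : Fintype.card F = 4) {t : ℕ}
    (D : Fin t → Submodule F (Fin n → F))
    (hD : IsNondegenerateMDecomposition (hermForm n F 2) 2 D) :
    ∃ K : Subgroup (GL (Fin n) F),
      decompositionStabilizer D ⊓ (GU n F 2 ⊓ specialLinear (Fin n) F) < K ∧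
        K < GU n F 2 ⊓ specialLinear (Fin n) F := by
  classical
  have h2 := two_eq_zero_of_card_four hF
  have h4 := pow_four_of_card_four hF
  have horth := hD.orthogonal
  have ht := hD.decomp.two_le
  choose e f he hf hee hff hef hfe hspan using fun j =>
    exists_orthonormal_pair hF (D j) (hD.decomp.finrank_eq j) (hD.nondegenerate j)
  obtain ⟨j1, hj1⟩ : ∃ j : Fin t, j = ⟨0, by omega⟩ := ⟨_, rfl⟩
  obtain ⟨j2, hj2⟩ : ∃ j : Fin t, j = ⟨1, by omega⟩ := ⟨_, rfl⟩
  have h12 : j1 ≠ j2 := by rw [hj1, hj2]; simp
  have o12 := horth j1 j2 h12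
  have o21 := horth j2 j1 h12.symm
  have oee := o12 _ (he j1) _ (he j2)
  have oef := o12 _ (he j1) _ (hf j2)
  have ofe := o12 _ (hf j1) _ (he j2)
  have off := o12 _ (hf j1) _ (hf j2)
  have oee' := o21 _ (he j2) _ (he j1)
  have oef' := o21 _ (he j2) _ (hf j1)
  have ofe' := o21 _ (hf j2) _ (he j1)
  have off' := o21 _ (hf j2) _ (hf j1)
  obtain ⟨S, hS⟩ : ∃ S : Set (Fin n → F),
      S = {v | ∃ i, v ∈ D i ∧ hermForm n F 2 v v ≠ 0} := ⟨_, rfl⟩
  refine ⟨stabilizing (glToMat (Fin n) F) S ⊓ (GU n F 2 ⊓ specialLinear (Fin n) F), ?_, ?_⟩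
  · rw [SetLike.lt_iff_le_and_exists]
    constructor
    · intro g hg
      rw [Subgroup.mem_inf] at hg ⊢
      obtain ⟨hgD, hgU⟩ := hg
      refine ⟨mem_stabilizing_of_mapsTo g _ ?_, hgU⟩
      obtain ⟨σ, hσ⟩ := (mem_decompositionStabilizer_iff D g).mp hgD
      rw [hS]
      rintro v ⟨i, hvi, hv⟩
      exact ⟨σ i, mulVec_mem_of_mem_decompositionStabilizer D g σ hσ i v hvi,
        by rw [(mem_GU_iff n 2 g).mp (Subgroup.mem_inf.mp hgU).1]; exact hv⟩
    · obtain ⟨u, hu⟩ : ∃ u : Fin n → F, u = e j1 + e j2 := ⟨_, rfl⟩
      have huu : hermForm n F 2 u u = 0 := by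
        rw [hu]
        simp only [hf_add_left, hf_add_right_two n h2, hee, oee, oee']
        linear_combination h2
      have hgU := hermTransGL_mem_GU n h2 h4 u huu
      refine ⟨hermTransGL n h2 u huu, Subgroup.mem_inf.mpr ⟨mem_stabilizing_of_mapsTo _ _ ?_,
        Subgroup.mem_inf.mpr ⟨hgU, hermTransGL_mem_SL n h2 u huu⟩⟩, ?_⟩
      · rw [hS]
        rintro v ⟨i, hvi, hv⟩
        have hv' : hermForm n F 2
            ((hermTransGL n h2 u huu : GL (Fin n) F).1 *ᵥ v)
            ((hermTransGL n h2 u huu : GL (Fin n) F).1 *ᵥ v) ≠ 0 := by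
          rw [(mem_GU_iff n 2 _).mp hgU]
          exact hv
        have hmem : ∃ i', (hermTransGL n h2 u huu : GL (Fin n) F).1 *ᵥ v ∈ D i' := by
          rw [hermTransGL_mulVec]
          by_cases hi1 : i = j1
          · rw [hi1] at hvi
            obtain ⟨x, y, hxy⟩ := hspan j1 v hvi
            rcases nonisotropic_cases hF (e j1) (f j1) (hee j1) (hff j1) (hef j1) (hfe j1) x y
              (hxy ▸ hv) with hx0 | hy0
            · have hvu : hermForm n F 2 v u = 0 := by
                rw [hxy, hx0, hu]
                simp only [hf_add_left, hf_add_right_two n h2, hf_smul_left, hfe, ofe]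
                ring
              exact ⟨j1, by rw [hvu, zero_smul, add_zero]; exact hvi⟩
            · have hvu : hermForm n F 2 v u = x := by
                rw [hxy, hy0, hu]
                simp only [hf_add_left, hf_add_right_two n h2, hf_smul_left, hee, hfe, oee, ofe]
                ring
              refine ⟨j2, ?_⟩
              have : v + hermForm n F 2 v u • u = x • e j2 := by
                rw [hvu, hxy, hy0, hu]
                match_scalars <;> first | ring1 | linear_combination x * h2
              rw [this]
              exact (D j2).smul_mem _ (he j2)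
          · by_cases hi2 : i = j2
            · rw [hi2] at hvi
              obtain ⟨x, y, hxy⟩ := hspan j2 v hvi
              rcases nonisotropic_cases hF (e j2) (f j2) (hee j2) (hff j2) (hef j2) (hfe j2) x y
                (hxy ▸ hv) with hx0 | hy0
              · have hvu : hermForm n F 2 v u = 0 := by
                  rw [hxy, hx0, hu]
                  simp only [hf_add_left, hf_add_right_two n h2, hf_smul_left, hfe, ofe']
                  ring
                exact ⟨j2, by rw [hvu, zero_smul, add_zero]; exact hvi⟩
              · have hvu : hermForm n F 2 v u = x := by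
                  rw [hxy, hy0, hu]
                  simp only [hf_add_left, hf_add_right_two n h2, hf_smul_left, hee, hfe, oee',
                    ofe']
                  ring
                refine ⟨j1, ?_⟩
                have : v + hermForm n F 2 v u • u = x • e j1 := by
                  rw [hvu, hxy, hy0, hu]
                  match_scalars <;> first | ring1 | linear_combination x * h2
                rw [this]
                exact (D j1).smul_mem _ (he j1)
            · have hvu : hermForm n F 2 v u = 0 := by
                rw [hu, hf_add_right_two n h2, horth i j1 hi1 _ hvi _ (he j1),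
                  horth i j2 hi2 _ hvi _ (he j2)]
                ring
              exact ⟨i, by rw [hvu, zero_smul, add_zero]; exact hvi⟩
        obtain ⟨i', hi'⟩ := hmem
        exact ⟨i', hi', hv'⟩
      · intro hg
        obtain ⟨σ, hσ⟩ := (mem_decompositionStabilizer_iff D _).mp (Subgroup.mem_inf.mp hg).1
        have m1 := mulVec_mem_of_mem_decompositionStabilizer D _ σ hσ j1 (e j1) (he j1)
        have m2 := mulVec_mem_of_mem_decompositionStabilizer D _ σ hσ j1 (f j1) (hf j1)
        rw [hermTransGL_mulVec] at m1 m2
        have e1 : hermForm n F 2 (e j1) u = 1 := by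
          rw [hu, hf_add_right_two n h2, hee, oee]
          ring
        have e2 : hermForm n F 2 (f j1) u = 0 := by
          rw [hu, hf_add_right_two n h2, hfe, ofe]
          ring
        have e3 : e j1 + (1 : F) • u = e j2 := by
          rw [hu]
          match_scalars <;> first | ring1 | linear_combination h2
        rw [e1, e3] at m1
        rw [e2, zero_smul, add_zero] at m2
        by_cases hσ1 : σ j1 = j1
        · rw [hσ1] at m1
          have := horth j1 j2 h12 _ m1 _ (he j2)
          rw [hee] at this
          exact one_ne_zero this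
        · have := horth (σ j1) j1 hσ1 _ m2 _ (hf j1)
          rw [hff] at this
          exact one_ne_zero this
  · rw [SetLike.lt_iff_le_and_exists]
    refine ⟨inf_le_right, ?_⟩
    obtain ⟨u, hu⟩ : ∃ u : Fin n → F, u = e j1 + f j1 + e j2 + f j2 := ⟨_, rfl⟩
    have huu : hermForm n F 2 u u = 0 := by
      rw [hu]
      simp only [hf_add_left, hf_add_right_two n h2, hee, hff, hef, hfe, oee, oef, ofe, off,
        oee', oef', ofe', off']
      linear_combination 2 * h2
    refine ⟨hermTransGL n h2 u huu, Subgroup.mem_inf.mpr ⟨hermTransGL_mem_GU n h2 h4 u huu,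
      hermTransGL_mem_SL n h2 u huu⟩, ?_⟩
    intro hg
    have hstab := (mem_stabilizing_iff _ S).mp (Subgroup.mem_inf.mp hg).1 (e j1)
    have hin : e j1 ∈ S := by
      rw [hS]
      exact ⟨j1, he j1, by rw [hee]; exact one_ne_zero⟩
    have hout := hstab.mp hin
    rw [hermTransGL_mulVec, hS] at hout
    obtain ⟨i, hi, -⟩ := hout
    have e1 : hermForm n F 2 (e j1) u = 1 := by
      rw [hu]
      simp only [hf_add_right_two n h2, hee, hef, oee, oef]
      ring
    have hz : e j1 + (1 : F) • u = f j1 + e j2 + f j2 := by
      rw [hu]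
      match_scalars <;> first | ring1 | linear_combination h2
    rw [e1, hz] at hi
    have k1 : i = j1 := by
      by_contra hne
      have := horth i j1 hne _ hi _ (hf j1)
      rw [hf_add_left, hf_add_left, hff, oef', off'] at this
      simp at this
    have k2 : i = j2 := by
      by_contra hne
      have := horth i j2 hne _ hi _ (he j2)
      rw [hf_add_left, hf_add_left, hee, ofe, hfe] at this
      simp at this
    exact h12 (k1.symm.trans k2)

end Cfsg.Agent.Lib.Helper94
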