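import Cfsg.Agent.Lib.Helper94.SLSymp

set_option autoImplicit false
set_option linter.unusedSectionVars false

namespace Cfsg.Agent.Lib.Helper94

open Cfsg Cfsg.Geo
open scoped MatrixGroups Matrix

variable {F : Type*} [Field F] {ι : Type} [Fintype ι] [DecidableEq ι]

/-- A non-degenerate symmetric bilinear form in odd characteristic. -/
structure IsOrthForm (β : (ι → F) → (ι → F) → F) : Prop where
  add_left : ∀ x y v, β (x + y) v = β x v + β y v
  smul_left : ∀ (c : F) (x v : ι → F), β (c • x) v = c * β x v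
  symm : ∀ v w, β v w = β w v
  nondegenerate : IsNondegenerateForm β
  two_ne : (2 : F) ≠ 0

/-- In a finite field of odd order, `a x² + c y²` represents everything. -/
lemma exists_two_squares [Finite F] (hodd : Nat.card F % 2 = 1) {α γ : F} (hα : α ≠ 0)
    (hγ : γ ≠ 0) (a : F) : ∃ x y : F, α * x ^ 2 + γ * y ^ 2 = a := by
  classical
  cases nonempty_fintype F
  have hR : Fintype.card F % 2 = 1 := by rwa [Nat.card_eq_fintype_card] at hodd
  have hd : (Polynomial.C γ * Polynomial.X ^ 2 - Polynomial.C a : Polynomial F).degree = 2 := by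
    rw [Polynomial.degree_sub_C (by rw [Polynomial.degree_C_mul_X_pow 2 hγ]; norm_num),
      Polynomial.degree_C_mul_X_pow 2 hγ]
    rfl
  obtain ⟨x, y, h⟩ := FiniteField.exists_root_sum_quadratic
    (f := Polynomial.C α * Polynomial.X ^ 2)
    (g := Polynomial.C γ * Polynomial.X ^ 2 - Polynomial.C a)
    (Polynomial.degree_C_mul_X_pow 2 hα) hd hR
  refine ⟨x, y, ?_⟩
  simp only [Polynomial.eval_mul, Polynomial.eval_C, Polynomial.eval_pow, Polynomial.eval_X,
    Polynomial.eval_sub] at h
  linear_combination h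

section oform

variable (β : (ι → F) → (ι → F) → F) (hβ : IsOrthForm β)

include hβ in
lemma ob_add_right (v x y : ι → F) : β v (x + y) = β v x + β v y := by
  rw [hβ.symm v, hβ.add_left, hβ.symm x, hβ.symm y]

include hβ in
lemma ob_smul_right (c : F) (v x : ι → F) : β v (c • x) = c * β v x := by
  rw [hβ.symm v, hβ.smul_left, hβ.symm x]

include hβ in
lemma ob_zero_left (y : ι → F) : β 0 y = 0 := by
  have := hβ.smul_left 0 0 y
  rwa [zero_smul, zero_mul] at this

include hβ in
lemma ob_zero_right (x : ι → F) : β x 0 = 0 := by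
  rw [hβ.symm, ob_zero_left β hβ]

include hβ in
lemma ob_neg_left (x y : ι → F) : β (-x) y = - β x y := by
  have := hβ.smul_left (-1) x y
  rwa [neg_one_smul, neg_one_mul] at this

include hβ in
lemma ob_neg_right (x y : ι → F) : β x (-y) = - β x y := by
  rw [hβ.symm, ob_neg_left β hβ, hβ.symm]

include hβ in
lemma ob_sub_left (x x' y : ι → F) : β (x - x') y = β x y - β x' y := by
  rw [sub_eq_add_neg, hβ.add_left, ob_neg_left β hβ, sub_eq_add_neg]

include hβ in
lemma ob_sub_right (x y y' : ι → F) : β x (y - y') = β x y - β x y' := by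
  rw [sub_eq_add_neg, ob_add_right β hβ, ob_neg_right β hβ, sub_eq_add_neg]

/-- `x ↦ β x y` as a linear functional. -/
def obL (hβ : IsOrthForm β) (y : ι → F) : Module.Dual F (ι → F) where
  toFun := fun x => β x y
  map_add' := fun a b => hβ.add_left a b y
  map_smul' := fun c a => by simpa using hβ.smul_left c a y

lemma obL_apply (y x : ι → F) : obL β hβ y x = β x y := rfl

/-- The form as a bilinear form. -/
noncomputable def obB (hβ : IsOrthForm β) : LinearMap.BilinForm F (ι → F) :=
  LinearMap.mk₂ F β hβ.add_left (fun c u v => by simpa using hβ.smul_left c u v)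
    (ob_add_right β hβ) (fun c u v => by simpa using ob_smul_right β hβ c u v)

lemma obB_apply (u v : ι → F) : obB β hβ u v = β u v := rfl

lemma obB_nondeg : (obB β hβ).Nondegenerate := by
  constructor
  · intro x hx
    by_contra hne
    obtain ⟨-, ⟨z, hz⟩⟩ := hβ.nondegenerate x hne
    exact hz (hx z)
  · intro y hy
    by_contra hne
    obtain ⟨⟨z, hz⟩, -⟩ := hβ.nondegenerate y hne
    exact hz (hy z)

include hβ in
/-- Every functional is represented by the form. -/
lemma exists_ob_repr (φ : Module.Dual F (ι → F)) : ∃ y, ∀ x, β x y = φ x := by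
  refine ⟨((obB β hβ).toDual (obB_nondeg β hβ)).symm φ, fun x => ?_⟩
  have h := LinearMap.BilinForm.apply_toDual_symm_apply (B := obB β hβ)
    (hB := obB_nondeg β hβ) φ x
  rw [obB_apply] at h
  rw [hβ.symm, h]

include hβ in
/-- If `y` is not a multiple of `w ≠ 0`, some vector perpendicular to `w` is not perpendicular
to `y`. -/
lemma exists_operp_sep {w y : ι → F} (hw : w ≠ 0) (hy : ∀ c : F, y ≠ c • w) :
    ∃ u, β w u = 0 ∧ β y u ≠ 0 := by
  by_contra hcon
  push Not at hcon
  obtain ⟨-, ⟨a, ha⟩⟩ := hβ.nondegenerate w hw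
  apply hy (β y a / β w a)
  by_contra hne
  have hne' : y - (β y a / β w a) • w ≠ 0 := sub_ne_zero.mpr hne
  obtain ⟨-, ⟨u, hu⟩⟩ := hβ.nondegenerate _ hne'
  apply hu
  rw [ob_sub_left β hβ, hβ.smul_left]
  have h1 := hcon (u - (β w u / β w a) • a)
    (by rw [ob_sub_right β hβ, ob_smul_right β hβ, div_mul_cancel₀ _ ha, sub_self])
  rw [ob_sub_right β hβ, ob_smul_right β hβ] at h1
  field_simp
  field_simp at h1
  linear_combination h1

include hβ in
lemma exists_ob_both {a b : ι → F} (ha : a ≠ 0) (hb : b ≠ 0) :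
    ∃ z, β a z ≠ 0 ∧ β b z ≠ 0 := by
  obtain ⟨-, ⟨z1, h1⟩⟩ := hβ.nondegenerate a ha
  obtain ⟨-, ⟨z2, h2⟩⟩ := hβ.nondegenerate b hb
  by_cases h3 : β b z1 = 0
  · by_cases h4 : β a z2 = 0
    · refine ⟨z1 + z2, ?_, ?_⟩
      · rw [ob_add_right β hβ, h4, add_zero]
        exact h1
      · rw [ob_add_right β hβ, h3, zero_add]
        exact h2
    · exact ⟨z2, h4, h2⟩
  · exact ⟨z1, h1, h3⟩

end oform

end Cfsg.Agent.Lib.Helper94
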