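import Mathlib
import Cfsg.Agent.Lib.Helper14.NondegE

set_option autoImplicit false

/-!
# Orthogonal decompositions: basic setup

`ODec Q D`: pairwise orthogonal subspaces `D i` spanning the space of a nondegenerate quadratic
form in odd characteristic.  `oproj Q W` is the orthogonal projection onto a nondegenerate
subspace.  `DSetup Q D k M`: the subgroup `M` contains every element of `Ω` permuting the blocks.
-/

namespace Cfsg.Agent.Lib.Helper94

open Matrix Module Cfsg.Agent.Lib.Helper14 Cfsg.Agent.Lib.Helper99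

section odec

variable {ι : Type} [Fintype ι] [DecidableEq ι] {F : Type*} [Field F]

/-- The orthogonal projection onto `W` (zero if `W` is degenerate). -/
noncomputable def oproj (Q : QuadraticForm F (ι → F)) (W : Submodule F (ι → F)) :
    (ι → F) →ₗ[F] (ι → F) :=
  open Classical in
  if hc : IsCompl W (Cfsg.Agent.Lib.Helper44.orth Q W) then
    W.projection (Cfsg.Agent.Lib.Helper44.orth Q W) hc
  else 0

omit [Fintype ι] [DecidableEq ι] in
theorem oproj_mem (Q : QuadraticForm F (ι → F)) (W : Submodule F (ι → F)) (v : ι → F) :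
    oproj Q W v ∈ W := by
  unfold oproj
  split_ifs with hc
  · exact Submodule.projection_apply_mem hc v
  · exact W.zero_mem

omit [Fintype ι] [DecidableEq ι] in
theorem oproj_eq_zero_iff (Q : QuadraticForm F (ι → F)) {W : Submodule F (ι → F)}
    (hc : IsCompl W (Cfsg.Agent.Lib.Helper44.orth Q W)) (v : ι → F) :
    oproj Q W v = 0 ↔ v ∈ Cfsg.Agent.Lib.Helper44.orth Q W := by
  unfold oproj
  rw [dif_pos hc]
  exact Submodule.projection_apply_eq_zero_iff hc

omit [Fintype ι] [DecidableEq ι] in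
theorem oproj_eq_self_iff (Q : QuadraticForm F (ι → F)) {W : Submodule F (ι → F)}
    (hc : IsCompl W (Cfsg.Agent.Lib.Helper44.orth Q W)) (v : ι → F) :
    oproj Q W v = v ↔ v ∈ W := by
  unfold oproj
  rw [dif_pos hc]
  exact Submodule.projection_eq_self_iff hc v

omit [Fintype ι] [DecidableEq ι] in
theorem sub_oproj_mem (Q : QuadraticForm F (ι → F)) {W : Submodule F (ι → F)}
    (hc : IsCompl W (Cfsg.Agent.Lib.Helper44.orth Q W)) (v : ι → F) :
    v - oproj Q W v ∈ Cfsg.Agent.Lib.Helper44.orth Q W := by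
  rw [← oproj_eq_zero_iff Q hc, map_sub, (oproj_eq_self_iff Q hc _).mpr (oproj_mem Q W v),
    sub_self]

omit [Fintype ι] [DecidableEq ι] in
/-- The projection does not change the polar form against vectors of `W`. -/
theorem polar_oproj (Q : QuadraticForm F (ι → F)) {W : Submodule F (ι → F)}
    (hc : IsCompl W (Cfsg.Agent.Lib.Helper44.orth Q W)) {z : ι → F} (hz : z ∈ W) (v : ι → F) :
    QuadraticMap.polar ⇑Q z (oproj Q W v) = QuadraticMap.polar ⇑Q z v := by
  have h1 := (Cfsg.Agent.Lib.Helper44.mem_orth_iff Q W _).mp (sub_oproj_mem Q hc v) z hz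
  rw [QuadraticMap.polar_sub_right, sub_eq_zero] at h1
  exact h1.symm

/-- Pairwise orthogonal subspaces spanning the space of a nondegenerate quadratic form, in odd
characteristic. -/
structure ODec (Q : QuadraticForm F (ι → F)) {t : ℕ} (D : Fin t → Submodule F (ι → F)) :
    Prop where
  hQ : (QuadraticMap.polarBilin Q).Nondegenerate
  h2 : (2 : F) ≠ 0
  perp : ∀ i j, i ≠ j → ∀ x ∈ D i, ∀ y ∈ D j, QuadraticMap.polar ⇑Q x y = 0
  sup : iSup D = ⊤

variable {Q : QuadraticForm F (ι → F)} {t : ℕ} {D : Fin t → Submodule F (ι → F)}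

omit [Fintype ι] [DecidableEq ι] in
theorem ODec.exists_components (h : ODec Q D) (v : ι → F) :
    ∃ c : Fin t → (ι → F), (∀ i, c i ∈ D i) ∧ v = ∑ i, c i := by
  classical
  have hv : v ∈ iSup D := by rw [h.sup]; exact Submodule.mem_top
  refine Submodule.iSup_induction D (motive := fun v =>
    ∃ c : Fin t → (ι → F), (∀ i, c i ∈ D i) ∧ v = ∑ i, c i) hv ?_ ?_ ?_
  · intro i x hx
    refine ⟨Pi.single i x, ?_, ?_⟩
    · intro j
      by_cases hji : j = i
      · subst hji
        rw [Pi.single_eq_same]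
        exact hx
      · rw [Pi.single_eq_of_ne hji]
        exact (D j).zero_mem
    · rw [Finset.sum_pi_single']
      simp
  · exact ⟨0, fun i => (D i).zero_mem, by simp⟩
  · rintro x y ⟨c, hc, rfl⟩ ⟨c', hc', rfl⟩
    exact ⟨c + c', fun i => (D i).add_mem (hc i) (hc' i), by simp [Finset.sum_add_distrib]⟩

omit [Fintype ι] [DecidableEq ι] in
/-- A vector orthogonal to all the blocks is zero. -/
theorem ODec.eq_zero_of_perp (h : ODec Q D) {x : ι → F}
    (hx : ∀ i, ∀ y ∈ D i, QuadraticMap.polar ⇑Q x y = 0) : x = 0 := by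
  apply h.hQ.1 x
  intro v
  obtain ⟨c, hc, rfl⟩ := h.exists_components v
  rw [map_sum]
  apply Finset.sum_eq_zero
  intro i _
  exact hx i (c i) (hc i)

omit [Fintype ι] [DecidableEq ι] in
theorem ODec.nondeg (h : ODec Q D) (i : Fin t) : QNondegOn Q (D i) := by
  intro u hu hperp
  apply h.eq_zero_of_perp
  intro j y hy
  by_cases hji : j = i
  · subst hji
    exact hperp y hy
  · exact h.perp i j (Ne.symm hji) u hu y hy

theorem ODec.orthDecomp (h : ODec Q D) (i : Fin t) :
    OrthDecomp Q (D i) (Cfsg.Agent.Lib.Helper44.orth Q (D i)) :=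
  orthDecomp_of_nondegOn Q h.hQ (D i) (geo_nondegOn_of Q (h.nondeg i))

theorem ODec.isCompl (h : ODec Q D) (i : Fin t) :
    IsCompl (D i) (Cfsg.Agent.Lib.Helper44.orth Q (D i)) := by
  have hD := h.orthDecomp i
  constructor
  · rw [disjoint_iff, eq_bot_iff]
    intro x hx
    exact (Submodule.mem_bot F).mpr (hD.eq_zero_of_mem h.hQ hx.1 hx.2)
  · rw [codisjoint_iff]
    exact hD.sup

omit [Fintype ι] [DecidableEq ι] in
theorem ODec.le_orth (h : ODec Q D) {i j : Fin t} (hij : i ≠ j) :
    D j ≤ Cfsg.Agent.Lib.Helper44.orth Q (D i) := by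
  intro y hy
  rw [Cfsg.Agent.Lib.Helper44.mem_orth_iff]
  intro x hx
  exact h.perp i j hij x hx y hy

theorem ODec.oproj_of_mem (h : ODec Q D) {i : Fin t} {x : ι → F} (hx : x ∈ D i) :
    oproj Q (D i) x = x :=
  (oproj_eq_self_iff Q (h.isCompl i) x).mpr hx

theorem ODec.oproj_of_mem_ne (h : ODec Q D) {i j : Fin t} (hij : i ≠ j) {x : ι → F}
    (hx : x ∈ D j) : oproj Q (D i) x = 0 :=
  (oproj_eq_zero_iff Q (h.isCompl i) x).mpr (h.le_orth hij hx)

theorem ODec.exists_oproj_ne (h : ODec Q D) {x : ι → F} (hx : x ≠ 0) :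
    ∃ i, oproj Q (D i) x ≠ 0 := by
  by_contra hcon
  push Not at hcon
  apply hx
  apply h.eq_zero_of_perp
  intro i y hy
  have h1 := (oproj_eq_zero_iff Q (h.isCompl i) x).mp (hcon i)
  rw [QuadraticMap.polar_comm]
  exact (Cfsg.Agent.Lib.Helper44.mem_orth_iff Q (D i) x).mp h1 y hy

omit [Fintype ι] [DecidableEq ι] in
theorem ODec.eq_of_mem_of_mem (h : ODec Q D) {i j : Fin t} {x : ι → F} (hx : x ∈ D i)
    (hx' : x ∈ D j) (hx0 : x ≠ 0) : i = j := by
  by_contra hij
  apply hx0
  apply h.nondeg i x hx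
  intro v hv
  rw [QuadraticMap.polar_comm]
  exact h.perp i j hij v hv x hx'

omit [Fintype ι] [DecidableEq ι] in
theorem ODec.polar_self_ne (h : ODec Q D) {x : ι → F} (hx : Q x ≠ 0) :
    QuadraticMap.polar ⇑Q x x ≠ 0 := by
  rw [polar_self_eq]
  exact mul_ne_zero h.h2 hx

end odec

end Cfsg.Agent.Lib.Helper94
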