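import Mathlib
import Cfsg.Agent.Lib.Helper94.OrthDec

set_option autoImplicit false

/-!
# Geometry of a nondegenerate subspace in odd characteristic

Existence lemmas used in the analysis of overgroups of the stabiliser of an orthogonal
decomposition.
-/

namespace Cfsg.Agent.Lib.Helper94

open Matrix Module Cfsg.Agent.Lib.Helper14 Cfsg.Agent.Lib.Helper99

section geom

variable {ι : Type} [Fintype ι] [DecidableEq ι] {F : Type*} [Field F]
variable (Q : QuadraticForm F (ι → F)) {W : Submodule F (ι → F)}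

theorem exists_sq_ne_one [Fintype F] (hq : 4 ≤ Fintype.card F) :
    ∃ ω : F, ω ≠ 0 ∧ ω * ω ≠ 1 := by
  classical
  have hcard : ({0, 1, -1} : Finset F).card < (Finset.univ : Finset F).card := by
    rw [Finset.card_univ]
    exact lt_of_le_of_lt Finset.card_le_three hq
  obtain ⟨ω, -, hω⟩ := Finset.exists_mem_notMem_of_card_lt_card hcard
  simp only [Finset.mem_insert, Finset.mem_singleton, not_or] at hω
  refine ⟨ω, hω.1, ?_⟩
  intro h
  have h1 : (ω - 1) * (ω + 1) = 0 := by linear_combination h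
  rcases mul_eq_zero.mp h1 with h3 | h3
  · exact hω.2.1 (sub_eq_zero.mp h3)
  · exact hω.2.2 (eq_neg_of_add_eq_zero_left h3)

omit [Fintype ι] [DecidableEq ι] in
/-- A non-zero nondegenerate subspace contains a non-singular vector. -/
theorem exists_nonsing_of_nondeg (hW : QNondegOn Q W) {w : ι → F} (hw : w ∈ W) (hw0 : w ≠ 0) :
    ∃ e ∈ W, Q e ≠ 0 := by
  obtain ⟨w', hw', hne⟩ : ∃ w' ∈ W, QuadraticMap.polar ⇑Q w w' ≠ 0 := by
    by_contra hcon
    push Not at hcon
    exact hw0 (hW w hw hcon)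
  by_cases h1 : Q w = 0
  swap
  · exact ⟨w, hw, h1⟩
  by_cases h2 : Q w' = 0
  swap
  · exact ⟨w', hw', h2⟩
  refine ⟨w + w', W.add_mem hw hw', ?_⟩
  rw [QuadraticMap.map_add (⇑Q) w w', h1, h2, zero_add, zero_add]
  exact hne

omit [Fintype ι] [DecidableEq ι] in
/-- Double orthogonal complement of a line inside a nondegenerate subspace. -/
theorem double_perp (hW : QNondegOn Q W) {a z : ι → F} (ha : a ∈ W) (ha0 : a ≠ 0) (hz : z ∈ W)
    (h : ∀ c ∈ W, QuadraticMap.polar ⇑Q a c = 0 → QuadraticMap.polar ⇑Q z c = 0) :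
    z ∈ Submodule.span F {a} := by
  obtain ⟨e, he, hne⟩ : ∃ e ∈ W, QuadraticMap.polar ⇑Q a e ≠ 0 := by
    by_contra hcon
    push Not at hcon
    exact ha0 (hW a ha hcon)
  rw [Submodule.mem_span_singleton]
  refine ⟨QuadraticMap.polar ⇑Q z e * (QuadraticMap.polar ⇑Q a e)⁻¹, ?_⟩
  have h0 : z - (QuadraticMap.polar ⇑Q z e * (QuadraticMap.polar ⇑Q a e)⁻¹) • a = 0 := by
    apply hW _ (W.sub_mem hz (W.smul_mem _ ha))
    intro v hv
    have h1 := h (v - (QuadraticMap.polar ⇑Q a v * (QuadraticMap.polar ⇑Q a e)⁻¹) • e)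
      (W.sub_mem hv (W.smul_mem _ he)) (by
        rw [QuadraticMap.polar_sub_right, QuadraticMap.polar_smul_right, smul_eq_mul,
          mul_assoc, inv_mul_cancel₀ hne, mul_one, sub_self])
    rw [QuadraticMap.polar_sub_right, QuadraticMap.polar_smul_right, smul_eq_mul] at h1
    rw [QuadraticMap.polar_sub_left, QuadraticMap.polar_smul_left, smul_eq_mul]
    linear_combination h1
  exact (sub_eq_zero.mp h0).symm

omit [DecidableEq ι] in
theorem finrank_inf_ker_add_one' (hW : QNondegOn Q W) {a : ι → F} (ha : a ∈ W) (ha0 : a ≠ 0) :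
    finrank F ↥(W ⊓ LinearMap.ker (QuadraticMap.polarBilin Q a)) + 1 = finrank F W := by
  have h1 := finrank_le_inf_ker_add_one (QuadraticMap.polarBilin Q a) W
  obtain ⟨e, he, hne⟩ : ∃ e ∈ W, QuadraticMap.polar ⇑Q a e ≠ 0 := by
    by_contra hcon
    push Not at hcon
    exact ha0 (hW a ha hcon)
  have hlt : W ⊓ LinearMap.ker (QuadraticMap.polarBilin Q a) < W := by
    refine lt_of_le_of_ne inf_le_left (fun heq => hne ?_)
    have h3 : e ∈ W ⊓ LinearMap.ker (QuadraticMap.polarBilin Q a) := by rw [heq]; exact he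
    exact LinearMap.mem_ker.mp h3.2
  have h3 := Submodule.finrank_lt_finrank_of_lt hlt
  omega

omit [DecidableEq ι] in
/-- A non-singular vector orthogonal to a given non-zero vector. -/
theorem exists_nonsing_perp (hW : QNondegOn Q W) (hdim : 3 ≤ finrank F W) {a : ι → F}
    (ha : a ∈ W) (ha0 : a ≠ 0) : ∃ c ∈ W, QuadraticMap.polar ⇑Q a c = 0 ∧ Q c ≠ 0 := by
  have h1 := finrank_le_inf_ker_add_one (QuadraticMap.polarBilin Q a) W
  have hnle : ¬ (W ⊓ LinearMap.ker (QuadraticMap.polarBilin Q a)) ≤ Submodule.span F {a} := by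
    intro hle
    have h2 := Submodule.finrank_mono hle
    rw [finrank_span_singleton ha0] at h2
    omega
  obtain ⟨c1, hc1, hc1a⟩ := SetLike.not_le_iff_exists.mp hnle
  have hac1 : QuadraticMap.polar ⇑Q a c1 = 0 := LinearMap.mem_ker.mp hc1.2
  obtain ⟨c2, hc2, hac2, hc12⟩ : ∃ c2 ∈ W, QuadraticMap.polar ⇑Q a c2 = 0 ∧
      QuadraticMap.polar ⇑Q c1 c2 ≠ 0 := by
    by_contra hcon
    push Not at hcon
    exact hc1a (double_perp Q hW ha ha0 hc1.1 (fun c hc hac => hcon c hc hac))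
  by_cases h3 : Q c1 = 0
  swap
  · exact ⟨c1, hc1.1, hac1, h3⟩
  by_cases h4 : Q c2 = 0
  swap
  · exact ⟨c2, hc2, hac2, h4⟩
  refine ⟨c1 + c2, W.add_mem hc1.1 hc2, ?_, ?_⟩
  · rw [QuadraticMap.polar_add_right, hac1, hac2, add_zero]
  · rw [QuadraticMap.map_add (⇑Q) c1 c2, h3, h4, zero_add, zero_add]
    exact hc12

omit [DecidableEq ι] in
/-- A non-singular vector orthogonal to `a` and not orthogonal to `z ∉ ⟨a⟩`. -/
theorem exists_nonsing_perp_polar_ne (h2 : (2 : F) ≠ 0) (hW : QNondegOn Q W)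
    (hdim : 3 ≤ finrank F W) {a z : ι → F} (ha : a ∈ W) (ha0 : a ≠ 0) (hz : z ∈ W)
    (hza : z ∉ Submodule.span F {a}) :
    ∃ c ∈ W, QuadraticMap.polar ⇑Q a c = 0 ∧ Q c ≠ 0 ∧ QuadraticMap.polar ⇑Q z c ≠ 0 := by
  obtain ⟨c0, hc0, hac0, hQc0⟩ := exists_nonsing_perp Q hW hdim ha ha0
  obtain ⟨c1, hc1, hac1, hzc1⟩ : ∃ c1 ∈ W, QuadraticMap.polar ⇑Q a c1 = 0 ∧
      QuadraticMap.polar ⇑Q z c1 ≠ 0 := by
    by_contra hcon
    push Not at hcon
    exact hza (double_perp Q hW ha ha0 hz (fun c hc hac => hcon c hc hac))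
  by_cases hzc0 : QuadraticMap.polar ⇑Q z c0 = 0
  swap
  · exact ⟨c0, hc0, hac0, hQc0, hzc0⟩
  by_cases h3 : Q c1 = 0
  swap
  · exact ⟨c1, hc1, hac1, h3, hzc1⟩
  by_cases h4 : Q (c1 + c0) = 0
  swap
  · refine ⟨c1 + c0, W.add_mem hc1 hc0, ?_, h4, ?_⟩
    · rw [QuadraticMap.polar_add_right, hac1, hac0, add_zero]
    · rw [QuadraticMap.polar_add_right, hzc0, add_zero]; exact hzc1
  refine ⟨c1 - c0, W.sub_mem hc1 hc0, ?_, ?_, ?_⟩
  · rw [QuadraticMap.polar_sub_right, hac1, hac0, sub_zero]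
  · intro h5
    rw [QuadraticMap.map_add (⇑Q) c1 c0, h3, zero_add] at h4
    have h6 : Q (c1 - c0) = Q c1 + Q c0 - QuadraticMap.polar ⇑Q c1 c0 := by
      have h7 := quad_sub_smul Q c1 c0 1
      simpa using h7
    rw [h6, h3, zero_add] at h5
    apply hQc0
    have h8 : (2 : F) * Q c0 = 0 := by linear_combination h4 + h5
    exact (mul_eq_zero.mp h8).resolve_left h2
  · rw [QuadraticMap.polar_sub_right, hzc0, sub_zero]; exact hzc1

omit [Fintype ι] [DecidableEq ι] in
theorem nondeg_inf_ker (h2 : (2 : F) ≠ 0) (hW : QNondegOn Q W) {a : ι → F} (ha : a ∈ W)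
    (hQa : Q a ≠ 0) : QNondegOn Q (W ⊓ LinearMap.ker (QuadraticMap.polarBilin Q a)) := by
  have haa : QuadraticMap.polar ⇑Q a a ≠ 0 := by
    rw [polar_self_eq]; exact mul_ne_zero h2 hQa
  intro z hz hperp
  have hza : QuadraticMap.polar ⇑Q a z = 0 := LinearMap.mem_ker.mp hz.2
  apply hW z hz.1
  intro v hv
  have h1 := hperp (v - (QuadraticMap.polar ⇑Q a v * (QuadraticMap.polar ⇑Q a a)⁻¹) • a)
    (Submodule.mem_inf.mpr ⟨W.sub_mem hv (W.smul_mem _ ha), by
      rw [LinearMap.mem_ker]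
      show QuadraticMap.polar ⇑Q a _ = 0
      rw [QuadraticMap.polar_sub_right, QuadraticMap.polar_smul_right, smul_eq_mul, mul_assoc,
        inv_mul_cancel₀ haa, mul_one, sub_self]⟩)
  rw [QuadraticMap.polar_sub_right, QuadraticMap.polar_smul_right, QuadraticMap.polar_comm (⇑Q) z a,
    hza, smul_zero, sub_zero] at h1
  exact h1

omit [Fintype ι] [DecidableEq ι] in
theorem nondeg_inf_qperp (h2 : (2 : F) ≠ 0) (hW : QNondegOn Q W) {a c : ι → F} (ha : a ∈ W)
    (hc : c ∈ W) (hQa : Q a ≠ 0) (hQc : Q c ≠ 0) (hac : QuadraticMap.polar ⇑Q a c = 0) :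
    QNondegOn Q (W ⊓ qperp Q a c) := by
  have haa : QuadraticMap.polar ⇑Q a a ≠ 0 := by
    rw [polar_self_eq]; exact mul_ne_zero h2 hQa
  have hcc : QuadraticMap.polar ⇑Q c c ≠ 0 := by
    rw [polar_self_eq]; exact mul_ne_zero h2 hQc
  have hca : QuadraticMap.polar ⇑Q c a = 0 := by rw [QuadraticMap.polar_comm]; exact hac
  intro z hz hperp
  obtain ⟨hza, hzc⟩ := (mem_qperp Q a c z).mp hz.2
  apply hW z hz.1
  intro v hv
  have h1 := hperp (v - (QuadraticMap.polar ⇑Q a v * (QuadraticMap.polar ⇑Q a a)⁻¹) • a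
      - (QuadraticMap.polar ⇑Q c v * (QuadraticMap.polar ⇑Q c c)⁻¹) • c)
    (Submodule.mem_inf.mpr ⟨W.sub_mem (W.sub_mem hv (W.smul_mem _ ha)) (W.smul_mem _ hc), by
      rw [mem_qperp]
      constructor
      · rw [QuadraticMap.polar_sub_left, QuadraticMap.polar_sub_left,
          QuadraticMap.polar_smul_left, QuadraticMap.polar_smul_left, hca, smul_zero, sub_zero,
          smul_eq_mul, mul_assoc, inv_mul_cancel₀ haa, mul_one, QuadraticMap.polar_comm (⇑Q) v a,
          sub_self]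
      · rw [QuadraticMap.polar_sub_left, QuadraticMap.polar_sub_left,
          QuadraticMap.polar_smul_left, QuadraticMap.polar_smul_left, hac, smul_zero, sub_zero,
          smul_eq_mul, mul_assoc, inv_mul_cancel₀ hcc, mul_one, QuadraticMap.polar_comm (⇑Q) v c,
          sub_self]⟩)
  rw [QuadraticMap.polar_sub_right, QuadraticMap.polar_sub_right, QuadraticMap.polar_smul_right,
    QuadraticMap.polar_smul_right, hza, hzc, smul_zero, smul_zero, sub_zero, sub_zero] at h1
  exact h1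

/-- A vector of the same norm as `c`, orthogonal to `a`, and not proportional to `c`. -/
theorem exists_partner [Fintype F] (h2 : (2 : F) ≠ 0) (hW : QNondegOn Q W)
    (hqk : 4 ≤ Fintype.card F ∨ 4 ≤ finrank F W) {a c : ι → F} (ha : a ∈ W) (ha0 : a ≠ 0)
    (hc : c ∈ W) (hac : QuadraticMap.polar ⇑Q a c = 0) (hQc : Q c ≠ 0) (hdim : 3 ≤ finrank F W) :
    ∃ c' ∈ W, QuadraticMap.polar ⇑Q a c' = 0 ∧ Q c' = Q c ∧ c' ∉ Submodule.span F {c} := by
  by_cases hQa : Q a = 0
  · refine ⟨c + a, W.add_mem hc ha, ?_, ?_, ?_⟩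
    · rw [QuadraticMap.polar_add_right, hac, polar_self_eq, hQa, mul_zero, add_zero]
    · rw [QuadraticMap.map_add (⇑Q) c a, hQa, QuadraticMap.polar_comm (⇑Q) c a, hac, add_zero,
        add_zero]
    · intro hmem
      have h3 : a ∈ Submodule.span F {c} := by
        have h4 := (Submodule.span F {c}).sub_mem hmem (Submodule.mem_span_singleton_self c)
        simpa using h4
      obtain ⟨l, rfl⟩ := Submodule.mem_span_singleton.mp h3
      rw [QuadraticMap.map_smul, smul_eq_mul] at hQa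
      rcases mul_eq_zero.mp hQa with h4 | h4
      · have h5 : l = 0 := by simpa using h4
        rw [h5, zero_smul] at ha0
        exact ha0 rfl
      · exact hQc h4
  · have hca : QuadraticMap.polar ⇑Q c a = 0 := by rw [QuadraticMap.polar_comm]; exact hac
    have hW2 := nondeg_inf_qperp Q h2 hW ha hc hQa hQc hac
    have hfin := finrank_le_inf_qperp_add_two Q W a c
    obtain ⟨e0, he0, hQe0, hQe0'⟩ : ∃ e0 ∈ W ⊓ qperp Q a c, Q e0 ≠ 0 ∧ Q e0 ≠ -Q c := by
      rcases hqk with hq | hk4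
      · obtain ⟨e', he', he'0⟩ := exists_ne_zero_of_finrank_pos (M := W ⊓ qperp Q a c) (by omega)
        obtain ⟨e1, he1, hQe1⟩ := exists_nonsing_of_nondeg Q hW2 he' he'0
        by_cases h5 : Q e1 = -Q c
        · obtain ⟨ω, hω0, hω1⟩ := exists_sq_ne_one hq
          refine ⟨ω • e1, (W ⊓ qperp Q a c).smul_mem ω he1, ?_, ?_⟩
          · rw [QuadraticMap.map_smul, smul_eq_mul]
            exact mul_ne_zero (mul_ne_zero hω0 hω0) hQe1
          · rw [QuadraticMap.map_smul, smul_eq_mul, h5]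
            intro h6
            apply hω1
            have h7 : (ω * ω - 1) * Q c = 0 := by linear_combination -h6
            rcases mul_eq_zero.mp h7 with h8 | h8
            · exact sub_eq_zero.mp h8
            · exact absurd h8 hQc
        · exact ⟨e1, he1, hQe1, h5⟩
      · obtain ⟨e0, he0, hQe0⟩ := exists_repr_of_nondeg Q (W ⊓ qperp Q a c) hW2 (by omega) (Q c)
        refine ⟨e0, he0, by rw [hQe0]; exact hQc, ?_⟩
        rw [hQe0]
        intro h6
        have h7 : (2 : F) * Q c = 0 := by linear_combination h6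
        exact hQc ((mul_eq_zero.mp h7).resolve_left h2)
    obtain ⟨he0a, he0c⟩ := (mem_qperp Q a c e0).mp he0.2
    have hQe : Q (c + e0) = Q c + Q e0 := by
      rw [QuadraticMap.map_add (⇑Q) c e0, QuadraticMap.polar_comm (⇑Q) c e0, he0c, add_zero]
    have hQe' : Q (c + e0) ≠ 0 := by
      rw [hQe]
      intro h
      apply hQe0'
      linear_combination h
    have hpol : QuadraticMap.polar ⇑Q (c + e0) c = 2 * Q c := by
      rw [QuadraticMap.polar_add_left, he0c, add_zero, polar_self_eq]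
    obtain ⟨κ, hκ⟩ : ∃ κ, κ = (Q (c + e0))⁻¹ * QuadraticMap.polar ⇑Q (c + e0) c := ⟨_, rfl⟩
    have hκ0 : κ ≠ 0 := by
      rw [hκ, hpol]
      exact mul_ne_zero (inv_ne_zero hQe') (mul_ne_zero h2 hQc)
    refine ⟨Cfsg.reflectionMatrix ⇑Q (c + e0) *ᵥ c, ?_, ?_, reflectionMatrix_isometry Q hQe' c, ?_⟩
    · rw [reflectionMatrix_mulVec]
      exact W.sub_mem hc (W.smul_mem _ (W.add_mem hc he0.1))
    · rw [reflectionMatrix_mulVec, QuadraticMap.polar_sub_right, QuadraticMap.polar_smul_right,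
        QuadraticMap.polar_add_right, hac, QuadraticMap.polar_comm (⇑Q) a e0, he0a]
      simp
    · intro hmem
      rw [reflectionMatrix_mulVec, ← hκ] at hmem
      obtain ⟨l, hl⟩ := Submodule.mem_span_singleton.mp hmem
      have h7 : κ • e0 = (1 - κ - l) • c := by
        have h8 : κ • e0 = c - κ • c - l • c := by rw [hl]; module
        rw [h8]; module
      have h8 := congrArg (fun v => QuadraticMap.polar ⇑Q v e0) h7
      simp only [QuadraticMap.polar_smul_left, smul_eq_mul] at h8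
      rw [polar_self_eq, QuadraticMap.polar_comm (⇑Q) c e0, he0c, mul_zero] at h8
      rcases mul_eq_zero.mp h8 with h9 | h9
      · exact hκ0 h9
      · exact hQe0 ((mul_eq_zero.mp h9).resolve_left h2)

/-- Some product of two reflections in vectors of the same norm orthogonal to `a` moves `z`. -/
theorem exists_rot_moving [Fintype F] (h2 : (2 : F) ≠ 0) (hW : QNondegOn Q W)
    (hdim : 3 ≤ finrank F W) (hqk : 4 ≤ Fintype.card F ∨ 4 ≤ finrank F W) {a z : ι → F}
    (ha : a ∈ W) (ha0 : a ≠ 0) (hz : z ∈ W) (hza : z ∉ Submodule.span F {a}) :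
    ∃ c ∈ W, ∃ c' ∈ W, QuadraticMap.polar ⇑Q a c = 0 ∧ QuadraticMap.polar ⇑Q a c' = 0 ∧
      Q c ≠ 0 ∧ Q c' = Q c ∧
      Cfsg.reflectionMatrix ⇑Q c *ᵥ (Cfsg.reflectionMatrix ⇑Q c' *ᵥ z) ≠ z := by
  obtain ⟨c, hc, hac, hQc, hzc⟩ := exists_nonsing_perp_polar_ne Q h2 hW hdim ha ha0 hz hza
  obtain ⟨c', hc', hac', hQc', hcc'⟩ := exists_partner Q h2 hW hqk ha ha0 hc hac hQc hdim
  refine ⟨c, hc, c', hc', hac, hac', hQc, hQc', ?_⟩
  intro h
  have h3 : Cfsg.reflectionMatrix ⇑Q c' *ᵥ z = Cfsg.reflectionMatrix ⇑Q c *ᵥ z := by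
    have h4 : Cfsg.reflectionMatrix ⇑Q c *ᵥ (Cfsg.reflectionMatrix ⇑Q c *ᵥ
        (Cfsg.reflectionMatrix ⇑Q c' *ᵥ z)) = Cfsg.reflectionMatrix ⇑Q c *ᵥ z :=
      congrArg (fun v => Cfsg.reflectionMatrix ⇑Q c *ᵥ v) h
    rw [mulVec_mulVec, reflectionMatrix_mul_self Q hQc, one_mulVec] at h4
    exact h4
  rw [reflectionMatrix_mulVec, reflectionMatrix_mulVec, hQc'] at h3
  have h4 : ((Q c)⁻¹ * QuadraticMap.polar ⇑Q c' z) • c' =
      ((Q c)⁻¹ * QuadraticMap.polar ⇑Q c z) • c := sub_right_injective h3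
  apply hcc'
  by_cases h5 : QuadraticMap.polar ⇑Q c' z = 0
  · exfalso
    rw [h5, mul_zero, zero_smul] at h4
    rcases smul_eq_zero.mp h4.symm with h6 | h6
    · rcases mul_eq_zero.mp h6 with h7 | h7
      · exact hQc (inv_eq_zero.mp h7)
      · exact hzc (by rw [QuadraticMap.polar_comm]; exact h7)
    · rw [h6] at hQc
      exact hQc (map_zero Q)
  · rw [Submodule.mem_span_singleton]
    refine ⟨((Q c)⁻¹ * QuadraticMap.polar ⇑Q c' z)⁻¹ * ((Q c)⁻¹ * QuadraticMap.polar ⇑Q c z), ?_⟩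
    rw [← smul_smul, ← h4, smul_smul, inv_mul_cancel₀ (mul_ne_zero (inv_ne_zero hQc) h5),
      one_smul]

/-- Some Eichler transformation of `W` moves the line through `a`. -/
theorem exists_eich_moving [Fintype F] (hW : QNondegOn Q W) (hdim : 3 ≤ finrank F W)
    {a : ι → F} (ha : a ∈ W) (ha0 : a ≠ 0) :
    ∃ v ∈ W, ∃ w ∈ W, Q v = 0 ∧ QuadraticMap.polar ⇑Q v w = 0 ∧
      eichMat Q v w *ᵥ a ∉ Submodule.span F {a} := by
  by_contra hcon
  push Not at hcon
  have h1 := eich_irreducible Q hW hdim (Submodule.span F {a})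
    ((Submodule.span_singleton_le_iff_mem a W).mpr ha)
    (fun x hx y hy hQx hxy z hz => by
      obtain ⟨l, rfl⟩ := Submodule.mem_span_singleton.mp hz
      rw [mulVec_smul]
      exact (Submodule.span F {a}).smul_mem _ (hcon x hx y hy hQx hxy))
    (by
      intro h0
      apply ha0
      have h3 := Submodule.mem_span_singleton_self (R := F) a
      rw [h0] at h3
      exact (Submodule.mem_bot F).mp h3)
  have h3 := finrank_span_singleton (K := F) ha0
  rw [h1] at h3
  omega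

end geom

end Cfsg.Agent.Lib.Helper94
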