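import Mathlib
import Cfsg.Agent.Lib.Helper94.OrthDecGeom

set_option autoImplicit false

/-!
# Overgroups of the stabiliser of an orthogonal decomposition: the stabilising case

`DSetup Q D k M`: `M` contains every element of `Ω` permuting the blocks `D i` (nondegenerate,
pairwise orthogonal, of dimension `k ≥ 3`, odd characteristic).  If `M` contains no "mixed"
Eichler transformation (`NoMixed`), then every element of `M` permutes the blocks.
-/

namespace Cfsg.Agent.Lib.Helper94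

open Matrix Module Cfsg.Agent.Lib.Helper14 Cfsg.Agent.Lib.Helper99

section setup

variable {ι : Type} [Fintype ι] [DecidableEq ι] {F : Type*} [Field F] [Fintype F]

/-- Standing hypotheses: `M` contains every element of `Ω` permuting the blocks. -/
structure DSetup (Q : QuadraticForm F (ι → F)) {t : ℕ} (D : Fin t → Submodule F (ι → F)) (k : ℕ)
    (M : Subgroup ↥(Cfsg.isometryGroup F ⇑Q)) : Prop where
  od : ODec Q D
  hn : 5 ≤ Fintype.card ι
  dim : ∀ i, finrank F (D i) = k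
  hk : 3 ≤ k
  hPM : ∀ g ∈ commutator ↥(Cfsg.isometryGroup F ⇑Q), ∀ σ : Equiv.Perm (Fin t),
    (∀ i, ∀ x ∈ D i, ((g : Matrix.GeneralLinearGroup ι F) : Matrix ι ι F) *ᵥ x ∈ D (σ i)) → g ∈ M

/-- No Eichler transformation with centre in a block and direction orthogonal to it lies in
`M`. -/
def NoMixed (Q : QuadraticForm F (ι → F)) {t : ℕ} (D : Fin t → Submodule F (ι → F))
    (M : Subgroup ↥(Cfsg.isometryGroup F ⇑Q)) : Prop :=
  ∀ i, ∀ u ∈ D i, u ≠ 0 → Q u = 0 → ∀ w ∈ Cfsg.Agent.Lib.Helper44.orth Q (D i),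
    EIn Q M u w → w = 0

/-- `x` is a non-zero singular vector and `B` is the set of directions `y ⟂ x` whose Eichler
transformation `ρ_{x,y}` lies in `M`. -/
structure Good (Q : QuadraticForm F (ι → F)) (M : Subgroup ↥(Cfsg.isometryGroup F ⇑Q)) (k : ℕ)
    (x : ι → F) (B : Submodule F (ι → F)) : Prop where
  sing : Q x = 0
  ne : x ≠ 0
  mem_iff : ∀ y, y ∈ B ↔ (QuadraticMap.polar ⇑Q x y = 0 ∧ EIn Q M x y)
  dim : finrank F B + 1 = k
  nonsing : ∃ y ∈ B, Q y ≠ 0

variable {Q : QuadraticForm F (ι → F)} {t : ℕ} {D : Fin t → Submodule F (ι → F)} {k : ℕ}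
  {M : Subgroup ↥(Cfsg.isometryGroup F ⇑Q)} {x : ι → F} {B : Submodule F (ι → F)}

theorem DSetup.hdim (S : DSetup Q D k M) (i : Fin t) : 3 ≤ finrank F (D i) := by
  rw [S.dim i]; exact S.hk

theorem DSetup.EIn_block (S : DSetup Q D k M) {i : Fin t} {u w : ι → F} (hu : u ∈ D i)
    (hw : w ∈ D i) (hQu : Q u = 0) (huw : QuadraticMap.polar ⇑Q u w = 0) : EIn Q M u w := by
  intro g hg
  apply S.hPM g (eich_mem_omega Q S.od.hQ S.hn hQu huw g hg) 1
  intro j x hx
  rw [hg, eichMat_mulVec, Equiv.Perm.one_apply]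
  by_cases hji : j = i
  · subst hji
    exact (D j).sub_mem ((D j).add_mem hx ((D j).smul_mem _ hw)) ((D j).smul_mem _ hu)
  · rw [S.od.perp i j (Ne.symm hji) u hu x hx, S.od.perp i j (Ne.symm hji) w hw x hx]
    simp only [zero_smul, add_zero, mul_zero, sub_zero]
    exact hx

theorem DSetup.refl_pair_mem (S : DSetup Q D k M) {i j : Fin t} {a b : ι → F} (ha : a ∈ D i)
    (hb : b ∈ D j) (hQa : Q a ≠ 0) (hQb : Q b ≠ 0) (hab : Q a = Q b) :
    reflElt Q S.od.hQ a hQa * reflElt Q S.od.hQ b hQb ∈ M := by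
  apply S.hPM _ (reflElt_mul_reflElt_mem Q S.od.hQ (fun h => absurd h S.od.h2) hQa hQb hab) 1
  have hstab : ∀ (l : Fin t) (c : ι → F), c ∈ D l → ∀ m, ∀ z ∈ D m,
      Cfsg.reflectionMatrix ⇑Q c *ᵥ z ∈ D m := by
    intro l c hc m z hz
    rw [reflectionMatrix_mulVec]
    by_cases hml : m = l
    · subst hml
      exact (D m).sub_mem hz ((D m).smul_mem _ hc)
    · rw [S.od.perp l m (Ne.symm hml) c hc z hz, mul_zero, zero_smul, sub_zero]
      exact hz
  intro m z hz
  simp only [Subgroup.coe_mul, Units.val_mul, Equiv.Perm.one_apply]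
  rw [← Matrix.mulVec_mulVec, Cfsg.Agent.Lib.Helper44.reflElt_coe,
    Cfsg.Agent.Lib.Helper44.reflElt_coe]
  exact hstab i a ha m _ (hstab j b hb m z hz)

/-- Under `NoMixed`, the directions at a singular vector of a block lie in the block. -/
theorem DSetup.mem_of_EIn (S : DSetup Q D k M) (hNM : NoMixed Q D M) {i : Fin t} {u y : ι → F}
    (hu : u ∈ D i) (hu0 : u ≠ 0) (hQu : Q u = 0) (huy : QuadraticMap.polar ⇑Q u y = 0)
    (h : EIn Q M u y) : y ∈ D i := by
  have hc := S.od.isCompl i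
  have hua : QuadraticMap.polar ⇑Q u (oproj Q (D i) y) = 0 := by
    rw [polar_oproj Q hc hu y]; exact huy
  have h1 := S.EIn_block hu (oproj_mem Q (D i) y) hQu hua
  have h2 := EIn_sub Q S.od.hQ M hQu huy hua h h1
  have h3 := hNM i u hu hu0 hQu _ (sub_oproj_mem Q hc y) h2
  rw [sub_eq_zero.mp h3]
  exact oproj_mem Q (D i) y

theorem Good.self_mem (h : Good Q M k x B) : x ∈ B := by
  rw [h.mem_iff]
  refine ⟨by rw [polar_self_eq, h.sing, mul_zero], ?_⟩
  intro g hg
  have h1 := eichMat_smul_self Q h.sing 1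
  rw [one_smul] at h1
  rw [h1] at hg
  have : g = 1 := isom_ext hg
  rw [this]
  exact M.one_mem

theorem Good.conj (h : Good Q M k x B) {g : ↥(Cfsg.isometryGroup F ⇑Q)} (hg : g ∈ M) :
    Good Q M k (((g : Matrix.GeneralLinearGroup ι F) : Matrix ι ι F) *ᵥ x)
      (B.map (Matrix.mulVecLin ((g : Matrix.GeneralLinearGroup ι F) : Matrix ι ι F))) := by
  refine ⟨(isom_preserves g x).trans h.sing, isom_mulVec_ne_zero _ g h.ne, ?_, ?_, ?_⟩
  · intro y
    rw [mem_map_isom_iff, h.mem_iff]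
    constructor
    · rintro ⟨h1, h2⟩
      constructor
      · have h3 := polar_mulVec Q _ (isom_preserves g) x
          ((((g⁻¹ : ↥(Cfsg.isometryGroup F ⇑Q)) : Matrix.GeneralLinearGroup ι F) :
            Matrix ι ι F) *ᵥ y)
        rw [isom_mulVec_inv] at h3
        rw [h3]
        exact h1
      · have h3 := EIn_conj Q M h2 g hg
        rwa [isom_mulVec_inv] at h3
    · rintro ⟨h1, h2⟩
      constructor
      · have h3 := polar_mulVec Q _ (isom_preserves g⁻¹)
          (((g : Matrix.GeneralLinearGroup ι F) : Matrix ι ι F) *ᵥ x) y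
        rw [isom_inv_mulVec] at h3
        rw [h3]
        exact h1
      · have h3 := EIn_conj Q M h2 g⁻¹ (M.inv_mem hg)
        rwa [isom_inv_mulVec] at h3
  · rw [finrank_map_isom]
    exact h.dim
  · obtain ⟨y, hy, hQy⟩ := h.nonsing
    refine ⟨_, ⟨y, hy, rfl⟩, ?_⟩
    rw [Matrix.mulVecLin_apply, isom_preserves g y]
    exact hQy

/-- An element of `M` fixing `x` preserves the set of directions. -/
theorem Good.map_mem (h : Good Q M k x B) {g : ↥(Cfsg.isometryGroup F ⇑Q)} (hg : g ∈ M)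
    (hgx : ((g : Matrix.GeneralLinearGroup ι F) : Matrix ι ι F) *ᵥ x = x) {y : ι → F}
    (hy : y ∈ B) : ((g : Matrix.GeneralLinearGroup ι F) : Matrix ι ι F) *ᵥ y ∈ B := by
  obtain ⟨h1, h2⟩ := (h.mem_iff y).mp hy
  rw [h.mem_iff]
  constructor
  · have h3 := polar_mulVec Q _ (isom_preserves g) x y
    rw [hgx] at h3
    rw [h3]
    exact h1
  · have h3 := EIn_conj Q M h2 g hg
    rwa [hgx] at h3

theorem DSetup.good_of_mem (S : DSetup Q D k M) (hNM : NoMixed Q D M) {i : Fin t} {u : ι → F}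
    (hu : u ∈ D i) (hu0 : u ≠ 0) (hQu : Q u = 0) :
    Good Q M k u (D i ⊓ LinearMap.ker (QuadraticMap.polarBilin Q u)) := by
  refine ⟨hQu, hu0, ?_, ?_, ?_⟩
  · intro y
    constructor
    · intro hy
      have h1 : QuadraticMap.polar ⇑Q u y = 0 := LinearMap.mem_ker.mp hy.2
      exact ⟨h1, S.EIn_block hu hy.1 hQu h1⟩
    · rintro ⟨h1, h2⟩
      exact Submodule.mem_inf.mpr ⟨S.mem_of_EIn hNM hu hu0 hQu h1 h2, LinearMap.mem_ker.mpr h1⟩
  · rw [finrank_inf_ker_add_one' Q (S.od.nondeg i) hu hu0, S.dim i]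
  · obtain ⟨c, hc, huc, hQc⟩ := exists_nonsing_perp Q (S.od.nondeg i) (S.hdim i) hu hu0
    exact ⟨c, Submodule.mem_inf.mpr ⟨hc, LinearMap.mem_ker.mpr huc⟩, hQc⟩

theorem eichMat_symm {x d : ι → F} (hx : Q x = 0) (hd : Q d = 0) :
    eichMat Q d (-x) = eichMat Q x d := by
  rw [ext_iff_mulVec]
  intro v
  rw [eichMat_mulVec, eichMat_mulVec, QuadraticMap.map_neg, hx, hd,
    QuadraticMap.polar_neg_left]
  module

/-- (S2) A singular direction inside a block not containing `x` is zero. -/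
theorem Good.sing_eq_zero (S : DSetup Q D k M) (hNM : NoMixed Q D M) (h : Good Q M k x B)
    {L : Fin t} (hxL : x ∉ D L) {d : ι → F} (hdB : d ∈ B) (hdL : d ∈ D L) (hQd : Q d = 0) :
    d = 0 := by
  by_contra hd0
  have hc := S.od.isCompl L
  obtain ⟨h1, h2⟩ := (h.mem_iff d).mp hdB
  have hdx : QuadraticMap.polar ⇑Q d x = 0 := by rw [QuadraticMap.polar_comm]; exact h1
  have hE : EIn Q M d (-x) := by
    intro g hg
    apply h2 g
    rw [hg, eichMat_symm h.sing hQd]
  have hda : QuadraticMap.polar ⇑Q d (-(oproj Q (D L) x)) = 0 := by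
    rw [QuadraticMap.polar_neg_right, polar_oproj Q hc hdL x, hdx, neg_zero]
  have hdx' : QuadraticMap.polar ⇑Q d (-x) = 0 := by
    rw [QuadraticMap.polar_neg_right, hdx, neg_zero]
  have h3 := S.EIn_block hdL ((D L).neg_mem (oproj_mem Q (D L) x)) hQd hda
  have h4 := EIn_sub Q S.od.hQ M hQd hdx' hda hE h3
  have h5 : -x - -(oproj Q (D L) x) ∈ Cfsg.Agent.Lib.Helper44.orth Q (D L) := by
    have h6 := (Cfsg.Agent.Lib.Helper44.orth Q (D L)).neg_mem (sub_oproj_mem Q hc x)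
    have e : -x - -(oproj Q (D L) x) = -(x - oproj Q (D L) x) := by abel
    rw [e]
    exact h6
  have h6 := hNM L d hdL hd0 hQd _ h5 h4
  apply hxL
  have h7 : x = oproj Q (D L) x := by
    have e : x - oproj Q (D L) x = -(-x - -(oproj Q (D L) x)) := by abel
    have h8 : x - oproj Q (D L) x = 0 := by rw [e, h6, neg_zero]
    exact sub_eq_zero.mp h8
  rw [h7]
  exact oproj_mem Q (D L) x

/-- (S3) If no direction lies in the block `D L`, the `D L`-components of the directions are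
multiples of the `D L`-component of `x`. -/
theorem Good.oproj_mem_span (S : DSetup Q D k M) (hqk : 4 ≤ Fintype.card F ∨ 4 ≤ k)
    (h : Good Q M k x B) {L : Fin t} (ha0 : oproj Q (D L) x ≠ 0)
    (hN : ∀ e ∈ B, e ∈ D L → e = 0) {y : ι → F} (hy : y ∈ B) :
    oproj Q (D L) y ∈ Submodule.span F {oproj Q (D L) x} := by
  by_contra hza
  have hc := S.od.isCompl L
  have hqk' : 4 ≤ Fintype.card F ∨ 4 ≤ finrank F (D L) := by rw [S.dim L]; exact hqk
  obtain ⟨c, hcL, c', hc'L, hac, hac', hQc, hQc', hmove⟩ := exists_rot_moving Q S.od.h2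
    (S.od.nondeg L) (S.hdim L) hqk' (oproj_mem Q (D L) x) ha0 (oproj_mem Q (D L) y) hza
  have hQc'0 : Q c' ≠ 0 := by rw [hQc']; exact hQc
  have hg := S.refl_pair_mem hcL hc'L hQc hQc'0 hQc'.symm
  have hcx : QuadraticMap.polar ⇑Q c x = 0 := by
    rw [← polar_oproj Q hc hcL x, QuadraticMap.polar_comm]; exact hac
  have hc'x : QuadraticMap.polar ⇑Q c' x = 0 := by
    rw [← polar_oproj Q hc hc'L x, QuadraticMap.polar_comm]; exact hac'
  have hgx : (((reflElt Q S.od.hQ c hQc * reflElt Q S.od.hQ c' hQc'0 :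
      ↥(Cfsg.isometryGroup F ⇑Q)) : Matrix.GeneralLinearGroup ι F) : Matrix ι ι F) *ᵥ x = x := by
    have r1 : Cfsg.reflectionMatrix ⇑Q c' *ᵥ x = x := by
      rw [reflectionMatrix_mulVec, hc'x, mul_zero, zero_smul, sub_zero]
    have r2 : Cfsg.reflectionMatrix ⇑Q c *ᵥ x = x := by
      rw [reflectionMatrix_mulVec, hcx, mul_zero, zero_smul, sub_zero]
    simp only [Subgroup.coe_mul, Units.val_mul]
    rw [← Matrix.mulVec_mulVec, Cfsg.Agent.Lib.Helper44.reflElt_coe,
      Cfsg.Agent.Lib.Helper44.reflElt_coe, r1, r2]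
  have h1 := h.map_mem hg hgx hy
  have h2 := B.sub_mem h1 hy
  have hrest : ∀ e ∈ D L, Cfsg.reflectionMatrix ⇑Q e *ᵥ (y - oproj Q (D L) y) =
      y - oproj Q (D L) y := by
    intro e he
    rw [reflectionMatrix_mulVec,
      (Cfsg.Agent.Lib.Helper44.mem_orth_iff Q (D L) _).mp (sub_oproj_mem Q hc y) e he,
      mul_zero, zero_smul, sub_zero]
  have e1 : (((reflElt Q S.od.hQ c hQc * reflElt Q S.od.hQ c' hQc'0 :
      ↥(Cfsg.isometryGroup F ⇑Q)) : Matrix.GeneralLinearGroup ι F) : Matrix ι ι F) *ᵥ y - y =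
      Cfsg.reflectionMatrix ⇑Q c *ᵥ (Cfsg.reflectionMatrix ⇑Q c' *ᵥ oproj Q (D L) y)
        - oproj Q (D L) y := by
    simp only [Subgroup.coe_mul, Units.val_mul]
    rw [← Matrix.mulVec_mulVec, Cfsg.Agent.Lib.Helper44.reflElt_coe,
      Cfsg.Agent.Lib.Helper44.reflElt_coe]
    have e2 : y = oproj Q (D L) y + (y - oproj Q (D L) y) := by abel
    conv_lhs => rw [e2]
    rw [Matrix.mulVec_add, Matrix.mulVec_add, hrest c' hc'L, hrest c hcL]
    abel
  rw [e1] at h2
  have hrefl : ∀ e ∈ D L, ∀ z ∈ D L, Cfsg.reflectionMatrix ⇑Q e *ᵥ z ∈ D L := by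
    intro e he z hz
    rw [reflectionMatrix_mulVec]
    exact (D L).sub_mem hz ((D L).smul_mem _ he)
  have h3 := hN _ h2 ((D L).sub_mem (hrefl c hcL _ (hrefl c' hc'L _ (oproj_mem Q (D L) y)))
    (oproj_mem Q (D L) y))
  exact hmove (sub_eq_zero.mp h3)

/-- (S4) If the `D L`-component of `x` is singular, or `k ≥ 4`, no direction lies in `D L`
(for `x` outside `D L`). -/
theorem Good.inf_eq_bot (S : DSetup Q D k M) (hNM : NoMixed Q D M) (h : Good Q M k x B)
    {L : Fin t} (ha0 : oproj Q (D L) x ≠ 0) (hxL : x ∉ D L)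
    (hcase : Q (oproj Q (D L) x) = 0 ∨ 4 ≤ k) {e : ι → F} (heB : e ∈ B) (heL : e ∈ D L) :
    e = 0 := by
  have hc := S.od.isCompl L
  obtain ⟨a, ha⟩ : ∃ a, a = oproj Q (D L) x := ⟨_, rfl⟩
  rw [← ha] at ha0 hcase
  have haL : a ∈ D L := by rw [ha]; exact oproj_mem Q (D L) x
  have hpx : ∀ w ∈ D L, QuadraticMap.polar ⇑Q w x = QuadraticMap.polar ⇑Q w a := by
    intro w hw
    rw [ha, polar_oproj Q hc hw x]
  have hBa : ∀ e' ∈ B, e' ∈ D L → QuadraticMap.polar ⇑Q a e' = 0 := by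
    intro e' he'B he'L
    rw [QuadraticMap.polar_comm, ← hpx e' he'L, QuadraticMap.polar_comm]
    exact ((h.mem_iff e').mp he'B).1
  have hfixx : ∀ v ∈ D L, ∀ w ∈ D L, QuadraticMap.polar ⇑Q a v = 0 →
      QuadraticMap.polar ⇑Q a w = 0 → eichMat Q v w *ᵥ x = x := by
    intro v hv w hw hav haw
    rw [eichMat_mulVec, hpx v hv, hpx w hw, QuadraticMap.polar_comm (⇑Q) v a, hav,
      QuadraticMap.polar_comm (⇑Q) w a, haw]
    simp
  by_cases hQa : Q a = 0
  · by_contra he0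
    have hae := hBa e heB heL
    have hclaim : ∀ w ∈ D L, QuadraticMap.polar ⇑Q a w = 0 → QuadraticMap.polar ⇑Q e w = 0 := by
      intro w hw haw
      by_contra hne
      have hg : eichElt Q S.od.hQ a w hQa haw ∈ M := S.EIn_block haL hw hQa haw _ rfl
      have haa : QuadraticMap.polar ⇑Q a a = 0 := by rw [polar_self_eq, hQa, mul_zero]
      have hgx : (((eichElt Q S.od.hQ a w hQa haw : ↥(Cfsg.isometryGroup F ⇑Q)) :
          Matrix.GeneralLinearGroup ι F) : Matrix ι ι F) *ᵥ x = x := by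
        rw [eichElt_coe]
        exact hfixx a haL w hw haa haw
      have h1 := B.sub_mem (h.map_mem hg hgx heB) heB
      rw [eichElt_coe, eichMat_mulVec, hae] at h1
      have e1 : e + (0 : F) • w - (QuadraticMap.polar ⇑Q w e + Q w * 0) • a - e =
          (-QuadraticMap.polar ⇑Q w e) • a := by module
      rw [e1] at h1
      have hwe : QuadraticMap.polar ⇑Q w e ≠ 0 := by rw [QuadraticMap.polar_comm]; exact hne
      have h2 := B.smul_mem (-QuadraticMap.polar ⇑Q w e)⁻¹ h1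
      rw [smul_smul, inv_mul_cancel₀ (neg_ne_zero.mpr hwe), one_smul] at h2
      exact ha0 (h.sing_eq_zero S hNM hxL h2 haL hQa)
    have hspan := double_perp Q (S.od.nondeg L) haL ha0 heL hclaim
    obtain ⟨l, rfl⟩ := Submodule.mem_span_singleton.mp hspan
    apply he0
    apply h.sing_eq_zero S hNM hxL heB heL
    rw [QuadraticMap.map_smul, hQa, smul_zero]
  · have hk4 : 4 ≤ k := hcase.resolve_left hQa
    by_contra he0
    have hP := nondeg_inf_ker Q S.od.h2 (S.od.nondeg L) haL hQa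
    have hPdim := finrank_inf_ker_add_one' Q (S.od.nondeg L) haL ha0
    rw [S.dim L] at hPdim
    have hNP : B ⊓ D L ≤ D L ⊓ LinearMap.ker (QuadraticMap.polarBilin Q a) := by
      intro e' he'
      exact Submodule.mem_inf.mpr ⟨he'.2, LinearMap.mem_ker.mpr (hBa e' he'.1 he'.2)⟩
    have hinv : ∀ v ∈ D L ⊓ LinearMap.ker (QuadraticMap.polarBilin Q a),
        ∀ w ∈ D L ⊓ LinearMap.ker (QuadraticMap.polarBilin Q a), Q v = 0 →
        QuadraticMap.polar ⇑Q v w = 0 → ∀ z ∈ B ⊓ D L, eichMat Q v w *ᵥ z ∈ B ⊓ D L := by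
      intro v hv w hw hQv hvw z hz
      have hav : QuadraticMap.polar ⇑Q a v = 0 := LinearMap.mem_ker.mp hv.2
      have haw : QuadraticMap.polar ⇑Q a w = 0 := LinearMap.mem_ker.mp hw.2
      have hg : eichElt Q S.od.hQ v w hQv hvw ∈ M := S.EIn_block hv.1 hw.1 hQv hvw _ rfl
      have hgx : (((eichElt Q S.od.hQ v w hQv hvw : ↥(Cfsg.isometryGroup F ⇑Q)) :
          Matrix.GeneralLinearGroup ι F) : Matrix ι ι F) *ᵥ x = x := by
        rw [eichElt_coe]
        exact hfixx v hv.1 w hw.1 hav haw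
      have h1 := h.map_mem hg hgx hz.1
      rw [eichElt_coe] at h1
      refine Submodule.mem_inf.mpr ⟨h1, ?_⟩
      rw [eichMat_mulVec]
      exact (D L).sub_mem ((D L).add_mem hz.2 ((D L).smul_mem _ hw.1)) ((D L).smul_mem _ hv.1)
    have hN0 : B ⊓ D L ≠ ⊥ := by
      intro h0
      have h1 : e ∈ B ⊓ D L := Submodule.mem_inf.mpr ⟨heB, heL⟩
      rw [h0] at h1
      exact he0 ((Submodule.mem_bot F).mp h1)
    have hEq := eich_irreducible Q hP (by omega) (B ⊓ D L) hNP hinv hN0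
    obtain ⟨v, hv, hv0, hQv⟩ := exists_isotropic Q
      (D L ⊓ LinearMap.ker (QuadraticMap.polarBilin Q a)) (by omega)
    rw [← hEq] at hv
    exact hv0 (h.sing_eq_zero S hNM hxL hv.1 hv.2 hQv)

end setup

end Cfsg.Agent.Lib.Helper94
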