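import Mathlib
import Cfsg.Agent.Lib.Helper94.OrthDecStab

set_option autoImplicit false

/-!
# Overgroups of the stabiliser of an orthogonal decomposition: the transport argument

Under `NoMixed`, a singular vector in the `M`-orbit of a singular vector of a block lies in a
block; hence every element of `M` permutes the blocks.
-/

namespace Cfsg.Agent.Lib.Helper94

open Matrix Module Cfsg.Agent.Lib.Helper14 Cfsg.Agent.Lib.Helper99

section transport

variable {ι : Type} [Fintype ι] [DecidableEq ι] {F : Type*} [Field F] [Fintype F]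
variable {Q : QuadraticForm F (ι → F)} {t : ℕ} {D : Fin t → Submodule F (ι → F)} {k : ℕ}
  {M : Subgroup ↥(Cfsg.isometryGroup F ⇑Q)} {x : ι → F} {B : Submodule F (ι → F)}

/-- The transport lemma: a non-singular direction `y0` with no `D L`-component, for `x` with a
non-zero `D L`-component but not in `D L`, is impossible. -/
theorem Good.transport_false (S : DSetup Q D k M) (hqk : 4 ≤ Fintype.card F ∨ 4 ≤ k)
    (hNM : NoMixed Q D M) (h : Good Q M k x B) {L : Fin t} (ha0 : oproj Q (D L) x ≠ 0)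
    (hxL : x ∉ D L) {y0 : ι → F} (hy0 : y0 ∈ B) (hQy0 : Q y0 ≠ 0)
    (hy0L : oproj Q (D L) y0 = 0) : False := by
  have hc := S.od.isCompl L
  obtain ⟨a, ha⟩ : ∃ a, a = oproj Q (D L) x := ⟨_, rfl⟩
  obtain ⟨b, hb⟩ : ∃ b, b = x - a := ⟨_, rfl⟩
  rw [← ha] at ha0
  have haL : a ∈ D L := by rw [ha]; exact oproj_mem Q (D L) x
  have hbO : b ∈ Cfsg.Agent.Lib.Helper44.orth Q (D L) := by
    rw [hb, ha]; exact sub_oproj_mem Q hc x
  have hxab : x = a + b := by rw [hb]; abel
  have hb0 : b ≠ 0 := by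
    intro h0
    apply hxL
    rw [hxab, h0, add_zero]
    exact haL
  have hy0O : y0 ∈ Cfsg.Agent.Lib.Helper44.orth Q (D L) := (oproj_eq_zero_iff Q hc y0).mp hy0L
  have hperp : ∀ w ∈ D L, ∀ z ∈ Cfsg.Agent.Lib.Helper44.orth Q (D L),
      QuadraticMap.polar ⇑Q w z = 0 :=
    fun w hw z hz => (Cfsg.Agent.Lib.Helper44.mem_orth_iff Q (D L) z).mp hz w hw
  obtain ⟨hxy0, hEy0⟩ := (h.mem_iff y0).mp hy0
  have hay0 : QuadraticMap.polar ⇑Q a y0 = 0 := hperp a haL y0 hy0O
  have hy0b : QuadraticMap.polar ⇑Q y0 b = 0 := by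
    have h1 : QuadraticMap.polar ⇑Q y0 x = 0 := by rw [QuadraticMap.polar_comm]; exact hxy0
    rw [hxab, QuadraticMap.polar_add_right, QuadraticMap.polar_comm (⇑Q) y0 a, hay0,
      zero_add] at h1
    exact h1
  have hind : ∀ α β : F, α • b + β • y0 = 0 → α = 0 ∧ β = 0 := by
    intro α β hαβ
    have h1 := congrArg (fun v => QuadraticMap.polar ⇑Q v y0) hαβ
    simp only [QuadraticMap.polar_add_left, QuadraticMap.polar_smul_left,
      QuadraticMap.polar_zero_left, smul_eq_mul] at h1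
    rw [QuadraticMap.polar_comm (⇑Q) b y0, hy0b, mul_zero, zero_add, polar_self_eq] at h1
    have hβ : β = 0 := by
      rcases mul_eq_zero.mp h1 with h2 | h2
      · exact h2
      · exact absurd h2 (mul_ne_zero S.od.h2 hQy0)
    rw [hβ, zero_smul, add_zero] at hαβ
    exact ⟨(smul_eq_zero.mp hαβ).resolve_right hb0, hβ⟩
  obtain ⟨v, hv, w, hw, hQv, hvw, hξ⟩ :=
    exists_eich_moving Q (S.od.nondeg L) (S.hdim L) haL ha0
  obtain ⟨ξ, hξdef⟩ : ∃ ξ, ξ = eichMat Q v w *ᵥ a := ⟨_, rfl⟩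
  rw [← hξdef] at hξ
  have hξL : ξ ∈ D L := by
    rw [hξdef, eichMat_mulVec]
    exact (D L).sub_mem ((D L).add_mem haL ((D L).smul_mem _ hw)) ((D L).smul_mem _ hv)
  have hfixO : ∀ z ∈ Cfsg.Agent.Lib.Helper44.orth Q (D L), eichMat Q v w *ᵥ z = z := by
    intro z hz
    rw [eichMat_mulVec, hperp v hv z hz, hperp w hw z hz]
    simp
  have hgh : eichElt Q S.od.hQ v w hQv hvw ∈ M := S.EIn_block hv hw hQv hvw _ rfl
  have hG2 := h.conj hgh
  rw [eichElt_coe] at hG2
  have hv2 : eichMat Q v w *ᵥ x = ξ + b := by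
    rw [hxab, Matrix.mulVec_add, ← hξdef, hfixO b hbO]
  rw [hv2] at hG2
  have hy0B2 : y0 ∈ B.map (Matrix.mulVecLin (eichMat Q v w)) :=
    ⟨y0, hy0, by rw [Matrix.mulVecLin_apply]; exact hfixO y0 hy0O⟩
  obtain ⟨p12, hp12⟩ : ∃ p12, p12 = QuadraticMap.polar ⇑Q x (ξ + b) := ⟨_, rfl⟩
  obtain ⟨c, hc0, hc1⟩ : ∃ c : F, c ≠ 0 ∧
      (4 ≤ Fintype.card F → 1 + c * c * (Q y0 * p12) ≠ 0) := by
    by_cases hq : 4 ≤ Fintype.card F
    · by_cases h1 : Q y0 * p12 = -1
      · obtain ⟨ω, hω0, hω1⟩ := exists_sq_ne_one hq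
        refine ⟨ω, hω0, fun _ => ?_⟩
        rw [h1]
        intro h2
        apply hω1
        linear_combination -h2
      · refine ⟨1, one_ne_zero, fun _ => ?_⟩
        intro h2
        apply h1
        linear_combination h2
    · exact ⟨1, one_ne_zero, fun hq' => absurd hq' hq⟩
  have hcy0B : c • y0 ∈ B := B.smul_mem c hy0
  obtain ⟨hxcy0, hEcy0⟩ := (h.mem_iff (c • y0)).mp hcy0B
  have hg' : eichElt Q S.od.hQ x (c • y0) h.sing hxcy0 ∈ M := hEcy0 _ rfl
  have hG3 := hG2.conj hg'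
  rw [eichElt_coe] at hG3
  have hy0ξ : QuadraticMap.polar ⇑Q y0 ξ = 0 := by
    rw [QuadraticMap.polar_comm]; exact hperp ξ hξL y0 hy0O
  have hvstar : eichMat Q x (c • y0) *ᵥ (ξ + b) =
      (ξ + b) + (c * p12) • y0 - (c * c * Q y0 * p12) • x := by
    rw [eichMat_mulVec, ← hp12, QuadraticMap.polar_smul_left, QuadraticMap.polar_add_right, hy0ξ,
      hy0b, QuadraticMap.map_smul]
    simp only [smul_eq_mul, add_zero, mul_zero, zero_add]
    module
  have hystar : eichMat Q x (c • y0) *ᵥ y0 = y0 - (c * (2 * Q y0)) • x := by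
    rw [eichMat_mulVec, hxy0, QuadraticMap.polar_smul_left, polar_self_eq, QuadraticMap.map_smul]
    simp only [smul_eq_mul, mul_zero, add_zero, zero_smul]
  rw [hvstar] at hG3
  obtain ⟨vs, hvs⟩ : ∃ vs, vs = (ξ + b) + (c * p12) • y0 - (c * c * Q y0 * p12) • x := ⟨_, rfl⟩
  rw [← hvs] at hG3
  obtain ⟨Bs, hBs⟩ : ∃ Bs, Bs = (B.map (Matrix.mulVecLin (eichMat Q v w))).map
      (Matrix.mulVecLin (eichMat Q x (c • y0))) := ⟨_, rfl⟩
  rw [← hBs] at hG3
  obtain ⟨ys, hys⟩ : ∃ ys, ys = y0 - (c * (2 * Q y0)) • x := ⟨_, rfl⟩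
  have hysB : ys ∈ Bs := by
    rw [hBs, hys, ← hystar]
    exact ⟨y0, hy0B2, Matrix.mulVecLin_apply _ _⟩
  have hpb : oproj Q (D L) b = 0 := (oproj_eq_zero_iff Q hc b).mpr hbO
  have hpξ : oproj Q (D L) ξ = ξ := S.od.oproj_of_mem hξL
  have hpx : oproj Q (D L) x = a := ha.symm
  have hpvs : oproj Q (D L) vs = ξ - (c * c * Q y0 * p12) • a := by
    rw [hvs, map_sub, map_add, map_add, map_smul, map_smul, hpξ, hpb, hy0L, hpx]
    simp
  have hpys : oproj Q (D L) ys = (-(c * (2 * Q y0))) • a := by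
    rw [hys, map_sub, map_smul, hy0L, hpx, zero_sub, neg_smul]
  have hpvs0 : oproj Q (D L) vs ≠ 0 := by
    rw [hpvs]
    intro h0
    apply hξ
    rw [sub_eq_zero.mp h0]
    exact Submodule.smul_mem _ _ (Submodule.mem_span_singleton_self a)
  have hrest_vs : vs - oproj Q (D L) vs = (1 - c * c * Q y0 * p12) • b + (c * p12) • y0 := by
    rw [hpvs, hvs, hxab]
    module
  have hrest_ys : ys - oproj Q (D L) ys = y0 - (c * (2 * Q y0)) • b := by
    rw [hpys, hys, hxab]
    module
  have hvsL : vs ∉ D L := by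
    intro hmem
    have h1 : vs - oproj Q (D L) vs = 0 := by rw [S.od.oproj_of_mem hmem, sub_self]
    rw [hrest_vs] at h1
    obtain ⟨h2, h3⟩ := hind _ _ h1
    have h4 : p12 = 0 := (mul_eq_zero.mp h3).resolve_left hc0
    rw [h4] at h2
    simp at h2
  by_cases hN : ∀ e ∈ Bs, e ∈ D L → e = 0
  · have h1 := hG3.oproj_mem_span S hqk hpvs0 hN hysB
    rw [hpys, hpvs] at h1
    obtain ⟨μ, hμ⟩ := Submodule.mem_span_singleton.mp h1
    by_cases hμ0 : μ = 0
    · rw [hμ0, zero_smul] at hμ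
      rcases smul_eq_zero.mp hμ.symm with h2 | h2
      · rcases mul_eq_zero.mp (neg_eq_zero.mp h2) with h3 | h3
        · exact hc0 h3
        · exact (mul_ne_zero S.od.h2 hQy0) h3
      · exact ha0 h2
    · apply hξ
      have h3 : μ • ξ = (μ * (c * c * Q y0 * p12) - c * (2 * Q y0)) • a := by
        have h4 : μ • ξ = μ • (ξ - (c * c * Q y0 * p12) • a) +
            (μ * (c * c * Q y0 * p12)) • a := by module
        rw [h4, hμ]
        module
      have h2 : ξ = (μ⁻¹ * (μ * (c * c * Q y0 * p12) - c * (2 * Q y0))) • a := by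
        rw [← smul_smul, ← h3, smul_smul, inv_mul_cancel₀ hμ0, one_smul]
      rw [h2]
      exact Submodule.smul_mem _ _ (Submodule.mem_span_singleton_self a)
  · push Not at hN
    obtain ⟨es, hesB, hesL, hes0⟩ := hN
    by_cases hk4 : 4 ≤ k
    · exact hes0 (hG3.inf_eq_bot S hNM hpvs0 hvsL (Or.inr hk4) hesB hesL)
    · have hq : 4 ≤ Fintype.card F := hqk.resolve_right hk4
      have hdimBs : finrank F Bs = 2 := by
        have h1 := hG3.dim
        have h2 := S.hk
        omega
      have hvsB : vs ∈ Bs := hG3.self_mem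
      have hli : LinearIndependent F ![vs, es] := by
        rw [LinearIndependent.pair_iff]
        intro s r hsr
        have hs : s = 0 := by
          by_contra hs0
          apply hvsL
          have h1 : s • vs = (-r) • es := by
            rw [neg_smul]
            exact eq_neg_of_add_eq_zero_left hsr
          have h2 : vs = (s⁻¹ * -r) • es := by
            rw [← smul_smul, ← h1, smul_smul, inv_mul_cancel₀ hs0, one_smul]
          rw [h2]
          exact (D L).smul_mem _ hesL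
        rw [hs, zero_smul, zero_add] at hsr
        exact ⟨hs, (smul_eq_zero.mp hsr).resolve_right hes0⟩
      have hspan : Submodule.span F {vs, es} = Bs := by
        apply Submodule.eq_of_le_of_finrank_le
        · rw [Submodule.span_le]
          intro z hz
          rcases hz with rfl | rfl
          · exact hvsB
          · exact hesB
        · have h1 := finrank_span_eq_card hli
          rw [Matrix.range_cons_cons_empty, Fintype.card_fin] at h1
          rw [h1, hdimBs]
      have hys2 : ys ∈ Submodule.span F {vs, es} := by rw [hspan]; exact hysB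
      obtain ⟨α, β, hαβ⟩ := Submodule.mem_span_pair.mp hys2
      have h1 : ys - oproj Q (D L) ys = α • (vs - oproj Q (D L) vs) := by
        rw [← hαβ, map_add, map_smul, map_smul, S.od.oproj_of_mem hesL]
        module
      rw [hrest_vs, hrest_ys] at h1
      have h2 : (-(c * (2 * Q y0)) - α * (1 - c * c * Q y0 * p12)) • b +
          (1 - α * (c * p12)) • y0 = 0 := by
        have h3 : y0 - (c * (2 * Q y0)) • b -
            α • ((1 - c * c * Q y0 * p12) • b + (c * p12) • y0) = 0 := sub_eq_zero.mpr h1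
        rw [← h3]
        module
      obtain ⟨h3, h4⟩ := hind _ _ h2
      apply hc1 hq
      linear_combination (-(c * p12)) * h3 + (1 - c * c * Q y0 * p12) * h4

/-- A singular vector of the `M`-orbit of the singular vectors of the blocks lies in a block. -/
theorem Good.mem_block (S : DSetup Q D k M) (hqk : 4 ≤ Fintype.card F ∨ 4 ≤ k)
    (hNM : NoMixed Q D M) (h : Good Q M k x B) : ∃ l, x ∈ D l := by
  by_contra hcon
  push Not at hcon
  obtain ⟨L, hL⟩ := S.od.exists_oproj_ne h.ne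
  have hc := S.od.isCompl L
  by_cases hN : ∀ e ∈ B, e ∈ D L → e = 0
  · obtain ⟨y, hy, hQy⟩ := h.nonsing
    obtain ⟨l, hl⟩ := Submodule.mem_span_singleton.mp (h.oproj_mem_span S hqk hL hN hy)
    have hxy : QuadraticMap.polar ⇑Q y x = 0 := by
      rw [QuadraticMap.polar_comm]; exact ((h.mem_iff y).mp hy).1
    apply h.transport_false S hqk hNM hL (hcon L) (B.sub_mem hy (B.smul_mem l h.self_mem))
    · rw [quad_sub_smul, h.sing, hxy]
      simpa using hQy
    · rw [map_sub, map_smul, hl, sub_self]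
  · push Not at hN
    obtain ⟨e, heB, heL, he0⟩ := hN
    have hQe : Q e ≠ 0 := fun hQe => he0 (h.sing_eq_zero S hNM (hcon L) heB heL hQe)
    have hb0 : x - oproj Q (D L) x ≠ 0 := by
      intro h0
      apply hcon L
      rw [sub_eq_zero.mp h0]
      exact oproj_mem Q (D L) x
    obtain ⟨L', hL'⟩ := S.od.exists_oproj_ne hb0
    have hLL' : L' ≠ L := by
      rintro rfl
      apply hL'
      exact (oproj_eq_zero_iff Q hc _).mpr (sub_oproj_mem Q hc x)
    have hxL' : oproj Q (D L') x ≠ 0 := by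
      rw [map_sub, S.od.oproj_of_mem_ne hLL' (oproj_mem Q (D L) x), sub_zero] at hL'
      exact hL'
    exact h.transport_false S hqk hNM hxL' (hcon L') heB hQe (S.od.oproj_of_mem_ne hLL' heL)

/-- Under `NoMixed`, every element of `M` maps each block into a block. -/
theorem DSetup.maps_block (S : DSetup Q D k M) (hqk : 4 ≤ Fintype.card F ∨ 4 ≤ k)
    (hNM : NoMixed Q D M) {g : ↥(Cfsg.isometryGroup F ⇑Q)} (hg : g ∈ M) (i : Fin t) :
    ∃ j, ∀ x ∈ D i, ((g : Matrix.GeneralLinearGroup ι F) : Matrix ι ι F) *ᵥ x ∈ D j := by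
  obtain ⟨u, hu, hu0, hQu⟩ := exists_isotropic Q (D i) (S.hdim i)
  obtain ⟨u', hu', hQu', huu'⟩ := exists_hyp_partner Q (D i) (S.od.nondeg i) hu hu0 hQu
  have hu'0 : u' ≠ 0 := by
    rintro rfl
    rw [QuadraticMap.polar_zero_right] at huu'
    exact zero_ne_one huu'
  have hG := (S.good_of_mem hNM hu hu0 hQu).conj hg
  have hG' := (S.good_of_mem hNM hu' hu'0 hQu').conj hg
  obtain ⟨j, hj⟩ := hG.mem_block S hqk hNM
  obtain ⟨j', hj'⟩ := hG'.mem_block S hqk hNM
  have hjj' : j = j' := by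
    by_contra hne
    have h1 := S.od.perp j j' hne _ hj _ hj'
    rw [polar_mulVec Q _ (isom_preserves g), huu'] at h1
    exact one_ne_zero h1
  refine ⟨j, ?_⟩
  have hperp : ∀ y ∈ D i, QuadraticMap.polar ⇑Q u y = 0 →
      ((g : Matrix.GeneralLinearGroup ι F) : Matrix ι ι F) *ᵥ y ∈ D j := by
    intro y hy huy
    have h1 : ((g : Matrix.GeneralLinearGroup ι F) : Matrix ι ι F) *ᵥ y ∈
        (D i ⊓ LinearMap.ker (QuadraticMap.polarBilin Q u)).map
          (Matrix.mulVecLin ((g : Matrix.GeneralLinearGroup ι F) : Matrix ι ι F)) :=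
      ⟨y, Submodule.mem_inf.mpr ⟨hy, LinearMap.mem_ker.mpr huy⟩, Matrix.mulVecLin_apply _ _⟩
    obtain ⟨h2, h3⟩ := (hG.mem_iff _).mp h1
    exact S.mem_of_EIn hNM hj hG.ne hG.sing h2 h3
  intro x hx
  have e : x = (x - QuadraticMap.polar ⇑Q u x • u') + QuadraticMap.polar ⇑Q u x • u' := by abel
  rw [e, Matrix.mulVec_add, Matrix.mulVec_smul]
  apply (D j).add_mem
  · apply hperp _ ((D i).sub_mem hx ((D i).smul_mem _ hu'))
    rw [QuadraticMap.polar_sub_right, QuadraticMap.polar_smul_right, huu']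
    simp
  · apply (D j).smul_mem
    rw [hjj']
    exact hj'

/-- Under `NoMixed`, every element of `M` permutes the blocks. -/
theorem DSetup.exists_perm (S : DSetup Q D k M) (hqk : 4 ≤ Fintype.card F ∨ 4 ≤ k)
    (hNM : NoMixed Q D M) {g : ↥(Cfsg.isometryGroup F ⇑Q)} (hg : g ∈ M) :
    ∃ σ : Equiv.Perm (Fin t), ∀ i, ∀ x ∈ D i,
      ((g : Matrix.GeneralLinearGroup ι F) : Matrix ι ι F) *ᵥ x ∈ D (σ i) := by
  choose f hf using fun i => S.maps_block hqk hNM hg i
  choose f' hf' using fun i => S.maps_block hqk hNM (M.inv_mem hg) i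
  have key : ∀ i, f' (f i) = i := by
    intro i
    obtain ⟨x, hx, hx0⟩ := exists_ne_zero_of_finrank_pos (M := D i)
      (by have := S.hdim i; omega)
    have h1 := hf' (f i) _ (hf i x hx)
    rw [isom_inv_mulVec] at h1
    exact S.od.eq_of_mem_of_mem h1 hx hx0
  have hinj : Function.Injective f := by
    intro i i' hii'
    rw [← key i, ← key i', hii']
  exact ⟨Equiv.ofBijective f ⟨hinj, Finite.surjective_of_injective hinj⟩, hf⟩

end transport

end Cfsg.Agent.Lib.Helper94
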