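import Mathlib
import Cfsg.Agent.Lib.Helper94.OrthDecStab2
import Cfsg.Agent.Lib.Helper14.NegOne

set_option autoImplicit false

/-!
# Overgroups of the stabiliser of an orthogonal decomposition: the mixing case

If `M` (containing every element of `Ω` permuting the blocks) contains a "mixed" Eichler
transformation, with centre in a block and a non-zero direction orthogonal to this block, then
`M` contains `Ω`.
-/

namespace Cfsg.Agent.Lib.Helper94

open Matrix Module Cfsg.Agent.Lib.Helper14 Cfsg.Agent.Lib.Helper99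

section mixed

variable {ι : Type} [Fintype ι] [DecidableEq ι] {F : Type*} [Field F] [Fintype F]

variable {Q : QuadraticForm F (ι → F)} {t : ℕ} {D : Fin t → Submodule F (ι → F)} {k : ℕ}
  {M : Subgroup ↥(Cfsg.isometryGroup F ⇑Q)}

theorem DSetup.EIn_sq_smul (S : DSetup Q D k M) {i : Fin t} {u u' : ι → F} (hu : u ∈ D i)
    (hu' : u' ∈ D i) (hQu : Q u = 0) (hQu' : Q u' = 0)
    (huu' : QuadraticMap.polar ⇑Q u u' = 1) {w : ι → F}
    (hw : w ∈ Cfsg.Agent.Lib.Helper44.orth Q (D i)) (c : F) (h : EIn Q M u w) :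
    EIn Q M u ((c * c) • w) := by
  by_cases ht : c = 0
  · rw [ht, mul_zero, zero_smul]
    exact EIn_zero Q M u
  have huu : QuadraticMap.polar ⇑Q u u = 0 := by rw [polar_self_eq, hQu, mul_zero]
  have hu'u' : QuadraticMap.polar ⇑Q u' u' = 0 := by rw [polar_self_eq, hQu', mul_zero]
  have hu'u : QuadraticMap.polar ⇑Q u' u = 1 := by rw [QuadraticMap.polar_comm]; exact huu'
  have hQb : Q (u + u') = 1 := by
    rw [QuadraticMap.map_add (⇑Q) u u', hQu, hQu', huu']
    simp
  have hQb' : Q (c⁻¹ • u + c • u') = 1 := by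
    rw [QuadraticMap.map_add (⇑Q) (c⁻¹ • u) (c • u'), QuadraticMap.map_smul,
      QuadraticMap.map_smul, hQu, hQu', QuadraticMap.polar_smul_left,
      QuadraticMap.polar_smul_right, huu']
    simp only [smul_eq_mul, mul_zero, zero_add, mul_one]
    exact inv_mul_cancel₀ ht
  have hb0 : Q (u + u') ≠ 0 := by rw [hQb]; exact one_ne_zero
  have hb'0 : Q (c⁻¹ • u + c • u') ≠ 0 := by rw [hQb']; exact one_ne_zero
  have hg := S.refl_pair_mem ((D i).add_mem hu hu')
    ((D i).add_mem ((D i).smul_mem _ hu) ((D i).smul_mem _ hu')) hb0 hb'0 (hQb.trans hQb'.symm)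
  have h1 := EIn_conj Q M h _ hg
  have hwu : QuadraticMap.polar ⇑Q u w = 0 :=
    (Cfsg.Agent.Lib.Helper44.mem_orth_iff Q (D i) w).mp hw u hu
  have hwu' : QuadraticMap.polar ⇑Q u' w = 0 :=
    (Cfsg.Agent.Lib.Helper44.mem_orth_iff Q (D i) w).mp hw u' hu'
  have r1 : Cfsg.reflectionMatrix ⇑Q (c⁻¹ • u + c • u') *ᵥ u = (-(c * c)) • u' := by
    rw [reflectionMatrix_mulVec, hQb', QuadraticMap.polar_add_left,
      QuadraticMap.polar_smul_left, QuadraticMap.polar_smul_left, huu, hu'u]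
    match_scalars <;> field_simp <;> ring
  have r2 : Cfsg.reflectionMatrix ⇑Q (c⁻¹ • u + c • u') *ᵥ w = w := by
    rw [reflectionMatrix_mulVec, QuadraticMap.polar_add_left,
      QuadraticMap.polar_smul_left, QuadraticMap.polar_smul_left, hwu, hwu']
    simp
  have e1 : (((reflElt Q S.od.hQ (u + u') hb0 * reflElt Q S.od.hQ (c⁻¹ • u + c • u') hb'0 :
      ↥(Cfsg.isometryGroup F ⇑Q)) : Matrix.GeneralLinearGroup ι F) : Matrix ι ι F) *ᵥ u =
      (c * c) • u := by
    simp only [Subgroup.coe_mul, Units.val_mul]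
    rw [← Matrix.mulVec_mulVec, Cfsg.Agent.Lib.Helper44.reflElt_coe,
      Cfsg.Agent.Lib.Helper44.reflElt_coe, r1, reflectionMatrix_mulVec, hQb,
      QuadraticMap.polar_smul_right, QuadraticMap.polar_add_left, huu', hu'u']
    match_scalars <;> simp
  have e3 : (((reflElt Q S.od.hQ (u + u') hb0 * reflElt Q S.od.hQ (c⁻¹ • u + c • u') hb'0 :
      ↥(Cfsg.isometryGroup F ⇑Q)) : Matrix.GeneralLinearGroup ι F) : Matrix ι ι F) *ᵥ w = w := by
    simp only [Subgroup.coe_mul, Units.val_mul]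
    rw [← Matrix.mulVec_mulVec, Cfsg.Agent.Lib.Helper44.reflElt_coe,
      Cfsg.Agent.Lib.Helper44.reflElt_coe, r2, reflectionMatrix_mulVec,
      QuadraticMap.polar_add_left, hwu, hwu']
    simp
  rw [e1, e3] at h1
  exact (EIn_smul_left Q M u w (c * c)).mp h1

/-- The directions orthogonal to the block of `u` whose Eichler transformation lies in `M` form a
subspace. -/
theorem DSetup.exists_mixSub (S : DSetup Q D k M) {i : Fin t} {u u' : ι → F} (hu : u ∈ D i)
    (hu' : u' ∈ D i) (hQu : Q u = 0) (hQu' : Q u' = 0)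
    (huu' : QuadraticMap.polar ⇑Q u u' = 1) :
    ∃ A : Submodule F (ι → F),
      ∀ w, w ∈ A ↔ (w ∈ Cfsg.Agent.Lib.Helper44.orth Q (D i) ∧ EIn Q M u w) := by
  have hperp : ∀ w ∈ Cfsg.Agent.Lib.Helper44.orth Q (D i), QuadraticMap.polar ⇑Q u w = 0 :=
    fun w hw => (Cfsg.Agent.Lib.Helper44.mem_orth_iff Q (D i) w).mp hw u hu
  refine ⟨
    { carrier := {w | w ∈ Cfsg.Agent.Lib.Helper44.orth Q (D i) ∧ EIn Q M u w}
      add_mem' := ?_
      zero_mem' := ?_
      smul_mem' := ?_ }, fun w => Iff.rfl⟩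
  · rintro a b ⟨ha, ha'⟩ ⟨hb, hb'⟩
    exact ⟨Submodule.add_mem _ ha hb,
      EIn_add Q S.od.hQ M hQu (hperp a ha) (hperp b hb) ha' hb'⟩
  · exact ⟨Submodule.zero_mem _, EIn_zero Q M u⟩
  · rintro c w ⟨hw, hw'⟩
    refine ⟨Submodule.smul_mem _ c hw, ?_⟩
    have h2 := S.od.h2
    have e : c • w = (((c + 1) / 2) * ((c + 1) / 2)) • w -
        (((c - 1) / 2) * ((c - 1) / 2)) • w := by
      rw [← sub_smul]
      congr 1
      field_simp
      ring
    show EIn Q M u (c • w)
    rw [e]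
    have hp : ∀ s : F, QuadraticMap.polar ⇑Q u (s • w) = 0 := by
      intro s
      rw [QuadraticMap.polar_smul_right, hperp w hw, smul_zero]
    exact EIn_sub Q S.od.hQ M hQu (hp _) (hp _)
      (S.EIn_sq_smul hu hu' hQu hQu' huu' hw _ hw')
      (S.EIn_sq_smul hu hu' hQu hQu' huu' hw _ hw')

/-- If the direction of a mixed Eichler transformation in `M` has a non-zero component in the
block `D j`, then every direction in `D j` is allowed. -/
theorem DSetup.EIn_of_proj (S : DSetup Q D k M) {i j : Fin t} (hij : i ≠ j) {u w : ι → F}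
    (hu : u ∈ D i) (hu0 : u ≠ 0) (hQu : Q u = 0)
    (hw : w ∈ Cfsg.Agent.Lib.Helper44.orth Q (D i)) (h : EIn Q M u w)
    (hp : oproj Q (D j) w ≠ 0) : ∀ w' ∈ D j, EIn Q M u w' := by
  obtain ⟨u', hu', hQu', huu'⟩ := exists_hyp_partner Q (D i) (S.od.nondeg i) hu hu0 hQu
  obtain ⟨A, hA⟩ := S.exists_mixSub hu hu' hQu hQu' huu'
  have hinvA : ∀ x ∈ D j, ∀ y ∈ D j, Q x = 0 → QuadraticMap.polar ⇑Q x y = 0 →
      ∀ z ∈ A, eichMat Q x y *ᵥ z ∈ A := by
    intro x hx y hy hQx hxy z hz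
    obtain ⟨hz1, hz2⟩ := (hA z).mp hz
    rw [hA]
    constructor
    · rw [eichMat_mulVec]
      exact Submodule.sub_mem _ (Submodule.add_mem _ hz1
        (Submodule.smul_mem _ _ (S.od.le_orth hij hy)))
        (Submodule.smul_mem _ _ (S.od.le_orth hij hx))
    · have hg : eichElt Q S.od.hQ x y hQx hxy ∈ M := S.EIn_block hx hy hQx hxy _ rfl
      have h1 := EIn_conj Q M hz2 _ hg
      rw [eichElt_coe] at h1
      have e : eichMat Q x y *ᵥ u = u := by
        rw [eichMat_mulVec, S.od.perp j i (Ne.symm hij) x hx u hu,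
          S.od.perp j i (Ne.symm hij) y hy u hu]
        simp
      rw [e] at h1
      exact h1
  have hwA : w ∈ A := (hA w).mpr ⟨hw, h⟩
  obtain ⟨x, hx, y, hy, hQx, hxy, hmove⟩ :=
    exists_eich_moving Q (S.od.nondeg j) (S.hdim j) (oproj_mem Q (D j) w) hp
  have hc := S.od.isCompl j
  have hdiff : eichMat Q x y *ᵥ w - w =
      eichMat Q x y *ᵥ (oproj Q (D j) w) - oproj Q (D j) w := by
    rw [eichMat_mulVec, eichMat_mulVec, polar_oproj Q hc hx w, polar_oproj Q hc hy w]
    abel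
  have hne : eichMat Q x y *ᵥ w - w ≠ 0 := by
    rw [hdiff]
    intro h0
    apply hmove
    rw [sub_eq_zero.mp h0]
    exact Submodule.mem_span_singleton_self _
  have hmemA : eichMat Q x y *ᵥ w - w ∈ A := A.sub_mem (hinvA x hx y hy hQx hxy w hwA) hwA
  have hmemD : eichMat Q x y *ᵥ w - w ∈ D j := by
    rw [hdiff]
    refine (D j).sub_mem ?_ (oproj_mem Q (D j) w)
    rw [eichMat_mulVec]
    exact (D j).sub_mem ((D j).add_mem (oproj_mem Q (D j) w) ((D j).smul_mem _ hy))
      ((D j).smul_mem _ hx)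
  have hAD : A ⊓ D j = D j := by
    apply eich_irreducible Q (S.od.nondeg j) (S.hdim j) (A ⊓ D j) inf_le_right
    · intro x' hx' y' hy' hQx' hxy' z hz
      refine Submodule.mem_inf.mpr ⟨hinvA x' hx' y' hy' hQx' hxy' z hz.1, ?_⟩
      rw [eichMat_mulVec]
      exact (D j).sub_mem ((D j).add_mem hz.2 ((D j).smul_mem _ hy')) ((D j).smul_mem _ hx')
    · intro hbot
      apply hne
      have h3 : eichMat Q x y *ᵥ w - w ∈ A ⊓ D j := Submodule.mem_inf.mpr ⟨hmemA, hmemD⟩
      rw [hbot] at h3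
      exact (Submodule.mem_bot F).mp h3
  intro w' hw'
  have h4 : w' ∈ A ⊓ D j := by rw [hAD]; exact hw'
  exact ((hA w').mp h4.1).2

/-- All Eichler transformations with centre in the block `D a` and direction in the block `D b`
lie in `M`. -/
def BlockRel (Q : QuadraticForm F (ι → F)) {t : ℕ} (D : Fin t → Submodule F (ι → F))
    (M : Subgroup ↥(Cfsg.isometryGroup F ⇑Q)) (a b : Fin t) : Prop :=
  ∀ u ∈ D a, Q u = 0 → ∀ w ∈ D b, EIn Q M u w

theorem EIn_flip {x d : ι → F} (hx : Q x = 0) (hd : Q d = 0) (h : EIn Q M x d) :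
    EIn Q M d (-x) := by
  intro g hg
  apply h g
  rw [hg, eichMat_symm hx hd]

theorem EIn_zero_centre (w : ι → F) : EIn Q M 0 w := by
  intro g hg
  rw [eichMat_zero_left] at hg
  have : g = 1 := isom_ext hg
  rw [this]
  exact M.one_mem

theorem DSetup.blockRel_of_one (S : DSetup Q D k M) {i j : Fin t} (hij : i ≠ j) {u : ι → F}
    (hu : u ∈ D i) (hu0 : u ≠ 0) (hQu : Q u = 0) (h : ∀ w' ∈ D j, EIn Q M u w') :
    BlockRel Q D M j i := by
  intro y hy hQy w' hw'
  by_cases hy0 : y = 0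
  · rw [hy0]
    exact EIn_zero_centre w'
  have h1 := EIn_flip hQu hQy (h y hy)
  have hmem : -u ∈ Cfsg.Agent.Lib.Helper44.orth Q (D j) :=
    S.od.le_orth (Ne.symm hij) ((D i).neg_mem hu)
  have hp : oproj Q (D i) (-u) ≠ 0 := by
    rw [S.od.oproj_of_mem ((D i).neg_mem hu)]
    exact neg_ne_zero.mpr hu0
  exact S.EIn_of_proj (Ne.symm hij) hy hy0 hQy hmem h1 hp w' hw'

/-- With all the mixed Eichler transformations in `M`, the whole root group at a singular vector
of a block is in `M`. -/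
theorem DSetup.rootIn_of_blockRel (S : DSetup Q D k M)
    (hR : ∀ a b, a ≠ b → BlockRel Q D M a b) {i : Fin t} {u : ι → F} (hu : u ∈ D i)
    (hQu : Q u = 0) : rootIn Q M u := by
  intro w huw
  show EIn Q M u w
  obtain ⟨c, hc, rfl⟩ := S.od.exists_components w
  have hpl : ∀ l, QuadraticMap.polar ⇑Q u (c l) = 0 := by
    intro l
    by_cases hl : l = i
    · subst hl
      have h1 : QuadraticMap.polar ⇑Q u (∑ m, c m) = QuadraticMap.polar ⇑Q u (c l) := by
        change QuadraticMap.polarBilin Q u (∑ m, c m) = _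
        rw [map_sum, Finset.sum_eq_single l]
        · rfl
        · intro m _ hm
          exact S.od.perp l m (Ne.symm hm) u hu (c m) (hc m)
        · intro h
          exact absurd (Finset.mem_univ l) h
      rw [← h1]
      exact huw
    · exact S.od.perp i l (Ne.symm hl) u hu (c l) (hc l)
  have hEl : ∀ l, EIn Q M u (c l) := by
    intro l
    by_cases hl : l = i
    · subst hl
      exact S.EIn_block hu (hc l) hQu (hpl l)
    · exact hR i l (Ne.symm hl) u hu hQu (c l) (hc l)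
  have hsum : ∀ T : Finset (Fin t), QuadraticMap.polar ⇑Q u (∑ l ∈ T, c l) = 0 ∧
      EIn Q M u (∑ l ∈ T, c l) := by
    intro T
    induction T using Finset.induction_on with
    | empty =>
      rw [Finset.sum_empty]
      exact ⟨QuadraticMap.polar_zero_right _ _, EIn_zero Q M u⟩
    | insert a T ha ih =>
      rw [Finset.sum_insert ha]
      exact ⟨by rw [QuadraticMap.polar_add_right, hpl a, ih.1, add_zero],
        EIn_add Q S.od.hQ M hQu (hpl a) ih.1 (hEl a) ih.2⟩
  exact (hsum Finset.univ).2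

/-- A relation on indices invariant under transpositions and containing one pair of distinct
indices contains all of them. -/
theorem rel_of_swap_invariant {t : ℕ} (Pr : Fin t → Fin t → Prop)
    (hinv : ∀ i j, i ≠ j → ∀ a b, Pr a b → Pr (Equiv.swap i j a) (Equiv.swap i j b))
    (a₀ b₀ : Fin t) (h₀ : Pr a₀ b₀) (hne₀ : a₀ ≠ b₀) : ∀ a b, a ≠ b → Pr a b := by
  have step : ∀ a b₁ b, a ≠ b₁ → a ≠ b → Pr a b₁ → Pr a b := by
    intro a b₁ b hab₁ hab h
    by_cases hb : b₁ = b
    · rw [← hb]; exact h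
    · have := hinv b₁ b hb a b₁ h
      rwa [Equiv.swap_apply_of_ne_of_ne hab₁ hab, Equiv.swap_apply_left] at this
  intro a b hab
  by_cases ha : a₀ = a
  · subst ha
    exact step a₀ b₀ b hne₀ hab h₀
  · have h1 := hinv a₀ a ha a₀ b₀ h₀
    rw [Equiv.swap_apply_left] at h1
    have hne : a ≠ Equiv.swap a₀ a b₀ := by
      intro h
      have h2 : Equiv.swap a₀ a a₀ = Equiv.swap a₀ a b₀ := by
        rw [Equiv.swap_apply_left]
        exact h
      exact hne₀ ((Equiv.swap a₀ a).injective h2)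
    exact step a _ b hne hab h1

theorem basis_span_coe {κ : Type*} {W : Submodule F (ι → F)} (v : Basis κ F W) :
    Submodule.span F (Set.range (fun s => (v s : ι → F))) = W := by
  have h1 := congrArg (Submodule.map W.subtype) v.span_eq
  rw [Submodule.map_span, Submodule.map_subtype_top, ← Set.range_comp] at h1
  exact h1

/-- An orthogonal basis of non-singular vectors of a nondegenerate subspace. -/
theorem exists_orth_basis (Q : QuadraticForm F (ι → F)) (h2 : (2 : F) ≠ 0)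
    {W : Submodule F (ι → F)} (hW : QNondegOn Q W) :
    ∃ v : Basis (Fin (finrank F W)) F W,
      (∀ r s, r ≠ s → QuadraticMap.polar ⇑Q (v r : ι → F) (v s : ι → F) = 0) ∧
      ∀ s, Q (v s : ι → F) ≠ 0 := by
  have : Invertible (2 : F) := invertibleOfNonzero h2
  have hsymm : LinearMap.BilinForm.IsSymm
      (LinearMap.BilinForm.restrict (QuadraticMap.polarBilin Q) W) :=
    LinearMap.BilinForm.isSymm_def.mpr
      (fun x y => QuadraticMap.polar_comm (⇑Q) (x : ι → F) (y : ι → F))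
  obtain ⟨v, hv⟩ := LinearMap.BilinForm.exists_orthogonal_basis
    (LinearMap.BilinForm.isSymm_iff.mp hsymm)
  have horth : ∀ r s, r ≠ s → QuadraticMap.polar ⇑Q (v r : ι → F) (v s : ι → F) = 0 :=
    fun r s hrs => hv hrs
  refine ⟨v, horth, ?_⟩
  intro s hQs
  have hspan := basis_span_coe v
  have hker : Submodule.span F (Set.range (fun s => (v s : ι → F))) ≤
      LinearMap.ker (QuadraticMap.polarBilin Q (v s : ι → F)) := by
    rw [Submodule.span_le]
    rintro _ ⟨r, rfl⟩
    show QuadraticMap.polar ⇑Q (v s : ι → F) (v r : ι → F) = 0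
    by_cases hrs : s = r
    · rw [← hrs, polar_self_eq, hQs, mul_zero]
    · exact horth s r hrs
  have h0 : (v s : ι → F) = 0 := by
    apply hW _ (v s).2
    intro x hx
    have hx' : x ∈ Submodule.span F (Set.range (fun s => (v s : ι → F))) := by
      rw [hspan]; exact hx
    exact LinearMap.mem_ker.mp (hker hx')
  exact v.ne_zero s (Subtype.ext h0)

theorem prod_refl_stab (Q : QuadraticForm F (ι → F)) (W : Submodule F (ι → F))
    (l : List (ι → F))
    (hl : ∀ u ∈ l, ∀ x ∈ W, Cfsg.reflectionMatrix ⇑Q u *ᵥ x ∈ W) :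
    ∀ x ∈ W, (l.map (Cfsg.reflectionMatrix ⇑Q)).prod *ᵥ x ∈ W := by
  induction l with
  | nil =>
    intro x hx
    simpa using hx
  | cons a l ih =>
    intro x hx
    rw [List.map_cons, List.prod_cons, ← mulVec_mulVec]
    exact hl a List.mem_cons_self _ (ih (fun u hu => hl u (List.mem_cons_of_mem _ hu)) x hx)

/-- An element of `M` interchanging two blocks and stabilising the others. -/
theorem DSetup.exists_swap (S : DSetup Q D k M)
    (hiso : ∀ i j, ∃ e : D i ≃ₗ[F] D j, ∀ w : D i, Q (e w : ι → F) = Q (w : ι → F))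
    {j j' : Fin t} (hjj' : j ≠ j') :
    ∃ s ∈ M, ∀ l, ∀ x ∈ D l,
      ((s : Matrix.GeneralLinearGroup ι F) : Matrix ι ι F) *ᵥ x ∈ D (Equiv.swap j j' l) := by
  have h2 := S.od.h2
  obtain ⟨e, he⟩ := hiso j j'
  obtain ⟨v, horth, hQv⟩ := exists_orth_basis Q h2 (S.od.nondeg j)
  have hepol : ∀ x y : D j, QuadraticMap.polar ⇑Q (e x : ι → F) (e y : ι → F) =
      QuadraticMap.polar ⇑Q (x : ι → F) (y : ι → F) := by
    intro x y
    unfold QuadraticMap.polar
    rw [← Submodule.coe_add, ← map_add, he, he, he]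
    rfl
  obtain ⟨a, ha_def⟩ : ∃ a : Fin (finrank F (D j)) → (ι → F), a = fun s => (v s : ι → F) :=
    ⟨_, rfl⟩
  obtain ⟨b, hb_def⟩ : ∃ b : Fin (finrank F (D j)) → (ι → F),
      b = fun s => (e (v s) : ι → F) := ⟨_, rfl⟩
  have ha : ∀ s, a s ∈ D j := fun s => by rw [ha_def]; exact (v s).2
  have hb : ∀ s, b s ∈ D j' := fun s => by rw [hb_def]; exact (e (v s)).2
  have hab : ∀ r s, QuadraticMap.polar ⇑Q (a r) (b s) = 0 :=
    fun r s => S.od.perp j j' hjj' _ (ha r) _ (hb s)
  have hba : ∀ r s, QuadraticMap.polar ⇑Q (b r) (a s) = 0 :=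
    fun r s => by rw [QuadraticMap.polar_comm]; exact hab s r
  have hQa : ∀ s, Q (a s) ≠ 0 := fun s => by rw [ha_def]; exact hQv s
  have hQb : ∀ s, Q (b s) = Q (a s) := fun s => by rw [ha_def, hb_def]; exact he (v s)
  have haa : ∀ r s, r ≠ s → QuadraticMap.polar ⇑Q (a r) (a s) = 0 :=
    fun r s hrs => by rw [ha_def]; exact horth r s hrs
  have hbb : ∀ r s, QuadraticMap.polar ⇑Q (b r) (b s) = QuadraticMap.polar ⇑Q (a r) (a s) :=
    fun r s => by rw [ha_def, hb_def]; exact hepol (v r) (v s)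
  have hspana : Submodule.span F (Set.range a) = D j := by
    rw [ha_def]; exact basis_span_coe v
  have hspanb : Submodule.span F (Set.range b) = D j' := by
    have h5 := basis_span_coe (v.map e)
    have h6 : (fun s => (((v.map e) s : D j') : ι → F)) = b := by
      rw [hb_def]
      funext s
      rw [Basis.map_apply]
    rw [h6] at h5
    exact h5
  have hQd : ∀ s, Q (a s - b s) = 2 * Q (a s) := by
    intro s
    have h3 := quad_sub_smul Q (a s) (b s) 1
    rw [one_smul] at h3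
    rw [h3, hQb, hab]
    ring
  have hQd0 : ∀ s, Q (a s - b s) ≠ 0 := fun s => by rw [hQd]; exact mul_ne_zero h2 (hQa s)
  have hdd : ∀ r s, r ≠ s → QuadraticMap.polar ⇑Q (a r - b r) (a s - b s) = 0 := by
    intro r s hrs
    rw [QuadraticMap.polar_sub_left, QuadraticMap.polar_sub_right,
      QuadraticMap.polar_sub_right, hab, hba, hbb, haa r s hrs]
    ring
  have hsd : ∀ r s, QuadraticMap.polar ⇑Q (a r - b r) (a s + b s) = 0 := by
    intro r s
    rw [QuadraticMap.polar_sub_left, QuadraticMap.polar_add_right,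
      QuadraticMap.polar_add_right, hab, hba, hbb]
    ring
  obtain ⟨d, hd_def⟩ : ∃ d : Fin (finrank F (D j)) → (ι → F), d = fun s => a s - b s :=
    ⟨_, rfl⟩
  have hds : ∀ s, d s = a s - b s := fun s => by rw [hd_def]
  have hld : ∀ u ∈ List.ofFn d, Q u ≠ 0 := by
    intro u hu
    obtain ⟨s, rfl⟩ := List.mem_ofFn.mp hu
    rw [hds]
    exact hQd0 s
  have hpw : (List.ofFn d).Pairwise (fun u v => QuadraticMap.polar ⇑Q u v = 0) := by
    rw [List.pairwise_ofFn]
    intro r s hrs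
    rw [hds, hds]
    exact hdd r s (ne_of_lt hrs)
  obtain ⟨P, hP⟩ : ∃ P : Matrix ι ι F,
      P = ((List.ofFn d).map (Cfsg.reflectionMatrix ⇑Q)).prod := ⟨_, rfl⟩
  have hPd : ∀ s, P *ᵥ d s = - d s := fun s => by
    rw [hP]
    exact prod_refl_ortho_neg Q _ hld hpw (d s) (List.mem_ofFn.mpr ⟨s, rfl⟩)
  have hPs : ∀ s, P *ᵥ (a s + b s) = a s + b s := by
    intro s
    rw [hP]
    apply prod_refl_ortho_fix Q
    intro u hu
    obtain ⟨r, rfl⟩ := List.mem_ofFn.mp hu
    rw [hds]
    exact hsd r s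
  have hPa : ∀ s, P *ᵥ a s = b s := by
    intro s
    have h3 : (2 : F) • (P *ᵥ a s) = (2 : F) • b s := by
      rw [← Matrix.mulVec_smul]
      have h4 : (2 : F) • a s = (a s + b s) + d s := by rw [hds]; module
      rw [h4, Matrix.mulVec_add, hPs, hPd, hds]
      module
    exact smul_right_injective _ h2 h3
  have hPb : ∀ s, P *ᵥ b s = a s := by
    intro s
    have h3 : (2 : F) • (P *ᵥ b s) = (2 : F) • a s := by
      rw [← Matrix.mulVec_smul]
      have h4 : (2 : F) • b s = (a s + b s) - d s := by rw [hds]; module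
      rw [h4, Matrix.mulVec_sub, hPs, hPd, hds]
      module
    exact smul_right_injective _ h2 h3
  have hPfix : ∀ l, l ≠ j → l ≠ j' → ∀ z ∈ D l, P *ᵥ z = z := by
    intro l hl hl' z hz
    rw [hP]
    apply prod_refl_ortho_fix Q
    intro u hu
    obtain ⟨r, rfl⟩ := List.mem_ofFn.mp hu
    rw [hds, QuadraticMap.polar_sub_left, S.od.perp j l (Ne.symm hl) _ (ha r) z hz,
      S.od.perp j' l (Ne.symm hl') _ (hb r) z hz, sub_zero]
  have hPj : ∀ x ∈ D j, P *ᵥ x ∈ D j' := by
    have h3 : Submodule.span F (Set.range a) ≤ (D j').comap P.mulVecLin := by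
      rw [Submodule.span_le]
      rintro _ ⟨s, rfl⟩
      show P *ᵥ a s ∈ D j'
      rw [hPa]
      exact hb s
    intro x hx
    exact h3 (by rw [hspana]; exact hx)
  have hPj' : ∀ x ∈ D j', P *ᵥ x ∈ D j := by
    have h3 : Submodule.span F (Set.range b) ≤ (D j).comap P.mulVecLin := by
      rw [Submodule.span_le]
      rintro _ ⟨s, rfl⟩
      show P *ᵥ b s ∈ D j
      rw [hPb]
      exact ha s
    intro x hx
    exact h3 (by rw [hspanb]; exact hx)
  choose c hc hQc using fun s => exists_repr_of_nondeg Q (D j) (S.od.nondeg j)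
    (by have := S.hdim j; omega) (Q (d s))
  have hlc : ∀ u ∈ List.ofFn c, Q u ≠ 0 := by
    intro u hu
    obtain ⟨s, rfl⟩ := List.mem_ofFn.mp hu
    rw [hQc, hds]
    exact hQd0 s
  obtain ⟨C, hC⟩ : ∃ C : Matrix ι ι F,
      C = ((List.ofFn c).map (Cfsg.reflectionMatrix ⇑Q)).prod := ⟨_, rfl⟩
  have hCstab : ∀ l, ∀ x ∈ D l, C *ᵥ x ∈ D l := by
    intro l
    rw [hC]
    apply prod_refl_stab Q (D l)
    intro u hu x hx
    obtain ⟨s, rfl⟩ := List.mem_ofFn.mp hu
    rw [reflectionMatrix_mulVec]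
    by_cases hlj : l = j
    · subst hlj
      exact (D l).sub_mem hx ((D l).smul_mem _ (hc s))
    · rw [S.od.perp j l (Ne.symm hlj) _ (hc s) x hx, mul_zero, zero_smul, sub_zero]
      exact hx
  have hall : ∀ u ∈ List.ofFn d ++ List.ofFn c, Q u ≠ 0 :=
    fun u hu => (List.mem_append.mp hu).elim (hld u) (hlc u)
  have hcoe : (((prodElt Q S.od.hQ _ hall : ↥(Cfsg.isometryGroup F ⇑Q)) :
      Matrix.GeneralLinearGroup ι F) : Matrix ι ι F) = P * C := by
    rw [Cfsg.Agent.Lib.Helper44.prodElt_coe, List.map_append, List.prod_append, hP, hC]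
  have hΩ : prodElt Q S.od.hQ _ hall ∈ commutator ↥(Cfsg.isometryGroup F ⇑Q) := by
    rw [prodElt_mem_commutator_iff h2 Q S.od.hQ _ hall]
    constructor
    · rw [List.length_append, List.length_ofFn, List.length_ofFn]
      exact ⟨_, rfl⟩
    · rw [List.map_append, List.prod_append]
      have h7 : List.map (⇑Q) (List.ofFn c) = List.map (⇑Q) (List.ofFn d) := by
        rw [List.map_ofFn, List.map_ofFn]
        congr 1
        funext s
        exact hQc s
      rw [h7]
      exact ⟨_, rfl⟩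
  have hact : ∀ l, ∀ x ∈ D l,
      (((prodElt Q S.od.hQ _ hall : ↥(Cfsg.isometryGroup F ⇑Q)) :
        Matrix.GeneralLinearGroup ι F) : Matrix ι ι F) *ᵥ x ∈ D (Equiv.swap j j' l) := by
    intro l x hx
    rw [hcoe, ← Matrix.mulVec_mulVec]
    by_cases hl : l = j
    · subst hl
      rw [Equiv.swap_apply_left]
      exact hPj _ (hCstab l x hx)
    · by_cases hl' : l = j'
      · subst hl'
        rw [Equiv.swap_apply_right]
        exact hPj' _ (hCstab l x hx)
      · rw [Equiv.swap_apply_of_ne_of_ne hl hl', hPfix l hl hl' _ (hCstab l x hx)]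
        exact hCstab l x hx
  exact ⟨_, S.hPM _ hΩ (Equiv.swap j j') hact, hact⟩

theorem DSetup.blockRel_swap (S : DSetup Q D k M)
    (hiso : ∀ i j, ∃ e : D i ≃ₗ[F] D j, ∀ w : D i, Q (e w : ι → F) = Q (w : ι → F))
    {j j' : Fin t} (hjj' : j ≠ j') {a b : Fin t} (h : BlockRel Q D M a b) :
    BlockRel Q D M (Equiv.swap j j' a) (Equiv.swap j j' b) := by
  obtain ⟨s, hsM, hs⟩ := S.exists_swap hiso hjj'
  have hsurj : ∀ l, ∀ x ∈ D (Equiv.swap j j' l), ∃ y ∈ D l,
      ((s : Matrix.GeneralLinearGroup ι F) : Matrix ι ι F) *ᵥ y = x := by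
    intro l x hx
    have hle : (D l).map (Matrix.mulVecLin ((s : Matrix.GeneralLinearGroup ι F) :
        Matrix ι ι F)) ≤ D (Equiv.swap j j' l) := by
      rintro _ ⟨y, hy, rfl⟩
      exact hs l y hy
    have heq := Submodule.eq_of_le_of_finrank_eq hle
      (by rw [finrank_map_isom, S.dim, S.dim])
    rw [← heq] at hx
    obtain ⟨y, hy, rfl⟩ := hx
    exact ⟨y, hy, rfl⟩
  intro u hu hQu w hw
  obtain ⟨u₀, hu₀, rfl⟩ := hsurj a u hu
  obtain ⟨w₀, hw₀, rfl⟩ := hsurj b w hw
  have hQu₀ : Q u₀ = 0 := by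
    rw [← isom_preserves s u₀]
    exact hQu
  exact EIn_conj Q M (h u₀ hu₀ hQu₀ w₀ hw₀) s hsM

/-- **Mixing case**: a mixed Eichler transformation in `M` forces `Ω ≤ M`. -/
theorem DSetup.omega_le_of_mixed (S : DSetup Q D k M)
    (hiso : ∀ i j, ∃ e : D i ≃ₗ[F] D j, ∀ w : D i, Q (e w : ι → F) = Q (w : ι → F))
    {i : Fin t} {u w : ι → F} (hu : u ∈ D i) (hu0 : u ≠ 0) (hQu : Q u = 0)
    (hw : w ∈ Cfsg.Agent.Lib.Helper44.orth Q (D i)) (hw0 : w ≠ 0) (h : EIn Q M u w) :
    commutator ↥(Cfsg.isometryGroup F ⇑Q) ≤ M := by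
  obtain ⟨j, hj⟩ := S.od.exists_oproj_ne hw0
  have hij : i ≠ j := by
    rintro rfl
    exact hj ((oproj_eq_zero_iff Q (S.od.isCompl i) w).mpr hw)
  have h1 := S.EIn_of_proj hij hu hu0 hQu hw h hj
  have hR := S.blockRel_of_one hij hu hu0 hQu h1
  have hall := rel_of_swap_invariant (BlockRel Q D M)
    (fun a b hab x y hxy => S.blockRel_swap hiso hab hxy) j i hR (Ne.symm hij)
  obtain ⟨u', hu', hQu', huu'⟩ := exists_hyp_partner Q (D i) (S.od.nondeg i) hu hu0 hQu
  apply omega_le_of_rootIn Q S.od.hQ S.hn M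
  exact rootIn_all Q S.od.hQ M hQu hQu' (by rw [huu']; exact one_ne_zero)
    (S.rootIn_of_blockRel hall hu hQu) (S.rootIn_of_blockRel hall hu' hQu')

end mixed

end Cfsg.Agent.Lib.Helper94
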