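import Mathlib
import Cfsg.Agent.Lib.Helper94.OrthDecMixed

set_option autoImplicit false

/-!
# Maximality of the stabiliser of an orthogonal decomposition in `Ω`

Blocks of dimension `k ≥ 3`, pairwise orthogonal and isometric, odd characteristic, and
`q ≥ 4` or `k ≥ 4`.
-/

namespace Cfsg.Agent.Lib.Helper94

open Matrix Module Cfsg.Agent.Lib.Helper14 Cfsg.Agent.Lib.Helper99

section max

variable {ι : Type} [Fintype ι] [DecidableEq ι] {F : Type*} [Field F] [Fintype F]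

variable {Q : QuadraticForm F (ι → F)} {t : ℕ} {D : Fin t → Submodule F (ι → F)} {k : ℕ}
  {M : Subgroup ↥(Cfsg.isometryGroup F ⇑Q)}

/-- The overgroup dichotomy. -/
theorem DSetup.dichotomy (S : DSetup Q D k M)
    (hiso : ∀ i j, ∃ e : D i ≃ₗ[F] D j, ∀ w : D i, Q (e w : ι → F) = Q (w : ι → F))
    (hqk : 4 ≤ Fintype.card F ∨ 4 ≤ k) :
    commutator ↥(Cfsg.isometryGroup F ⇑Q) ≤ M ∨
      ∀ g ∈ M, ∃ σ : Equiv.Perm (Fin t), ∀ i, ∀ x ∈ D i,
        ((g : Matrix.GeneralLinearGroup ι F) : Matrix ι ι F) *ᵥ x ∈ D (σ i) := by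
  by_cases hNM : NoMixed Q D M
  · right
    intro g hg
    exact S.exists_perm hqk hNM hg
  · left
    unfold NoMixed at hNM
    push Not at hNM
    obtain ⟨i, u, hu, hu0, hQu, w, hw, hE, hw0⟩ := hNM
    exact S.omega_le_of_mixed hiso hu hu0 hQu hw hw0 hE

omit [Fintype F] in
/-- The dimensions of the members of a decomposition add up to the dimension of the space. -/
theorem finrank_sum_of_decomp {t : ℕ} (D : Fin t → Submodule F (ι → F)) (hind : iSupIndep D)
    (hsup : iSup D = ⊤) : ∑ i, finrank F (D i) = Fintype.card ι := by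
  have hint := DirectSum.isInternal_submodule_of_iSupIndep_of_iSup_eq_top hind hsup
  have e := LinearEquiv.ofBijective (DirectSum.coeLinearMap D) hint
  rw [← Module.finrank_fintype_fun_eq_card (R := F), ← e.finrank_eq, Module.finrank_directSum]

/-- **Maximality of the stabiliser of an orthogonal decomposition** into isometric blocks of
dimension `k ≥ 3` in `Ω`, in odd characteristic, unless `q = 3 = k`. -/
theorem decomp_isMaximalIn (Q : QuadraticForm F (ι → F))
    (hQ : (QuadraticMap.polarBilin Q).Nondegenerate) (h2 : (2 : F) ≠ 0)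
    (hn : 5 ≤ Fintype.card ι) {t : ℕ} (k : ℕ) (D : Fin t → Submodule F (ι → F))
    (hD : Cfsg.Geo.IsOrthogonalMDecomposition (⇑Q) k D) (hk : 3 ≤ k)
    (hqk : 4 ≤ Fintype.card F ∨ 4 ≤ k) :
    Cfsg.Geo.IsMaximalIn (Cfsg.Geo.omegaGL ⇑Q)
      (Cfsg.Geo.decompositionStabilizer D ⊓ Cfsg.Geo.omegaGL ⇑Q) := by
  have hod : ODec Q D := ⟨hQ, h2,
    fun i j hij x hx y hy => hD.decomp.orthogonal i j hij x hx y hy,
    hD.decomp.decomp.iSup_eq_top⟩
  have hdim := hD.decomp.decomp.finrank_eq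
  have hiso : ∀ i j, ∃ e : D i ≃ₗ[F] D j, ∀ w : D i, Q (e w : ι → F) = Q (w : ι → F) :=
    hD.isometric
  have hstab_of : ∀ (g : ↥(Cfsg.isometryGroup F ⇑Q)) (σ : Equiv.Perm (Fin t)),
      (∀ i, ∀ x ∈ D i, ((g : Matrix.GeneralLinearGroup ι F) : Matrix ι ι F) *ᵥ x ∈ D (σ i)) →
      (g : Matrix.GeneralLinearGroup ι F) ∈ Cfsg.Geo.decompositionStabilizer D := by
    intro g σ hg
    refine ⟨σ, fun i => ?_⟩
    apply Submodule.eq_of_le_of_finrank_eq
    · rintro _ ⟨x, hx, rfl⟩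
      rw [Matrix.toLin'_apply]
      exact hg i x hx
    · rw [Matrix.toLin'_apply', finrank_map_isom, hdim, hdim]
  constructor
  · refine lt_of_le_of_ne inf_le_right ?_
    intro heq
    have ht := hD.decomp.decomp.two_le
    obtain ⟨i0, hi0⟩ : ∃ i0 : Fin t, i0 = ⟨0, by omega⟩ := ⟨_, rfl⟩
    obtain ⟨i1, hi1⟩ : ∃ i1 : Fin t, i1 = ⟨1, by omega⟩ := ⟨_, rfl⟩
    have h01 : i0 ≠ i1 := by
      rw [hi0, hi1]
      intro h
      simp [Fin.ext_iff] at h
    obtain ⟨u, hu, hu0, hQu⟩ := exists_isotropic Q (D i0) (by rw [hdim]; exact hk)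
    obtain ⟨w, hw, hw0⟩ := exists_ne_zero_of_finrank_pos (M := D i1) (by rw [hdim]; omega)
    obtain ⟨u', hu', hQu', huu'⟩ := exists_hyp_partner Q (D i0) (hod.nondeg i0) hu hu0 hQu
    have huw : QuadraticMap.polar ⇑Q u w = 0 := hod.perp i0 i1 h01 u hu w hw
    have hwu : QuadraticMap.polar ⇑Q w u = 0 := by rw [QuadraticMap.polar_comm]; exact huw
    have hwu' : QuadraticMap.polar ⇑Q w u' = 0 := by
      rw [QuadraticMap.polar_comm]; exact hod.perp i0 i1 h01 u' hu' w hw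
    have hgΩ : eichElt Q hQ u w hQu huw ∈ commutator ↥(Cfsg.isometryGroup F ⇑Q) :=
      eich_mem_omega Q hQ hn hQu huw _ rfl
    have hgΩ' : ((eichElt Q hQ u w hQu huw : ↥(Cfsg.isometryGroup F ⇑Q)) :
        Matrix.GeneralLinearGroup ι F) ∈ Cfsg.Geo.omegaGL ⇑Q :=
      (Cfsg.Agent.Lib.Helper44.coe_mem_omegaGL_iff _).mpr hgΩ
    rw [← heq] at hgΩ'
    obtain ⟨σ, hσ⟩ := (Subgroup.mem_inf.mp hgΩ').1
    have hmaps : ∀ x ∈ D i0, eichMat Q u w *ᵥ x ∈ D (σ i0) := by
      intro x hx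
      rw [← hσ i0]
      exact ⟨x, hx, by rw [Matrix.toLin'_apply, eichElt_coe]⟩
    have hgu : eichMat Q u w *ᵥ u = u := by
      rw [eichMat_mulVec, polar_self_eq, hQu, hwu]
      simp
    have hgu' : eichMat Q u w *ᵥ u' = u' + w - Q w • u := by
      rw [eichMat_mulVec, huu', hwu']
      simp
    have m1 := hmaps u hu
    rw [hgu] at m1
    have hσ0 : i0 = σ i0 := hod.eq_of_mem_of_mem hu m1 hu0
    have m2 := hmaps u' hu'
    rw [hgu', ← hσ0] at m2
    have hw' : w ∈ D i0 := by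
      have h3 := (D i0).add_mem ((D i0).sub_mem m2 hu') ((D i0).smul_mem (Q w) hu)
      have e : u' + w - Q w • u - u' + Q w • u = w := by abel
      rw [e] at h3
      exact h3
    exact h01 (hod.eq_of_mem_of_mem hw' hw hw0)
  · intro M' hPM hMK
    have S : DSetup Q D k (M'.comap (Cfsg.isometryGroup F ⇑Q).subtype) := by
      refine ⟨hod, hn, hdim, hk, ?_⟩
      intro g hgΩ σ hg
      apply hPM
      exact Subgroup.mem_inf.mpr
        ⟨hstab_of g σ hg, (Cfsg.Agent.Lib.Helper44.coe_mem_omegaGL_iff g).mpr hgΩ⟩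
    rcases S.dichotomy hiso hqk with h | h
    · right
      apply le_antisymm hMK
      intro g hg
      obtain ⟨g', hg'Ω, rfl⟩ := Cfsg.Agent.Lib.Helper44.exists_of_mem_omegaGL hg
      exact h hg'Ω
    · left
      apply le_antisymm _ hPM
      intro g hg
      obtain ⟨g', -, rfl⟩ := Cfsg.Agent.Lib.Helper44.exists_of_mem_omegaGL (hMK hg)
      obtain ⟨σ, hσ⟩ := h g' hg
      exact Subgroup.mem_inf.mpr ⟨hstab_of g' σ hσ, hMK hg⟩

end max

end Cfsg.Agent.Lib.Helper94
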