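import Cfsg.Agent.Lib.Helper94.OrthBase

set_option autoImplicit false
set_option linter.unusedSectionVars false

namespace Cfsg.Agent.Lib.Helper94

open Cfsg Cfsg.Geo
open scoped MatrixGroups Matrix

variable {F : Type*} [Field F] {ι : Type} [Fintype ι] [DecidableEq ι]

section oiso

variable (β : (ι → F) → (ι → F) → F) (hβ : IsOrthForm β)

include hβ in
/-- A subspace all of whose vectors are singular is totally singular. -/
lemma ob_polarization (K : Submodule F (ι → F)) (h : ∀ x ∈ K, β x x = 0) :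
    ∀ x ∈ K, ∀ y ∈ K, β x y = 0 := by
  intro x hx y hy
  have h1 := h (x + y) (K.add_mem hx hy)
  rw [hβ.add_left, ob_add_right β hβ, ob_add_right β hβ, h x hx, h y hy, hβ.symm y x] at h1
  have h2 : (2 : F) * β x y = 0 := by linear_combination h1
  rcases mul_eq_zero.mp h2 with h | h
  · exact absurd h hβ.two_ne
  · exact h

include hβ in
/-- Perpendicular to few vectors there is a non-singular vector. -/
lemma exists_nonsingular_perp (s : Finset (ι → F))
    (hs : 2 * s.card < Fintype.card ι) : ∃ p, (∀ u ∈ s, β p u = 0) ∧ β p p ≠ 0 := by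
  classical
  by_contra hcon
  push Not at hcon
  obtain ⟨K, hK⟩ : ∃ K : Submodule F (ι → F),
      K = LinearMap.ker (LinearMap.pi (fun u : s => obL β hβ u.1)) := ⟨_, rfl⟩
  have hmemK : ∀ x, x ∈ K ↔ ∀ u ∈ s, β x u = 0 := by
    intro x
    rw [hK, LinearMap.mem_ker]
    constructor
    · intro h u hu
      exact congrFun h ⟨u, hu⟩
    · intro h
      funext u
      exact h u.1 u.2
  have hiso : ∀ x ∈ K, β x x = 0 := fun x hx => hcon x ((hmemK x).mp hx)
  have hti := ob_polarization β hβ K hiso
  have hdim : Fintype.card ι ≤ Module.finrank F K + s.card := by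
    have h1 := LinearMap.finrank_range_add_finrank_ker
      (LinearMap.pi (fun u : s => obL β hβ u.1))
    rw [Module.finrank_fintype_fun_eq_card] at h1
    have h2 : Module.finrank F (LinearMap.range (LinearMap.pi (fun u : s => obL β hβ u.1)))
        ≤ s.card := by
      have := Submodule.finrank_le
        (LinearMap.range (LinearMap.pi (fun u : s => obL β hβ u.1)))
      rw [Module.finrank_fintype_fun_eq_card, Fintype.card_coe] at this
      exact this
    rw [hK]
    omega
  have hle : K ≤ (obB β hβ).orthogonal K := by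
    intro y hy
    rw [LinearMap.BilinForm.mem_orthogonal_iff]
    intro n hn
    exact hti n hn y hy
  have h3 := Submodule.finrank_mono hle
  rw [LinearMap.BilinForm.finrank_orthogonal (obB_nondeg β hβ) K,
    Module.finrank_fintype_fun_eq_card] at h3
  omega

include hβ in
/-- Perpendicular to few vectors there is a vector of any prescribed norm. -/
lemma exists_onorm_perp [Finite F] (hodd : Nat.card F % 2 = 1) (s : Finset (ι → F))
    (hs : 2 * (s.card + 1) < Fintype.card ι) (a : F) :
    ∃ p, (∀ u ∈ s, β p u = 0) ∧ β p p = a := by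
  classical
  obtain ⟨p₁, hp₁, hpp₁⟩ := exists_nonsingular_perp β hβ s (by omega)
  obtain ⟨p₂, hp₂, hpp₂⟩ := exists_nonsingular_perp β hβ (insert p₁ s)
    (by have := Finset.card_insert_le p₁ s; omega)
  have h21 : β p₂ p₁ = 0 := hp₂ p₁ (Finset.mem_insert_self _ _)
  have h12 : β p₁ p₂ = 0 := by
    rw [hβ.symm]
    exact h21
  obtain ⟨x, y, hxy⟩ := exists_two_squares hodd hpp₁ hpp₂ a
  refine ⟨x • p₁ + y • p₂, fun u hu => ?_, ?_⟩
  · rw [hβ.add_left, hβ.smul_left, hβ.smul_left, hp₁ u hu,
      hp₂ u (Finset.mem_insert_of_mem hu)]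
    ring
  · simp only [hβ.add_left, ob_add_right β hβ, hβ.smul_left, ob_smul_right β hβ, h12, h21]
    linear_combination hxy

include hβ in
/-- A vector can be corrected to a singular one without changing its products with few given
vectors. -/
lemma exists_singular_correction [Finite F] (hodd : Nat.card F % 2 = 1) (s : Finset (ι → F))
    (hs : 2 * (s.card + 2) < Fintype.card ι) (x₀ : ι → F) :
    ∃ e, β e e = 0 ∧ (∀ u ∈ s, β e u = β x₀ u) ∧ (∀ u ∈ s, β u e = β u x₀) := by
  classical
  have hcard : 2 * ((insert x₀ s).card + 1) < Fintype.card ι := by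
    have := Finset.card_insert_le x₀ s
    omega
  obtain ⟨p, hp, hpp⟩ := exists_onorm_perp β hβ hodd (insert x₀ s) hcard (-β x₀ x₀)
  have hpx : β p x₀ = 0 := hp x₀ (Finset.mem_insert_self _ _)
  have hxp : β x₀ p = 0 := by
    rw [hβ.symm]
    exact hpx
  refine ⟨x₀ + p, ?_, ?_, ?_⟩
  · rw [hβ.add_left, ob_add_right β hβ, ob_add_right β hβ, hxp, hpx, hpp]
    ring
  · intro u hu
    rw [hβ.add_left, hp u (Finset.mem_insert_of_mem hu), add_zero]
  · intro u hu
    rw [ob_add_right β hβ, hβ.symm u p, hp u (Finset.mem_insert_of_mem hu), add_zero]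

include hβ in
/-- Perpendicular to few vectors there is a singular vector outside their span, with a witness
`p` for the latter. -/
lemma exists_singular_out [Finite F] (hodd : Nat.card F % 2 = 1) (s : Finset (ι → F))
    (hs : 2 * (s.card + 2) < Fintype.card ι) :
    ∃ e p, β e e = 0 ∧ (∀ u ∈ s, β e u = 0) ∧ (∀ u ∈ s, β p u = 0) ∧ β p e ≠ 0 := by
  classical
  obtain ⟨p, hp, hpp⟩ := exists_onorm_perp β hβ hodd s (by omega) 1
  obtain ⟨p', hp', hpp'⟩ := exists_onorm_perp β hβ hodd (insert p s)
    (by have := Finset.card_insert_le p s; omega) (-1)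
  have h1 : β p' p = 0 := hp' p (Finset.mem_insert_self _ _)
  have h2 : β p p' = 0 := by
    rw [hβ.symm]
    exact h1
  refine ⟨p + p', p, ?_, ?_, hp, ?_⟩
  · rw [hβ.add_left, ob_add_right β hβ, ob_add_right β hβ, hpp, hpp', h1, h2]
    ring
  · intro u hu
    rw [hβ.add_left, hp u hu, hp' u (Finset.mem_insert_of_mem hu), add_zero]
  · rw [ob_add_right β hβ, hpp, h2, add_zero]
    exact one_ne_zero

include hβ in
/-- A non-zero singular vector. -/
lemma exists_singular_ne_zero [Finite F] (hodd : Nat.card F % 2 = 1)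
    (hn : 5 ≤ Fintype.card ι) : ∃ e : ι → F, β e e = 0 ∧ e ≠ 0 := by
  classical
  obtain ⟨e, p, he, -, -, hpe⟩ := exists_singular_out β hβ hodd ∅ (by simp; omega)
  refine ⟨e, he, ?_⟩
  rintro rfl
  exact hpe (ob_zero_right β hβ p)

include hβ in
/-- Two non-zero vectors have a common singular non-perpendicular vector. -/
lemma exists_singular_both [Finite F] (hodd : Nat.card F % 2 = 1) (hn : 9 ≤ Fintype.card ι)
    {a b : ι → F} (ha : a ≠ 0) (hb : b ≠ 0) : ∃ z, β z z = 0 ∧ β a z ≠ 0 ∧ β b z ≠ 0 := by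
  classical
  obtain ⟨x₀, h1, h2⟩ := exists_ob_both β hβ ha hb
  obtain ⟨e, he, -, h4⟩ := exists_singular_correction β hβ hodd {a, b}
    (by have := Finset.card_le_two (a := a) (b := b); omega) x₀
  refine ⟨e, he, ?_, ?_⟩
  · rw [h4 a (by simp)]
    exact h1
  · rw [h4 b (by simp)]
    exact h2

include hβ in
/-- A vector perpendicular to few given vectors is a sum of two singular vectors perpendicular
to them. -/
lemma exists_singular_sum [Finite F] (hodd : Nat.card F % 2 = 1) (s : Finset (ι → F))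
    (hs : 2 * (s.card + 2) < Fintype.card ι) (y : ι → F) (hy : ∀ u ∈ s, β y u = 0) :
    ∃ z₁ z₂, β z₁ z₁ = 0 ∧ β z₂ z₂ = 0 ∧ (∀ u ∈ s, β z₁ u = 0) ∧ (∀ u ∈ s, β z₂ u = 0) ∧
      y = z₁ + z₂ := by
  classical
  have hcard : 2 * ((insert y s).card + 1) < Fintype.card ι := by
    have := Finset.card_insert_le y s
    omega
  obtain ⟨p, hp, hpp⟩ := exists_onorm_perp β hβ hodd (insert y s) hcard (-β y y)
  have hpy : β p y = 0 := hp y (Finset.mem_insert_self _ _)
  have hyp : β y p = 0 := by
    rw [hβ.symm]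
    exact hpy
  have h2 := hβ.two_ne
  refine ⟨(2 : F)⁻¹ • (y + p), (2 : F)⁻¹ • (y - p), ?_, ?_, ?_, ?_, ?_⟩
  · rw [hβ.smul_left, ob_smul_right β hβ, hβ.add_left, ob_add_right β hβ,
      ob_add_right β hβ, hyp, hpy, hpp]
    ring
  · rw [hβ.smul_left, ob_smul_right β hβ, ob_sub_left β hβ, ob_sub_right β hβ,
      ob_sub_right β hβ, hyp, hpy, hpp]
    ring
  · intro u hu
    rw [hβ.smul_left, hβ.add_left, hy u hu, hp u (Finset.mem_insert_of_mem hu)]
    ring
  · intro u hu
    rw [hβ.smul_left, ob_sub_left β hβ, hy u hu, hp u (Finset.mem_insert_of_mem hu)]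
    ring
  · match_scalars <;> field_simp <;> ring

end oiso

end Cfsg.Agent.Lib.Helper94
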