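import Mathlib
import Cfsg.Agent.Lib.Helper89.DicksonLie
import Cfsg.Agent.Lib.Helper98.PSL2Max

set_option autoImplicit false

/-! A generation criterion for `SL₂(F)`: a subgroup containing a large piece of the upper
unipotent group (two `F₀`-independent parameters, `F₀` a maximal subfield) and a lower unipotent
element is everything.  The proof uses Dickson's list. -/

namespace Cfsg.Agent.Lib.Helper94.SL2Gen

open Matrix Cfsg.Agent.Lib.Helper41 Cfsg.Agent.Lib.Helper5.SL2 Cfsg.Agent.Lib.Helper89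

variable {F : Type*} [Field F]

/-- the diagonal entries of the upper triangular elements of `H` -/
def diagSub (H : Subgroup (SpecialLinearGroup (Fin 2) F)) : Subgroup Fˣ where
  carrier := {t | ∃ X ∈ H, X.1 1 0 = 0 ∧ X.1 0 0 = (t : F)}
  mul_mem' := by
    rintro s t ⟨X, hX, hX10, hX00⟩ ⟨Y, hY, hY10, hY00⟩
    refine ⟨X * Y, H.mul_mem hX hY, ?_, ?_⟩
    · rw [sl_mul_10, hX10, hY10]
      ring
    · rw [sl_mul_00, hX00, hY00, hY10, Units.val_mul]
      ring
  one_mem' := ⟨1, H.one_mem, sl_one_10, by rw [sl_one_00, Units.val_one]⟩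
  inv_mem' := by
    rintro t ⟨X, hX, hX10, hX00⟩
    refine ⟨X⁻¹, H.inv_mem hX, ?_, ?_⟩
    · rw [sl_inv_10, hX10, neg_zero]
    · rw [sl_inv_00]
      have hd := sl_det X
      rw [hX10, mul_zero, sub_zero, hX00] at hd
      rw [Units.val_inv_eq_inv_val]
      exact eq_inv_of_mul_eq_one_right hd

theorem mem_diagSub (H : Subgroup (SpecialLinearGroup (Fin 2) F)) (t : Fˣ) :
    t ∈ diagSub H ↔ ∃ X ∈ H, X.1 1 0 = 0 ∧ X.1 0 0 = (t : F) := Iff.rfl

/-- Bruhat counting: `|H| = |A| · |D| · (1 + k |A|)` -/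
theorem card_eq [Finite F] (H : Subgroup (SpecialLinearGroup (Fin 2) F)) :
    ∃ k : ℕ, Nat.card H =
      Nat.card (uAdd H) * Nat.card (diagSub H) * (1 + k * Nat.card (uAdd H)) := by
  classical
  have : Fintype F := Fintype.ofFinite F
  set A := uAdd H with hAdef
  let N : Set (SpecialLinearGroup (Fin 2) F) := {X | X ∈ H ∧ X.1 1 0 = 0}
  let Ms : Set (SpecialLinearGroup (Fin 2) F) := {X | X ∈ H ∧ X.1 1 0 ≠ 0}
  have hNcard : N.ncard = Nat.card (diagSub H) * Nat.card A := by
    have hfib : ∀ X ∈ N, {Y | Y ∈ N ∧ Y.1 0 0 = X.1 0 0}.ncard = Nat.card A := by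
      rintro X ⟨hXH, hX10⟩
      have hset : {Y | Y ∈ N ∧ Y.1 0 0 = X.1 0 0} = (fun a : F => X * uSL a) '' (A : Set F) := by
        ext Y
        constructor
        · rintro ⟨⟨hYH, hY10⟩, h00⟩
          have hd := sl_det X
          rw [hX10, mul_zero, sub_zero] at hd
          have h1 : (X⁻¹ * Y).1 1 0 = 0 := by
            rw [sl_mul_10, sl_inv_10, sl_inv_11, hX10, hY10]
            ring
          have h2 : (X⁻¹ * Y).1 0 0 = 1 := by
            rw [sl_mul_00, sl_inv_00, sl_inv_01, hY10, h00]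
            linear_combination hd
          have h3 := eq_uSL_of_upper h1 h2
          refine ⟨(X⁻¹ * Y).1 0 1, ?_, ?_⟩
          · show uSL _ ∈ H
            rw [← h3]
            exact H.mul_mem (H.inv_mem hXH) hYH
          · show X * uSL _ = Y
            rw [← h3, mul_inv_cancel_left]
        · rintro ⟨a, ha, rfl⟩
          refine ⟨⟨H.mul_mem hXH ha, ?_⟩, ?_⟩
          · show (X * uSL a).1 1 0 = 0
            rw [sl_mul_10, hX10, uSL_10]
            ring
          · show (X * uSL a).1 0 0 = X.1 0 0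
            rw [sl_mul_00, uSL_00, uSL_10]
            ring
      rw [hset, Set.ncard_image_of_injective _
        (fun a b h => uSL_injective (mul_left_cancel h))]
      exact (Nat.card_coe_set_eq _).symm
    have h1 := ncard_eq_of_fibers N (Set.toFinite _) (fun X => X.1 0 0) (Nat.card A) hfib
    have himg : (fun X : SpecialLinearGroup (Fin 2) F => X.1 0 0) '' N
        = (fun t : Fˣ => (t : F)) '' (diagSub H : Set Fˣ) := by
      ext t
      constructor
      · rintro ⟨X, ⟨hXH, hX10⟩, rfl⟩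
        have hd := sl_det X
        rw [hX10, mul_zero, sub_zero] at hd
        have h00 : X.1 0 0 ≠ 0 := left_ne_zero_of_mul_eq_one hd
        exact ⟨Units.mk0 _ h00, ⟨X, hXH, hX10, rfl⟩, rfl⟩
      · rintro ⟨t, ⟨X, hXH, hX10, hX00⟩, rfl⟩
        exact ⟨X, ⟨hXH, hX10⟩, hX00⟩
    rw [himg, Set.ncard_image_of_injective _ Units.val_injective] at h1
    rw [h1]
    congr 1
  let r : SpecialLinearGroup (Fin 2) F → F := fun X => X.1 0 0 / X.1 1 0
  have hfib : ∀ X ∈ Ms, {Y | Y ∈ Ms ∧ r Y = r X}.ncard = N.ncard := by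
    rintro X ⟨hXH, hX10⟩
    have hset : {Y | Y ∈ Ms ∧ r Y = r X} = (fun n => X * n) '' N := by
      ext Y
      constructor
      · rintro ⟨⟨hYH, hY10⟩, hr⟩
        refine ⟨X⁻¹ * Y, ⟨H.mul_mem (H.inv_mem hXH) hYH, ?_⟩, mul_inv_cancel_left X Y⟩
        show (X⁻¹ * Y).1 1 0 = 0
        rw [sl_mul_10, sl_inv_10, sl_inv_11]
        have hr' : Y.1 0 0 / Y.1 1 0 = X.1 0 0 / X.1 1 0 := hr
        rw [div_eq_div_iff hY10 hX10] at hr'
        linear_combination -hr'
      · rintro ⟨m, ⟨hmH, hm10⟩, rfl⟩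
        have hdet := sl_det m
        rw [hm10, mul_zero, sub_zero] at hdet
        have hm00 : m.1 0 0 ≠ 0 := left_ne_zero_of_mul_eq_one hdet
        refine ⟨⟨H.mul_mem hXH hmH, ?_⟩, ?_⟩
        · show (X * m).1 1 0 ≠ 0
          rw [sl_mul_10, hm10, mul_zero, add_zero]
          exact mul_ne_zero hX10 hm00
        · show (X * m).1 0 0 / (X * m).1 1 0 = X.1 0 0 / X.1 1 0
          rw [sl_mul_10, sl_mul_00, hm10, mul_zero, add_zero, mul_zero, add_zero]
          field_simp
    rw [hset, Set.ncard_image_of_injective _ (mul_right_injective X)]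
  have hMcard := ncard_eq_of_fibers Ms (Set.toFinite _) r N.ncard hfib
  have hHcard : (H : Set (SpecialLinearGroup (Fin 2) F)).ncard = N.ncard + Ms.ncard := by
    have hU : (H : Set (SpecialLinearGroup (Fin 2) F)) = N ∪ Ms := by
      ext X
      constructor
      · intro hX
        by_cases h : X.1 1 0 = 0
        · exact Or.inl ⟨hX, h⟩
        · exact Or.inr ⟨hX, h⟩
      · rintro (h | h) <;> exact h.1
    rw [hU, Set.ncard_union_eq ?_ (Set.toFinite _) (Set.toFinite _)]
    rw [Set.disjoint_left]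
    rintro X ⟨_, h1⟩ ⟨_, h2⟩
    exact h2 h1
  have hS : ∃ k, (r '' Ms).ncard = k * Nat.card A := by
    have hinv : ∀ x ∈ r '' Ms, ∀ a ∈ A, x + a ∈ r '' Ms := by
      rintro x ⟨X, ⟨hXH, hX10⟩, rfl⟩ a ha
      refine ⟨uSL a * X, ⟨H.mul_mem ha hXH, ?_⟩, ?_⟩
      · show (uSL a * X).1 1 0 ≠ 0
        rw [sl_mul_10, uSL_10, uSL_11, zero_mul, zero_add, one_mul]
        exact hX10
      · show (uSL a * X).1 0 0 / (uSL a * X).1 1 0 = X.1 0 0 / X.1 1 0 + a
        rw [sl_mul_10, sl_mul_00, uSL_10, uSL_11, uSL_00, uSL_01, zero_mul, zero_add, one_mul,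
          one_mul, add_div, mul_div_assoc, div_self hX10, mul_one]
    have hfib2 : ∀ x ∈ r '' Ms, {y | y ∈ r '' Ms ∧
        (QuotientAddGroup.mk y : F ⧸ A) = QuotientAddGroup.mk x}.ncard = Nat.card A := by
      intro x hx
      have hset : {y | y ∈ r '' Ms ∧ (QuotientAddGroup.mk y : F ⧸ A) = QuotientAddGroup.mk x}
          = (fun a => x + a) '' (A : Set F) := by
        ext y
        constructor
        · rintro ⟨hy, hq⟩
          refine ⟨-x + y, ?_, by show x + (-x + y) = y; ring⟩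
          exact QuotientAddGroup.eq.mp hq.symm
        · rintro ⟨a, ha, rfl⟩
          refine ⟨hinv x hx a ha, ?_⟩
          rw [eq_comm, QuotientAddGroup.eq]
          have e : -x + (x + a) = a := by ring
          rw [e]
          exact ha
      rw [hset, Set.ncard_image_of_injective _ (add_right_injective x)]
      exact (Nat.card_coe_set_eq _).symm
    exact ⟨_, ncard_eq_of_fibers (r '' Ms) (Set.toFinite _) _ (Nat.card A) hfib2⟩
  obtain ⟨k, hk⟩ := hS
  refine ⟨k, ?_⟩
  have h1 : Nat.card H = (H : Set (SpecialLinearGroup (Fin 2) F)).ncard :=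
    Nat.card_coe_set_eq _
  rw [h1, hHcard, hMcard, hk, hNcard]
  ring

/-- if the torus part is large compared with the unipotent part, `H` contains all upper
unipotent elements -/
theorem usl_all_of_card [Fintype F] (F₀ : Subfield F)
    (hmax : ∀ K : Subfield F, F₀ ≤ K → K = F₀ ∨ K = ⊤)
    (H : Subgroup (SpecialLinearGroup (Fin 2) F)) (a1 a2 : F) (ha1 : a1 ≠ 0)
    (hF₀ : ∀ c ∈ F₀, uSL (c * a1) ∈ H) (ha2 : uSL a2 ∈ H) (hind : ∀ c ∈ F₀, a2 ≠ c * a1)
    (hd : Nat.card (uAdd H) ≤ Nat.card (diagSub H) + 2) (hA : 4 < Nat.card (uAdd H)) :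
    ∀ b : F, uSL b ∈ H := by
  classical
  set A := uAdd H with hAdef
  set K₁ := multField A with hK₁def
  have ha1A : a1 ∈ A := by
    have := hF₀ 1 F₀.one_mem
    rwa [one_mul] at this
  -- squares of the torus part lie in K₁
  have hsq : ∀ t ∈ diagSub H, (t : F) * (t : F) ∈ K₁ := by
    rintro t ⟨X, hXH, hX10, hX00⟩
    intro a ha
    show uSL ((t : F) * (t : F) * a) ∈ H
    have h1 := conj_uSL_of_upper X hX10 a
    rw [hX00] at h1
    rw [← h1]
    exact H.mul_mem (H.mul_mem hXH ha) (H.inv_mem hXH)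
  -- |D| ≤ 2 (|K₁| - 1)
  have hDK : Nat.card (diagSub H) + 2 ≤ 2 * Nat.card K₁ := by
    have : Fintype (diagSub H) := Fintype.ofFinite _
    have : Fintype K₁ := Fintype.ofFinite _
    let f : diagSub H → K₁ := fun t => ⟨(t.1 : F) * (t.1 : F), hsq t.1 t.2⟩
    have hle := Finset.card_le_mul_card_image (f := f) (Finset.univ : Finset (diagSub H)) 2 (by
      intro c hc
      by_cases hne : (Finset.univ.filter fun x : diagSub H => f x = c).Nonempty
      · obtain ⟨x₀, hx₀⟩ := hne
        rw [Finset.mem_filter] at hx₀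
        have h2 : (Finset.univ.filter fun x : diagSub H => f x = c).card ≤
            ({x₀.1, -x₀.1} : Finset Fˣ).card := by
          apply Finset.card_le_card_of_injOn (fun x => x.1)
          · intro x hx
            have hx' := (Finset.mem_filter.mp (Finset.mem_coe.mp hx)).2
            have h3 : f x = f x₀ := hx'.trans hx₀.2.symm
            have h4 : (x.1 : F) * (x.1 : F) = (x₀.1 : F) * (x₀.1 : F) :=
              congrArg (fun k : K₁ => (k : F)) h3
            have h5 : ((x.1 : F) - x₀.1) * ((x.1 : F) + x₀.1) = 0 := by linear_combination h4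
            show x.1 ∈ (({x₀.1, -x₀.1} : Finset Fˣ) : Set Fˣ)
            rw [Finset.mem_coe, Finset.mem_insert, Finset.mem_singleton]
            rcases mul_eq_zero.mp h5 with h | h
            · left
              exact Units.ext (sub_eq_zero.mp h)
            · right
              apply Units.ext
              rw [Units.val_neg]
              linear_combination h
          · intro x _ y _ h
            exact Subtype.ext h
        exact le_trans h2 Finset.card_le_two
      · rw [Finset.not_nonempty_iff_eq_empty] at hne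
        rw [hne]
        simp)
    have himg : (Finset.univ.image f).card ≤ Fintype.card K₁ - 1 := by
      have hsub : Finset.univ.image f ⊆ Finset.univ.erase (0 : K₁) := by
        intro c hc
        obtain ⟨t, -, rfl⟩ := Finset.mem_image.mp hc
        rw [Finset.mem_erase]
        refine ⟨?_, Finset.mem_univ _⟩
        intro h0
        have h1 : (t.1 : F) * (t.1 : F) = 0 := congrArg (fun k : K₁ => (k : F)) h0
        exact mul_self_ne_zero.mpr t.1.ne_zero h1
      have h1 := Finset.card_le_card hsub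
      rwa [Finset.card_erase_of_mem (Finset.mem_univ _), Finset.card_univ] at h1
    have hpos : 0 < Fintype.card K₁ := Fintype.card_pos
    rw [Finset.card_univ] at hle
    rw [Nat.card_eq_fintype_card, Nat.card_eq_fintype_card]
    omega
  have hKA : Nat.card A ≤ 2 * Nat.card K₁ := by omega
  have hAK : ∀ a ∈ A, a / a1 ∈ K₁ := by
    by_contra hcon
    push Not at hcon
    obtain ⟨a₁, ha₁A, ha₁⟩ := hcon
    have hinj : Function.Injective (fun p : K₁ × K₁ =>
        (⟨(p.1 : F) * a1 + (p.2 : F) * a₁,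
          A.add_mem (p.1.2 a1 ha1A) (p.2.2 a₁ ha₁A)⟩ : A)) := by
      rintro ⟨c, c'⟩ ⟨e, e'⟩ h
      have h' : (c : F) * a1 + (c' : F) * a₁ = (e : F) * a1 + (e' : F) * a₁ :=
        congrArg Subtype.val h
      have hc' : c' = e' := by
        by_contra hne
        have hne' : (e' : F) - (c' : F) ≠ 0 :=
          fun h0 => hne (Subtype.ext (sub_eq_zero.1 h0).symm)
        apply ha₁
        have hq : a₁ / a1 = ((c : F) - e) / ((e' : F) - c') := by
          rw [div_eq_div_iff ha1 hne']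
          linear_combination -h'
        rw [hq]
        exact K₁.div_mem (K₁.sub_mem c.2 e.2) (K₁.sub_mem e'.2 c'.2)
      subst hc'
      have hce : (c : F) = e := by
        have h0 : ((c : F) - e) * a1 = 0 := by linear_combination h'
        rcases mul_eq_zero.1 h0 with h | h
        · exact sub_eq_zero.1 h
        · exact absurd h ha1
      rw [Prod.mk.injEq]
      exact ⟨Subtype.ext hce, rfl⟩
    have hle := Nat.card_le_card_of_injective _ hinj
    rw [Nat.card_prod] at hle
    have hk3 : 3 ≤ Nat.card K₁ := by omega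
    nlinarith
  have hF₀K : F₀ ≤ K₁ := by
    intro c hc
    have h1 := hAK (c * a1) (hF₀ c hc)
    rwa [mul_div_cancel_right₀ c ha1] at h1
  have hne : K₁ ≠ F₀ := by
    intro h
    have h1 := hAK a2 ha2
    rw [h] at h1
    exact hind (a2 / a1) h1 (by field_simp)
  have htop : K₁ = ⊤ := (hmax K₁ hF₀K).resolve_left hne
  intro b
  have hb : b / a1 ∈ K₁ := by
    rw [htop]
    trivial
  have h1 := hb a1 ha1A
  rwa [div_mul_cancel₀ b ha1] at h1

section dickson

variable [Fintype F]

theorem lSL_pow (a : F) (m : ℕ) : (lSL a) ^ m = lSL (m • a) := by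
  induction m with
  | zero =>
    rw [pow_zero, zero_smul]
    exact (Matrix.SpecialLinearGroup.transvection_coeff_zero _).symm
  | succ m ih =>
    rw [pow_succ, ih, succ_nsmul]
    exact (Matrix.SpecialLinearGroup.transvection_add _ _ _).symm

theorem mk_usl_lsl_ne (a b : F) (ha : a ≠ 0) (hb : b ≠ 0) :
    (QuotientGroup.mk (uSL a) : ProjectiveSpecialLinearGroup (Fin 2) F) * QuotientGroup.mk (lSL b)
      ≠ QuotientGroup.mk (lSL b) * QuotientGroup.mk (uSL a) := by
  intro h
  rw [← QuotientGroup.mk_mul, ← QuotientGroup.mk_mul, psl2_mk_eq_iff] at h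
  have e1 : (lSL b * uSL a).1 0 0 = 1 := by
    rw [sl_mul_00, lSL_00, lSL_01, uSL_00, uSL_10]
    ring
  have e2 : (uSL a * lSL b).1 0 0 = 1 + a * b := by
    rw [sl_mul_00, uSL_00, uSL_01, lSL_00, lSL_10]
    ring
  have e3 : (lSL b * uSL a).1 0 1 = a := by
    rw [sl_mul_01, lSL_00, lSL_01, uSL_01, uSL_11]
    ring
  have e4 : (uSL a * lSL b).1 0 1 = a := by
    rw [sl_mul_01, uSL_00, uSL_01, lSL_01, lSL_11]
    ring
  rcases h with h | h
  · have h00 := congrFun (congrFun h 0) 0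
    rw [e1, e2] at h00
    have h0 : a * b = 0 := by linear_combination -h00
    exact mul_ne_zero ha hb h0
  · have h00 := congrFun (congrFun h 0) 0
    have h01 := congrFun (congrFun h 0) 1
    rw [Matrix.neg_apply] at h00 h01
    rw [e1, e2] at h00
    rw [e3, e4] at h01
    have h2 : (2 : F) = 0 := by
      have h3 : 2 * a = 0 := by linear_combination h01
      rcases mul_eq_zero.mp h3 with h | h
      · exact h
      · exact absurd h ha
    have h0 : a * b = 0 := by linear_combination h00 - h2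
    exact mul_ne_zero ha hb h0

/-- a subgroup of `PSL₂(F)` with two non-commuting elements of order dividing `p` and two elements
whose squares do not commute is of type `A₄`, `S₄`, `A₅` or of Lie type in Dickson's list -/
theorem dickson_of_noncomm_sq (p : ℕ) [Fact p.Prime] [CharP F p]
    (M : Subgroup (Matrix.ProjectiveSpecialLinearGroup (Fin 2) F))
    (x y z z' : Matrix.ProjectiveSpecialLinearGroup (Fin 2) F) (hx : x ∈ M) (hy : y ∈ M)
    (hz : z ∈ M) (hz' : z' ∈ M)
    (hxp : x ^ p = 1) (hyp : y ^ p = 1) (hxy : x * y ≠ y * x)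
    (hzz : z * z * (z' * z') ≠ z' * z' * (z * z)) :
    Nonempty (M ≃* alternatingGroup (Fin 4)) ∨ Nonempty (M ≃* Equiv.Perm (Fin 4)) ∨
      Nonempty (M ≃* alternatingGroup (Fin 5)) ∨
      (∃ (K : Type) (_ : Field K) (_ : Fintype K) (m : ℕ), Fintype.card K ^ m = Fintype.card F ∧
        (Nonempty (M ≃* Matrix.ProjectiveSpecialLinearGroup (Fin 2) K) ∨
          Nonempty (M ≃* Matrix.ProjGenLinGroup (Fin 2) K))) := by
  have hp : p.Prime := Fact.out
  have hxM : (⟨x, hx⟩ : M) ^ p = 1 := Subtype.ext (by rw [Subgroup.coe_pow]; exact hxp)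
  have hyM : (⟨y, hy⟩ : M) ^ p = 1 := Subtype.ext (by rw [Subgroup.coe_pow]; exact hyp)
  rcases Cfsg.Agent.S0799.result (F := F) (q := Fintype.card F) rfl p M with
    ⟨k, -, ⟨hc, -⟩ | ⟨⟨φ⟩⟩⟩ | ⟨P, K', hK', ⟨ψ⟩⟩ | h
  · exfalso
    obtain ⟨g, hg⟩ := hc.exists_generator
    obtain ⟨a, ha⟩ := Subgroup.mem_zpowers_iff.mp (hg ⟨x, hx⟩)
    obtain ⟨b, hb⟩ := Subgroup.mem_zpowers_iff.mp (hg ⟨y, hy⟩)
    apply Cfsg.Agent.Lib.Helper98.false_of_hom_comm M hx hy hxy (MonoidHom.id M) (fun _ _ h => h)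
    show (⟨x, hx⟩ : M) * ⟨y, hy⟩ = ⟨y, hy⟩ * ⟨x, hx⟩
    rw [← ha, ← hb, ← _root_.zpow_add, ← _root_.zpow_add, add_comm]
  · exfalso
    have key : ∀ a : DihedralGroup k, ∃ i, a * a = DihedralGroup.r i := by
      intro a
      cases a with
      | r i => exact ⟨i + i, DihedralGroup.r_mul_r i i⟩
      | sr i => exact ⟨0, by rw [DihedralGroup.sr_mul_self, DihedralGroup.one_def]⟩
    obtain ⟨i, hi⟩ := key (φ ⟨z, hz⟩)
    obtain ⟨j, hj⟩ := key (φ ⟨z', hz'⟩)
    apply hzz
    have h1 : φ ((⟨z, hz⟩ : M) * ⟨z, hz⟩ * (⟨z', hz'⟩ * ⟨z', hz'⟩)) =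
        φ ((⟨z', hz'⟩ : M) * ⟨z', hz'⟩ * (⟨z, hz⟩ * ⟨z, hz⟩)) := by
      rw [map_mul, map_mul, map_mul, map_mul, map_mul, map_mul, hi, hj, DihedralGroup.r_mul_r,
        DihedralGroup.r_mul_r, add_comm]
    exact congrArg Subtype.val (φ.injective h1)
  · exfalso
    obtain ⟨a, haU, hP⟩ := sylow_eq_torusOf p P
    have key : ∀ w : M, w ^ p = 1 →
        ((ψ w : K') : Matrix.ProjectiveSpecialLinearGroup (Fin 2) F) ∈ torusOf a := by
      intro w hw
      have h1 : ((ψ w : K') : Matrix.ProjectiveSpecialLinearGroup (Fin 2) F) ^ p = 1 := by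
        rw [← Subgroup.coe_pow, ← map_pow, hw, map_one]
        rfl
      have h2 := orderOf_dvd_of_pow_eq_one h1
      rw [← hP]
      rcases (Nat.dvd_prime hp).mp h2 with h3 | h3
      · exact Cfsg.Agent.Lib.Helper86.mem_sylow_of_mem_normalizer P (hK' (ψ w).2) (k := 0)
          (by rw [h3, pow_zero])
      · exact Cfsg.Agent.Lib.Helper86.mem_sylow_of_mem_normalizer P (hK' (ψ w).2) (k := 1)
          (by rw [h3, pow_one])
    have hc := torusOf_comm haU.1 (key ⟨x, hx⟩ hxM) (key ⟨y, hy⟩ hyM)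
    apply Cfsg.Agent.Lib.Helper98.false_of_hom_comm M hx hy hxy ψ.toMonoidHom ψ.injective
    show ψ ⟨x, hx⟩ * ψ ⟨y, hy⟩ = ψ ⟨y, hy⟩ * ψ ⟨x, hx⟩
    exact Subtype.ext hc
  · exact h

theorem gcd_two_pow_sub_one {Q m : ℕ} (hQ : 2 ≤ Q) (hm : m ≠ 0) :
    Nat.gcd 2 (Q ^ m - 1) = Nat.gcd 2 (Q - 1) := by
  have hpos : 0 < Q ^ m := Nat.pow_pos (by omega)
  rcases Nat.even_or_odd Q with h | h
  · have h1 : Even (Q ^ m) := (Nat.even_pow' hm).mpr h
    have h2 : Nat.gcd 2 (Q ^ m - 1) = 1 := by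
      apply Nat.Coprime.gcd_eq_one
      rw [Nat.coprime_two_left]
      obtain ⟨t, ht⟩ := h1
      exact ⟨t - 1, by omega⟩
    have h3 : Nat.gcd 2 (Q - 1) = 1 := by
      apply Nat.Coprime.gcd_eq_one
      rw [Nat.coprime_two_left]
      obtain ⟨t, ht⟩ := h
      exact ⟨t - 1, by omega⟩
    rw [h2, h3]
  · have h1 : Odd (Q ^ m) := h.pow
    have h2 : Nat.gcd 2 (Q ^ m - 1) = 2 := by
      apply Nat.gcd_eq_left
      obtain ⟨t, ht⟩ := h1
      exact ⟨t, by omega⟩
    have h3 : Nat.gcd 2 (Q - 1) = 2 := by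
      apply Nat.gcd_eq_left
      obtain ⟨t, ht⟩ := h
      exact ⟨t, by omega⟩
    rw [h2, h3]

/-- **generation of `SL₂(F)`**: a subgroup containing `-1`, the upper unipotent elements with
parameters in `F₀ a₁` and one with parameter outside `F₀ a₁` (`F₀` a maximal subfield), more than
60 upper unipotent elements and a nontrivial lower unipotent element is everything. -/
theorem sl2_gen (F₀ : Subfield F) (hmax : ∀ K : Subfield F, F₀ ≤ K → K = F₀ ∨ K = ⊤)
    (H : Subgroup (SpecialLinearGroup (Fin 2) F)) (hneg : -1 ∈ H) (a1 a2 b0 : F) (ha1 : a1 ≠ 0)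
    (hF₀ : ∀ c ∈ F₀, uSL (c * a1) ∈ H) (ha2 : uSL a2 ∈ H) (hind : ∀ c ∈ F₀, a2 ≠ c * a1)
    (hb0 : b0 ≠ 0) (hl : lSL b0 ∈ H) (hbig : 60 < Nat.card (uAdd H)) : H = ⊤ := by
  classical
  obtain ⟨p, hp⟩ := CharP.exists F
  haveI := hp
  haveI : Fact p.Prime := ⟨CharP.char_is_prime F p⟩
  have hpp : p.Prime := Fact.out
  obtain ⟨f, -, hq⟩ := FiniteField.card F p
  have ha1A : uSL a1 ∈ H := by
    have := hF₀ 1 F₀.one_mem
    rwa [one_mul] at this
  have ha20 : a2 ≠ 0 := fun h => hind 0 F₀.zero_mem (by rw [h, zero_mul])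
  have ha12 : a2 ≠ a1 := fun h => hind 1 F₀.one_mem (by rw [h, one_mul])
  obtain ⟨π, hπ⟩ : ∃ π : SpecialLinearGroup (Fin 2) F →* ProjectiveSpecialLinearGroup (Fin 2) F,
      π = QuotientGroup.mk' (Subgroup.center (SpecialLinearGroup (Fin 2) F)) := ⟨_, rfl⟩
  have hπa : ∀ U, π U = QuotientGroup.mk U := by
    intro U
    rw [hπ]
    rfl
  obtain ⟨Hb, hHb⟩ : ∃ Hb : Subgroup (ProjectiveSpecialLinearGroup (Fin 2) F), Hb = H.map π :=
    ⟨_, rfl⟩
  have hcen : Subgroup.center (SpecialLinearGroup (Fin 2) F) ≤ H := by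
    intro x hx
    rcases (mem_center_iff_eq x).mp hx with rfl | rfl
    · exact H.one_mem
    · exact hneg
  have hker : π.ker = Subgroup.center (SpecialLinearGroup (Fin 2) F) := by
    rw [hπ, QuotientGroup.ker_mk']
  have hcardH : Nat.card H = Nat.card Hb * Nat.gcd 2 (Fintype.card F - 1) := by
    have h1 := card_comap_eq_mul π Hb
    have h2 : Hb.comap π = H := by
      rw [hHb]
      exact Subgroup.comap_map_eq_self (by rw [hker]; exact hcen)
    have h3 : (Hb : Set (ProjectiveSpecialLinearGroup (Fin 2) F)) ∩ Set.range π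
        = (Hb : Set (ProjectiveSpecialLinearGroup (Fin 2) F)) := by
      apply Set.inter_eq_left.mpr
      intro x _
      obtain ⟨U, rfl⟩ := QuotientGroup.mk_surjective x
      exact ⟨U, hπa U⟩
    rw [h2, h3, hker, card_center_sl2] at h1
    rw [h1]
    rfl
  have hx : π (uSL a1) ∈ Hb := by
    rw [hHb]
    exact Subgroup.mem_map_of_mem π ha1A
  have hy : π (lSL b0) ∈ Hb := by
    rw [hHb]
    exact Subgroup.mem_map_of_mem π hl
  have hxp : (π (uSL a1)) ^ p = 1 := by
    rw [← map_pow, uSL_pow, nsmul_eq_mul, CharP.cast_eq_zero F p, zero_mul, uSL_zero, map_one]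
  have hyp : (π (lSL b0)) ^ p = 1 := by
    rw [← map_pow, lSL_pow, nsmul_eq_mul, CharP.cast_eq_zero F p, zero_mul]
    have h0 : lSL (0 : F) = 1 := Matrix.SpecialLinearGroup.transvection_coeff_zero _
    rw [h0, map_one]
  have hxy : π (uSL a1) * π (lSL b0) ≠ π (lSL b0) * π (uSL a1) := by
    rw [hπa, hπa]
    exact mk_usl_lsl_ne a1 b0 ha1 hb0
  have hD : Nonempty (Hb ≃* alternatingGroup (Fin 4)) ∨ Nonempty (Hb ≃* Equiv.Perm (Fin 4)) ∨
      Nonempty (Hb ≃* alternatingGroup (Fin 5)) ∨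
      (∃ (K : Type) (_ : Field K) (_ : Fintype K) (m : ℕ), Fintype.card K ^ m = Fintype.card F ∧
        (Nonempty (Hb ≃* Matrix.ProjectiveSpecialLinearGroup (Fin 2) K) ∨
          Nonempty (Hb ≃* Matrix.ProjGenLinGroup (Fin 2) K))) := by
    by_cases hp2 : p = 2
    · subst hp2
      have h2F : (2 : F) = 0 := by
        have := CharP.cast_eq_zero F 2
        exact_mod_cast this
      obtain ⟨X, hX⟩ : ∃ X : SpecialLinearGroup (Fin 2) F, X = uSL a1 * lSL b0 := ⟨_, rfl⟩
      obtain ⟨X', hX'⟩ : ∃ X' : SpecialLinearGroup (Fin 2) F, X' = uSL a2 * lSL b0 := ⟨_, rfl⟩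
      have hX00 : X.1 0 0 = 1 + a1 * b0 := by
        rw [hX, sl_mul_00, uSL_00, uSL_01, lSL_00, lSL_10]; ring
      have hX01 : X.1 0 1 = a1 := by
        rw [hX, sl_mul_01, uSL_00, uSL_01, lSL_01, lSL_11]; ring
      have hX10 : X.1 1 0 = b0 := by
        rw [hX, sl_mul_10, uSL_10, uSL_11, lSL_00, lSL_10]; ring
      have hX11 : X.1 1 1 = 1 := by
        rw [hX, sl_mul_11, uSL_10, uSL_11, lSL_01, lSL_11]; ring
      have hX'00 : X'.1 0 0 = 1 + a2 * b0 := by
        rw [hX', sl_mul_00, uSL_00, uSL_01, lSL_00, lSL_10]; ring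
      have hX'01 : X'.1 0 1 = a2 := by
        rw [hX', sl_mul_01, uSL_00, uSL_01, lSL_01, lSL_11]; ring
      have hX'10 : X'.1 1 0 = b0 := by
        rw [hX', sl_mul_10, uSL_10, uSL_11, lSL_00, lSL_10]; ring
      have hX'11 : X'.1 1 1 = 1 := by
        rw [hX', sl_mul_11, uSL_10, uSL_11, lSL_01, lSL_11]; ring
      refine dickson_of_noncomm_sq 2 Hb _ _ (π X) (π X') hx hy
        (by rw [hHb, hX]; exact Subgroup.mem_map_of_mem π (H.mul_mem ha1A hl))
        (by rw [hHb, hX']; exact Subgroup.mem_map_of_mem π (H.mul_mem ha2 hl)) hxp hyp hxy ?_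
      intro h
      simp only [← map_mul] at h
      rw [hπa, hπa, psl2_mk_eq_iff] at h
      have key : (X * X * (X' * X')).1 1 1 - (X' * X' * (X * X)).1 1 1
          = (2 + a1 * b0) * (2 + a2 * b0) * b0 * (a2 - a1) := by
        simp only [sl_mul_00, sl_mul_01, sl_mul_10, sl_mul_11, hX00, hX01, hX10, hX11, hX'00,
          hX'01, hX'10, hX'11]
        ring
      have h0 : a1 * b0 * (a2 * b0) * b0 * (a2 - a1) = 0 := by
        rcases h with h | h
        · have h11 := congrFun (congrFun h 1) 1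
          linear_combination (-1 : F) * h11 - key
            - (2 + a1 * b0 + a2 * b0) * b0 * (a2 - a1) * h2F
        · have h11 := congrFun (congrFun h 1) 1
          rw [Matrix.neg_apply] at h11
          linear_combination (-1 : F) * h11 - key
            + ((X * X * (X' * X')).1 1 1 - (2 + a1 * b0 + a2 * b0) * b0 * (a2 - a1)) * h2F
      exact absurd h0 (mul_ne_zero (mul_ne_zero (mul_ne_zero (mul_ne_zero ha1 hb0)
        (mul_ne_zero ha20 hb0)) hb0) (sub_ne_zero.mpr ha12))
    · exact Cfsg.Agent.Lib.Helper98.dickson_of_noncomm p hp2 Hb _ _ hx hy hxp hyp hxy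
  have hAle : Nat.card (uAdd H) ≤ Nat.card Hb := by
    apply Nat.card_le_card_of_injective (fun a : uAdd H =>
      (⟨π (uSL a.1), by rw [hHb]; exact Subgroup.mem_map_of_mem π a.2⟩ : Hb))
    intro a a' h
    have h1 : π (uSL a.1) = π (uSL a'.1) := congrArg Subtype.val h
    rw [hπa, hπa, psl2_mk_eq_iff] at h1
    apply Subtype.ext
    rcases h1 with h1 | h1
    · have h01 := congrFun (congrFun h1 0) 1
      rw [uSL_01, uSL_01] at h01
      exact h01.symm
    · have h00 := congrFun (congrFun h1 0) 0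
      have h01 := congrFun (congrFun h1 0) 1
      rw [Matrix.neg_apply] at h00 h01
      rw [uSL_00, uSL_00] at h00
      rw [uSL_01, uSL_01] at h01
      linear_combination (-1 : F) * h01 + a.1 * h00
  have hHb60 : 60 < Nat.card Hb := lt_of_lt_of_le hbig hAle
  rcases hD with ⟨⟨e⟩⟩ | ⟨⟨e⟩⟩ | ⟨⟨e⟩⟩ | ⟨K, _, _, m, hKm, hiso⟩
  · exfalso
    have := (Nat.card_congr e.toEquiv).trans Cfsg.Agent.Lib.Helper98.card_alt4
    omega
  · exfalso
    have := (Nat.card_congr e.toEquiv).trans Cfsg.Agent.Lib.Helper98.card_sym4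
    omega
  · exfalso
    have := (Nat.card_congr e.toEquiv).trans Cfsg.Agent.Lib.Helper98.card_alt5
    omega
  · have hQ2 : 2 ≤ Fintype.card K := Fintype.one_lt_card
    have hm : m ≠ 0 := by
      rintro rfl
      rw [pow_zero] at hKm
      have := Fintype.one_lt_card (α := F)
      omega
    obtain ⟨Q, hQ⟩ : ∃ Q, Q = Fintype.card K := ⟨_, rfl⟩
    rw [← hQ] at hKm hQ2
    obtain ⟨β, -, hβ⟩ := (Nat.dvd_prime_pow hpp).mp
      (show Q ∣ p ^ (f : ℕ) by rw [← hq, ← hKm]; exact dvd_pow_self Q hm)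
    have hβ1 : β ≠ 0 := by
      rintro rfl
      rw [pow_zero] at hβ
      omega
    have hgcd : Nat.gcd 2 (Fintype.card F - 1) = Nat.gcd 2 (Q - 1) := by
      rw [← hKm]
      exact gcd_two_pow_sub_one hQ2 hm
    have hc : ∃ c, (c = 1 ∨ (c = 2 ∧ p ≠ 2)) ∧ Nat.card H = c * (Q * (Q ^ 2 - 1)) := by
      rcases hiso with ⟨⟨e⟩⟩ | ⟨⟨e⟩⟩
      · refine ⟨1, Or.inl rfl, ?_⟩
        have h1 := card_psl2_mul_gcd (F := K)
        rw [← hQ] at h1
        rw [hcardH, Nat.card_congr e.toEquiv, hgcd, h1, one_mul]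
      · have h1 := Cfsg.Agent.Lib.Helper59.card_pgl2 (K := K)
        rw [← hQ] at h1
        rw [hcardH, Nat.card_congr e.toEquiv, h1]
        by_cases h2 : (2 : F) = 0
        · refine ⟨1, Or.inl rfl, ?_⟩
          rw [(gcd_two_card_sub_one (F := F)).2 h2, mul_one, one_mul]
        · refine ⟨2, Or.inr ⟨rfl, ?_⟩, ?_⟩
          · rintro rfl
            apply h2
            have := CharP.cast_eq_zero F 2
            exact_mod_cast this
          · rw [(gcd_two_card_sub_one (F := F)).1 h2, mul_comm]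
    obtain ⟨c, hc12, hcH⟩ := hc
    obtain ⟨k, hk⟩ := card_eq H
    obtain ⟨α, -, hα⟩ : ∃ α ≤ (f : ℕ), Nat.card (uAdd H) = p ^ α := by
      apply (Nat.dvd_prime_pow hpp).mp
      rw [← hq, ← Nat.card_eq_fintype_card]
      exact AddSubgroup.card_addSubgroup_dvd_card (uAdd H)
    have hα1 : α ≠ 0 := by
      rintro rfl
      rw [pow_zero] at hα
      omega
    have hd : Nat.card (diagSub H) ∣ p ^ (f : ℕ) - 1 := by
      have h1 := Subgroup.card_subgroup_dvd_card (diagSub H)
      rwa [Nat.card_units, Nat.card_eq_fintype_card (α := F), hq] at h1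
    have hnd : ∀ t : ℕ, t ≠ 0 → ∀ x : ℕ, x ∣ p ^ t - 1 → Nat.Coprime p x := by
      intro t ht x hx
      rw [Nat.Prime.coprime_iff_not_dvd hpp]
      intro hpx
      have h1 : p ∣ p ^ t - 1 := dvd_trans hpx hx
      have h2 : p ∣ p ^ t := dvd_pow_self p ht
      have h3 : 1 ≤ p ^ t := Nat.pow_pos hpp.pos
      have h4 := (Nat.dvd_sub h2 h1)
      have h5 : p ^ t - (p ^ t - 1) = 1 := by omega
      rw [h5] at h4
      have := Nat.le_of_dvd one_pos h4
      have := hpp.one_lt
      omega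
    have hcop1 : Nat.Coprime p (c * (Q ^ 2 - 1)) := by
      apply Nat.Coprime.mul_right
      · rcases hc12 with rfl | ⟨rfl, hp2⟩
        · exact Nat.coprime_one_right p
        · exact (Nat.coprime_primes hpp Nat.prime_two).mpr hp2
      · apply hnd (β * 2) (by omega)
        rw [hβ, ← pow_mul]
    have hcop2 : Nat.Coprime p (Nat.card (diagSub H) * (1 + k * Nat.card (uAdd H))) := by
      apply Nat.Coprime.mul_right
      · exact hnd (f : ℕ) f.pos.ne' _ hd
      · rw [hα, Nat.Prime.coprime_iff_not_dvd hpp]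
        intro h1
        have h2 : p ∣ k * p ^ α := dvd_mul_of_dvd_right (dvd_pow_self p hα1) k
        have h3 := (Nat.dvd_add_right h2).mp (by rwa [add_comm] at h1)
        have := Nat.le_of_dvd one_pos h3
        have := hpp.one_lt
        omega
    have hAQ : Nat.card (uAdd H) = Q := by
      apply Nat.dvd_antisymm
      · have h1 : Nat.card (uAdd H) ∣ Q * (c * (Q ^ 2 - 1)) := by
          refine ⟨Nat.card (diagSub H) * (1 + k * Nat.card (uAdd H)), ?_⟩
          have : Q * (c * (Q ^ 2 - 1)) = c * (Q * (Q ^ 2 - 1)) := by ring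
          rw [this, ← hcH, hk]
          ring
        have h2 : Nat.Coprime (Nat.card (uAdd H)) (c * (Q ^ 2 - 1)) := by
          rw [hα]
          exact Nat.Coprime.pow_left α hcop1
        exact h2.dvd_of_dvd_mul_right h1
      · have h1 : Q ∣ Nat.card (uAdd H) *
            (Nat.card (diagSub H) * (1 + k * Nat.card (uAdd H))) := by
          refine ⟨c * (Q ^ 2 - 1), ?_⟩
          have : Q * (c * (Q ^ 2 - 1)) = c * (Q * (Q ^ 2 - 1)) := by ring
          rw [this, ← hcH, hk]
          ring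
        have h2 : Nat.Coprime Q (Nat.card (diagSub H) * (1 + k * Nat.card (uAdd H))) := by
          rw [hβ]
          exact Nat.Coprime.pow_left β hcop2
        exact h2.dvd_of_dvd_mul_right h1
    have hQpos : 0 < Q := by omega
    have heq : Nat.card (diagSub H) * (1 + k * Q) = c * (Q ^ 2 - 1) := by
      have h1 : Q * (Nat.card (diagSub H) * (1 + k * Q)) = Q * (c * (Q ^ 2 - 1)) := by
        have : Q * (c * (Q ^ 2 - 1)) = c * (Q * (Q ^ 2 - 1)) := by ring
        rw [this, ← hcH, hk, hAQ]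
        ring
      exact Nat.eq_of_mul_eq_mul_left hQpos h1
    have hdvd : Q ∣ Nat.card (diagSub H) + c := by
      have hQ1 : 1 ≤ Q ^ 2 := Nat.pow_pos hQpos
      have h1 : Nat.card (diagSub H) + c + Nat.card (diagSub H) * k * Q = c * Q ^ 2 := by
        have h2 : c * (Q ^ 2 - 1) + c = c * Q ^ 2 := by
          rw [← Nat.mul_succ]
          congr 1
          omega
        rw [← h2, ← heq]
        ring
      have h3 : Q ∣ Nat.card (diagSub H) * k * Q := dvd_mul_left Q _
      have h4 : Q ∣ Nat.card (diagSub H) + c + Nat.card (diagSub H) * k * Q := by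
        rw [h1]
        exact dvd_mul_of_dvd_right (dvd_pow_self Q two_ne_zero) c
      exact (Nat.dvd_add_left h3).mp h4
    have hc2 : 1 ≤ c ∧ c ≤ 2 := by
      rcases hc12 with rfl | ⟨rfl, -⟩ <;> omega
    have hle : Q ≤ Nat.card (diagSub H) + c := Nat.le_of_dvd (by omega) hdvd
    have hall := usl_all_of_card F₀ hmax H a1 a2 ha1 hF₀ ha2 hind (by rw [hAQ]; omega)
      (by omega)
    exact eq_top_of_uSL_mem H (lSL b0) (by rw [lSL_10]; exact hb0) hall
      (fun b => H.mul_mem (H.mul_mem hl (hall b)) (H.inv_mem hl))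

end dickson

end Cfsg.Agent.Lib.Helper94.SL2Gen
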