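import Cfsg.Agent.Lib.Helper94.OrthIso

set_option autoImplicit false
set_option linter.unusedSectionVars false

namespace Cfsg.Agent.Lib.Helper94

open Cfsg Cfsg.Geo
open scoped MatrixGroups Matrix

variable {F : Type*} [Field F] {ι : Type} [Fintype ι] [DecidableEq ι]

/-- The isometries of `β` of determinant one lie in `M`. -/
def ContainsSO (β : (ι → F) → (ι → F) → F) (M : Subgroup (GL ι F)) : Prop :=
  ∀ k : GL ι F, k ∈ specialLinear ι F →
    (∀ x y, β ((k : Matrix ι ι F) *ᵥ x) ((k : Matrix ι ι F) *ᵥ y) = β x y) → k ∈ M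

lemma two_ne_zero_of_odd_card [Finite F] (hodd : Nat.card F % 2 = 1) : (2 : F) ≠ 0 := by
  classical
  cases nonempty_fintype F
  intro h2
  have h3 : ringChar F = 2 :=
    CharP.ringChar_of_prime_eq_zero Nat.prime_two (by exact_mod_cast h2)
  have h4 := FiniteField.even_card_iff_char_two.mp h3
  rw [Nat.card_eq_fintype_card] at hodd
  omega

section ogroup

variable (β : (ι → F) → (ι → F) → F) (hβ : IsOrthForm β)

include hβ in
lemma ohasTv_add_left (M : Subgroup (GL ι F)) {y y' w : ι → F} (h : HasTv β M y w)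
    (h' : HasTv β M y' w) (hw : β w y = 0) : HasTv β M (y + y') w := by
  obtain ⟨g, hg, hgx⟩ := h
  obtain ⟨g', hg', hgx'⟩ := h'
  refine ⟨g * g', M.mul_mem hg hg', fun x => ?_⟩
  rw [gl_mul_mulVec, hgx', hgx, hβ.add_left, hβ.smul_left, hw, mul_zero, add_zero,
    ob_add_right β hβ]
  module

include hβ in
lemma ohasTv_neg_left (M : Subgroup (GL ι F)) {y w : ι → F} (h : HasTv β M y w)
    (hw : β w y = 0) : HasTv β M (-y) w := by
  obtain ⟨g, hg, hgx⟩ := h
  refine ⟨g⁻¹, M.inv_mem hg, fun x => ?_⟩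
  apply gl_mulVec_injective g
  rw [gl_mulVec_inv_mulVec, hgx, hβ.add_left, hβ.smul_left, hw, mul_zero, add_zero,
    ob_neg_right β hβ]
  module

include hβ in
lemma ohasTv_add_right (M : Subgroup (GL ι F)) {y w w' : ι → F} (h : HasTv β M y w)
    (h' : HasTv β M y w') (hw : β w' y = 0) : HasTv β M y (w + w') := by
  obtain ⟨g, hg, hgx⟩ := h
  obtain ⟨g', hg', hgx'⟩ := h'
  refine ⟨g * g', M.mul_mem hg hg', fun x => ?_⟩
  rw [gl_mul_mulVec, hgx', hgx, hβ.add_left, hβ.smul_left, hw, mul_zero, add_zero]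
  module

include hβ in
lemma ohasTv_neg_right (M : Subgroup (GL ι F)) {y w : ι → F} (h : HasTv β M y w)
    (hw : β w y = 0) : HasTv β M y (-w) := by
  obtain ⟨g, hg, hgx⟩ := ohasTv_neg_left β hβ M h hw
  refine ⟨g, hg, fun x => ?_⟩
  rw [hgx, ob_neg_right β hβ]
  module

include hβ in
/-- The Siegel transformations attached to two perpendicular singular vectors. -/
lemma exists_osiegel (u' v : ι → F) (hu' : β u' u' = 0) (hv : β v v = 0) (huv : β u' v = 0) :
    ∃ ρ : GL ι F, ρ ∈ specialLinear ι F ∧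
      (∀ x, (ρ : Matrix ι ι F) *ᵥ x = x + β x v • u' - β x u' • v) ∧
      ∀ x y, β ((ρ : Matrix ι ι F) *ᵥ x) ((ρ : Matrix ι ι F) *ᵥ y) = β x y := by
  have hvu : β v u' = 0 := by
    rw [hβ.symm]
    exact huv
  have h1 : (obL β hβ v) u' = 0 := huv
  have h2 : (-(obL β hβ u')) v = 0 := by
    rw [LinearMap.neg_apply, obL_apply, hvu, neg_zero]
  have hx : ∀ x, ((Cfsg.Agent.Lib.Helper93.tvGL (obL β hβ v) u' h1 *
      Cfsg.Agent.Lib.Helper93.tvGL (-(obL β hβ u')) v h2 : GL ι F) : Matrix ι ι F) *ᵥ x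
        = x + β x v • u' - β x u' • v := by
    intro x
    rw [gl_mul_mulVec, Cfsg.Agent.Lib.Helper93.tvGL_mulVec,
      Cfsg.Agent.Lib.Helper93.tvGL_mulVec, LinearMap.neg_apply, obL_apply, obL_apply,
      hβ.add_left, hβ.smul_left, hv, mul_zero, add_zero]
    module
  have hiso : ∀ x y, β (((Cfsg.Agent.Lib.Helper93.tvGL (obL β hβ v) u' h1 *
      Cfsg.Agent.Lib.Helper93.tvGL (-(obL β hβ u')) v h2 : GL ι F) : Matrix ι ι F) *ᵥ x)
      (((Cfsg.Agent.Lib.Helper93.tvGL (obL β hβ v) u' h1 *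
      Cfsg.Agent.Lib.Helper93.tvGL (-(obL β hβ u')) v h2 : GL ι F) : Matrix ι ι F) *ᵥ y)
        = β x y := by
    intro x y
    rw [hx, hx]
    simp only [hβ.add_left, ob_add_right β hβ, ob_sub_left β hβ, ob_sub_right β hβ,
      hβ.smul_left, ob_smul_right β hβ, hu', hv, huv, hvu]
    rw [hβ.symm v y, hβ.symm u' y]
    ring
  refine ⟨_, ?_, hx, hiso⟩
  exact Subgroup.mul_mem _ (Cfsg.Agent.Lib.Helper93.tvGL_mem_SL _ _ _)
    (Cfsg.Agent.Lib.Helper93.tvGL_mem_SL _ _ _)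

include hβ in
/-- The pull-back of an orthogonal form along an invertible matrix. -/
lemma ob_pullback (g : GL ι F) :
    IsOrthForm (fun x y => β ((g : Matrix ι ι F) *ᵥ x) ((g : Matrix ι ι F) *ᵥ y)) where
  add_left := fun x y v => by
    show β ((g : Matrix ι ι F) *ᵥ (x + y)) _ = _
    rw [Matrix.mulVec_add, hβ.add_left]
  smul_left := fun c x v => by
    show β ((g : Matrix ι ι F) *ᵥ (c • x)) _ = _
    rw [Matrix.mulVec_smul, hβ.smul_left]
  symm := fun v w => hβ.symm _ _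
  nondegenerate := by
    intro v hv
    have hgv : (g : Matrix ι ι F) *ᵥ v ≠ 0 := by
      intro h0
      apply hv
      apply gl_mulVec_injective g
      rw [h0, Matrix.mulVec_zero]
    obtain ⟨⟨x, hx⟩, ⟨x', hx'⟩⟩ := hβ.nondegenerate _ hgv
    refine ⟨⟨((g⁻¹ : GL ι F) : Matrix ι ι F) *ᵥ x, ?_⟩,
      ⟨((g⁻¹ : GL ι F) : Matrix ι ι F) *ᵥ x', ?_⟩⟩
    · show β ((g : Matrix ι ι F) *ᵥ (((g⁻¹ : GL ι F) : Matrix ι ι F) *ᵥ x)) _ ≠ 0
      rw [gl_mulVec_inv_mulVec]
      exact hx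
    · show β _ ((g : Matrix ι ι F) *ᵥ (((g⁻¹ : GL ι F) : Matrix ι ι F) *ᵥ x')) ≠ 0
      rw [gl_mulVec_inv_mulVec]
      exact hx'
  two_ne := hβ.two_ne

include hβ in
/-- If a second orthogonal form is not proportional to `β`, it has a singular vector `v` for
which `β' · v` is not proportional to `β · v`. -/
lemma exists_singular_not_prop [Finite F] (hodd : Nat.card F % 2 = 1)
    (hn : 13 ≤ Fintype.card ι) (β' : (ι → F) → (ι → F) → F) (hβ' : IsOrthForm β')
    (hg : ¬ ∃ l : F, ∀ x y, β' x y = l * β x y) :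
    ∃ v, β' v v = 0 ∧ ¬ ∃ l : F, ∀ x, β' x v = l * β x v := by
  classical
  by_contra hcon
  push Not at hcon
  apply hg
  obtain ⟨v₀, hv₀, hv₀0⟩ := exists_singular_ne_zero β' hβ' hodd (by omega)
  obtain ⟨l₀, hl₀⟩ := hcon v₀ hv₀
  have hadj : ∀ v₁ v₂ : ι → F, β' v₁ v₂ ≠ 0 → ∀ l₁ l₂ : F,
      (∀ x, β' x v₁ = l₁ * β x v₁) → (∀ x, β' x v₂ = l₂ * β x v₂) → l₁ = l₂ := by
    intro v₁ v₂ h12 l₁ l₂ h1 h2
    have e1 := h1 v₂
    have e2 := h2 v₁
    rw [hβ'.symm v₂ v₁, hβ.symm v₂ v₁] at e1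
    have hne : β v₁ v₂ ≠ 0 := by
      intro h0
      rw [h0, mul_zero] at e2
      exact h12 e2
    have e3 : (l₁ - l₂) * β v₁ v₂ = 0 := by linear_combination e2 - e1
    rcases mul_eq_zero.mp e3 with h | h
    · exact sub_eq_zero.mp h
    · exact absurd h hne
  have hsing : ∀ v, β' v v = 0 → ∀ x, β' x v = l₀ * β x v := by
    intro v hv x
    by_cases hv0 : v = 0
    · rw [hv0, ob_zero_right β' hβ', ob_zero_right β hβ, mul_zero]
    obtain ⟨z, hz, h1, h2⟩ := exists_singular_both β' hβ' hodd (by omega) hv₀0 hv0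
    obtain ⟨lz, hlz⟩ := hcon z hz
    obtain ⟨l, hl⟩ := hcon v hv
    have e1 := hadj v₀ z h1 l₀ lz hl₀ hlz
    have e2 := hadj v z h2 l lz hl hlz
    rw [hl x, e2, ← e1]
  refine ⟨l₀, fun x y => ?_⟩
  obtain ⟨z₁, z₂, hz₁, hz₂, -, -, rfl⟩ :=
    exists_singular_sum β' hβ' hodd ∅ (by simp; omega) y (by simp)
  rw [ob_add_right β' hβ', ob_add_right β hβ, hsing z₁ hz₁ x, hsing z₂ hz₂ x]
  ring

include hβ in
/-- A subgroup containing the special isometries of `β` and a matrix that is not a similarity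
contains a transvection whose axis is the perpendicular of a singular vector outside the
centre. -/
lemma exists_first_otv [Finite F] (hodd : Nat.card F % 2 = 1) (hn : 13 ≤ Fintype.card ι)
    (M : Subgroup (GL ι F)) (hM : ContainsSO β M) (g : GL ι F) (hgM : g ∈ M)
    (hg : ¬ ∃ l : F, ∀ x y,
      β ((g : Matrix ι ι F) *ᵥ x) ((g : Matrix ι ι F) *ᵥ y) = l * β x y) :
    ∃ s w₀ : ι → F, β s s = 0 ∧ s ≠ 0 ∧ β w₀ s = 0 ∧ (∀ c : F, w₀ ≠ c • s) ∧
      HasTv β M s w₀ := by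
  classical
  obtain ⟨β', hβ'def⟩ : ∃ β' : (ι → F) → (ι → F) → F,
      β' = fun x y => β ((g : Matrix ι ι F) *ᵥ x) ((g : Matrix ι ι F) *ᵥ y) := ⟨_, rfl⟩
  have hβ'x : ∀ x y, β' x y = β ((g : Matrix ι ι F) *ᵥ x) ((g : Matrix ι ι F) *ᵥ y) :=
    fun x y => by rw [hβ'def]
  have hβ' : IsOrthForm β' := by
    rw [hβ'def]
    exact ob_pullback β hβ g
  obtain ⟨v, hv, hvnp⟩ := exists_singular_not_prop β hβ hodd hn β' hβ'
    (fun ⟨l, hl⟩ => hg ⟨l, fun x y => by rw [← hβ'x]; exact hl x y⟩)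
  have hflat : ∀ z : ι → F, ∃ z' : ι → F, ∀ x, β x z' = β' x z :=
    fun z => exists_ob_repr β hβ (obL β' hβ' z)
  obtain ⟨vf, hvf⟩ := hflat v
  have hv0 : v ≠ 0 := by
    rintro rfl
    exact hvnp ⟨0, fun x => by rw [ob_zero_right β' hβ', ob_zero_right β hβ, mul_zero]⟩
  have hvfne : ∀ c : F, vf ≠ c • v := by
    intro c hc
    exact hvnp ⟨c, fun x => by rw [← hvf x, hc, ob_smul_right β hβ]⟩
  -- the second singular vector of the pulled-back form
  obtain ⟨u, p₁, hu, hu1, hp₁1, hp₁u⟩ := exists_singular_out β' hβ' hodd {v, vf}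
    (by have := Finset.card_le_two (a := v) (b := vf); omega)
  have huv : β' u v = 0 := hu1 v (by simp)
  have hvu : β' v u = 0 := by
    rw [hβ'.symm]
    exact huv
  have hp₁v : β' p₁ v = 0 := hp₁1 v (by simp)
  have hp₁vf : β' p₁ vf = 0 := hp₁1 vf (by simp)
  obtain ⟨uf, huf⟩ := hflat u
  obtain ⟨q, hq⟩ := hflat p₁
  -- the singular vector `s`
  obtain ⟨s, p₂, hs, hs1, hp₂1, hp₂s⟩ := exists_singular_out β hβ hodd {u, v, uf, vf}
    (by have := Finset.card_le_four (a := u) (b := v) (c := uf) (d := vf); omega)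
  have hsu : β s u = 0 := hs1 u (by simp)
  have hsv : β s v = 0 := hs1 v (by simp)
  have hsuf : β s uf = 0 := hs1 uf (by simp)
  have hsvf : β s vf = 0 := hs1 vf (by simp)
  have hus : β u s = 0 := by
    rw [hβ.symm]
    exact hsu
  have hvs : β v s = 0 := by
    rw [hβ.symm]
    exact hsv
  have hp₂u : β p₂ u = 0 := hp₂1 u (by simp)
  have hp₂v : β p₂ v = 0 := hp₂1 v (by simp)
  have hp₂vf : β p₂ vf = 0 := hp₂1 vf (by simp)
  -- the vector `b`
  obtain ⟨x₀, hx₀v, hx₀vf⟩ := exists_operp_sep β hβ hv0 hvfne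
  have hqu : β q u ≠ 0 := by
    rw [hβ.symm, hq, hβ'.symm]
    exact hp₁u
  have hqv : β q v = 0 := by
    rw [hβ.symm, hq, hβ'.symm]
    exact hp₁v
  have hqvf : β q vf = 0 := by
    rw [hβ.symm, hq, hβ'.symm]
    exact hp₁vf
  obtain ⟨x₁, hx₁⟩ : ∃ x₁, x₁ = x₀ - (β x₀ u / β q u) • q := ⟨_, rfl⟩
  have hx₁v : β x₁ v = 0 := by
    rw [hx₁, ob_sub_left β hβ, hβ.smul_left, hqv, mul_zero, sub_zero, hβ.symm]
    exact hx₀v
  have hx₁vf : β x₁ vf ≠ 0 := by
    rw [hx₁, ob_sub_left β hβ, hβ.smul_left, hqvf, mul_zero, sub_zero, hβ.symm]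
    exact hx₀vf
  have hx₁u : β x₁ u = 0 := by
    rw [hx₁, ob_sub_left β hβ, hβ.smul_left, div_mul_cancel₀ _ hqu, sub_self]
  obtain ⟨x₂, hx₂⟩ : ∃ x₂, x₂ = x₁ - (β x₁ s / β p₂ s) • p₂ := ⟨_, rfl⟩
  have hx₂v : β x₂ v = 0 := by
    rw [hx₂, ob_sub_left β hβ, hβ.smul_left, hp₂v, mul_zero, sub_zero, hx₁v]
  have hx₂vf : β x₂ vf ≠ 0 := by
    rw [hx₂, ob_sub_left β hβ, hβ.smul_left, hp₂vf, mul_zero, sub_zero]
    exact hx₁vf
  have hx₂u : β x₂ u = 0 := by
    rw [hx₂, ob_sub_left β hβ, hβ.smul_left, hp₂u, mul_zero, sub_zero, hx₁u]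
  have hx₂s : β x₂ s = 0 := by
    rw [hx₂, ob_sub_left β hβ, hβ.smul_left, div_mul_cancel₀ _ hp₂s, sub_self]
  obtain ⟨b, hb, hb1, -⟩ := exists_singular_correction β hβ hodd {s, u, v, vf}
    (by have := Finset.card_le_four (a := s) (b := u) (c := v) (d := vf); omega) x₂
  have hbs : β b s = 0 := by rw [hb1 s (by simp), hx₂s]
  have hbu : β b u = 0 := by rw [hb1 u (by simp), hx₂u]
  have hbv : β b v = 0 := by rw [hb1 v (by simp), hx₂v]
  have hbvf : β b vf ≠ 0 := by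
    rw [hb1 vf (by simp)]
    exact hx₂vf
  have hsb : β s b = 0 := by
    rw [hβ.symm]
    exact hbs
  have hub : β u b = 0 := by
    rw [hβ.symm]
    exact hbu
  have hvb : β v b = 0 := by
    rw [hβ.symm]
    exact hbv
  obtain ⟨γ, hγ⟩ : ∃ γ, γ = β' b v := ⟨_, rfl⟩
  obtain ⟨δ, hδ⟩ : ∃ δ, δ = β' b u := ⟨_, rfl⟩
  have hγ0 : γ ≠ 0 := by
    rw [hγ, ← hvf]
    exact hbvf
  have hs'v : β' s v = 0 := by rw [← hvf, hsvf]
  have hs'u : β' s u = 0 := by rw [← huf, hsuf]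
  -- the Siegel transformations of the pulled-back form lie in `M`
  have hSieg' : ∀ u₁ v₁ : ι → F, β' u₁ u₁ = 0 → β' v₁ v₁ = 0 → β' u₁ v₁ = 0 →
      ∃ t ∈ M, ∀ x, (t : Matrix ι ι F) *ᵥ x = x + β' x v₁ • u₁ - β' x u₁ • v₁ := by
    intro u₁ v₁ h1 h2 h3
    obtain ⟨ρ, hρSL, hρx, hρiso⟩ := exists_osiegel β hβ ((g : Matrix ι ι F) *ᵥ u₁)
      ((g : Matrix ι ι F) *ᵥ v₁) (by rw [← hβ'x]; exact h1) (by rw [← hβ'x]; exact h2)
      (by rw [← hβ'x]; exact h3)
    refine ⟨g⁻¹ * ρ * g, M.mul_mem (M.mul_mem (M.inv_mem hgM) (hM ρ hρSL hρiso)) hgM,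
      fun x => ?_⟩
    rw [gl_mul_mulVec, gl_mul_mulVec, hρx, Matrix.mulVec_sub, Matrix.mulVec_add,
      Matrix.mulVec_smul, Matrix.mulVec_smul, gl_inv_mulVec_mulVec, gl_inv_mulVec_mulVec,
      gl_inv_mulVec_mulVec, hβ'x, hβ'x]
  obtain ⟨t, htM, htx⟩ := hSieg' u v hu hv huv
  obtain ⟨t', ht'M, ht'x⟩ := hSieg' u (-v) hu
    (by rw [ob_neg_left β' hβ', ob_neg_right β' hβ', hv, neg_zero, neg_zero])
    (by rw [ob_neg_right β' hβ', huv, neg_zero])
  obtain ⟨h, hhSL, hhx, hhiso⟩ := exists_osiegel β hβ s b hs hb hsb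
  obtain ⟨h', hh'SL, hh'x, hh'iso⟩ := exists_osiegel β hβ s (-b) hs
    (by rw [ob_neg_left β hβ, ob_neg_right β hβ, hb, neg_zero, neg_zero])
    (by rw [ob_neg_right β hβ, hsb, neg_zero])
  refine ⟨s, δ • v - γ • u, hs, ?_, ?_, ?_, ⟨t * h * t' * h',
    M.mul_mem (M.mul_mem (M.mul_mem htM (hM h hhSL hhiso)) ht'M) (hM h' hh'SL hh'iso),
    fun x => ?_⟩⟩
  · rintro rfl
    exact hp₂s (ob_zero_right β hβ p₂)
  · rw [ob_sub_left β hβ, hβ.smul_left, hβ.smul_left, hvs, hus]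
    ring
  · intro c hc
    have e1 : β p₂ (δ • v - γ • u) = 0 := by
      rw [ob_sub_right β hβ, ob_smul_right β hβ, ob_smul_right β hβ, hp₂v, hp₂u]
      ring
    rw [hc, ob_smul_right β hβ] at e1
    rcases mul_eq_zero.mp e1 with h0 | h0
    · rw [h0, zero_smul] at hc
      have e2 : β' p₁ (δ • v - γ • u) = 0 := by rw [hc, ob_zero_right β' hβ']
      rw [ob_sub_right β' hβ', ob_smul_right β' hβ', ob_smul_right β' hβ', hp₁v, mul_zero,
        zero_sub] at e2
      exact mul_ne_zero hγ0 hp₁u (neg_eq_zero.mp e2)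
    · exact hp₂s h0
  · rw [gl_mul_mulVec, gl_mul_mulVec, gl_mul_mulVec, hh'x, ht'x, hhx, htx]
    simp only [hβ.add_left, hβ.smul_left, ob_sub_left β hβ, ob_neg_left β hβ,
      ob_neg_right β hβ, hβ'.add_left, hβ'.smul_left, ob_sub_left β' hβ', ob_neg_left β' hβ',
      ob_neg_right β' hβ', hs, hb, hbs, hsb, hub, hvb, hus, hvs, hs'v, hs'u, ← hγ, ← hδ, huv,
      hvu, hu, hv, mul_zero, add_zero, sub_zero, neg_zero, mul_neg, neg_neg,
      sub_neg_eq_add]
    module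

include hβ in
/-- Propagation of a conjugation-invariant, additive relation along perpendicular singular
vectors. -/
lemma orth_prop_all [Finite F] (hodd : Nat.card F % 2 = 1) (hn : 13 ≤ Fintype.card ι)
    (P : (ι → F) → (ι → F) → Prop)
    (hconj : ∀ ρ : GL ι F, ρ ∈ specialLinear ι F →
      (∀ x y, β ((ρ : Matrix ι ι F) *ᵥ x) ((ρ : Matrix ι ι F) *ᵥ y) = β x y) →
      ∀ s w, P s w → P ((ρ : Matrix ι ι F) *ᵥ s) ((ρ : Matrix ι ι F) *ᵥ w))
    (hadd : ∀ s w w', β w s = 0 → β w' s = 0 → P s w → P s w' → P s (w + w'))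
    (hneg : ∀ s w, β w s = 0 → P s w → P s (-w))
    {s a : ι → F} (hs : β s s = 0) (hs0 : s ≠ 0) (has : β a s = 0)
    (hne : ∀ c : F, a ≠ c • s) (h : P s a) :
    ∀ w, β w s = 0 → P s w := by
  classical
  have key : ∀ a'' : ι → F, β a'' a'' = 0 → β a'' s = 0 → P s a'' := by
    intro a'' ha'' ha''s
    obtain ⟨a', p, ha', ha'1, hp1, hpa'⟩ := exists_singular_out β hβ hodd {s, a, a''}
      (by have := Finset.card_le_three (a := s) (b := a) (c := a''); omega)
    have ha's : β a' s = 0 := ha'1 s (by simp)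
    have ha'a : β a' a = 0 := ha'1 a (by simp)
    have ha'a'' : β a' a'' = 0 := ha'1 a'' (by simp)
    have hps : β p s = 0 := hp1 s (by simp)
    have hpa : β p a = 0 := hp1 a (by simp)
    have hpa'' : β p a'' = 0 := hp1 a'' (by simp)
    -- first step: from `a` to `a'`
    obtain ⟨x, hsx, hax⟩ := exists_operp_sep β hβ hs0 hne
    obtain ⟨x₁, hx₁⟩ : ∃ x₁, x₁ = x - (β x a' / β p a') • p := ⟨_, rfl⟩
    have hx₁s : β x₁ s = 0 := by
      rw [hx₁, ob_sub_left β hβ, hβ.smul_left, hps, mul_zero, sub_zero, hβ.symm]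
      exact hsx
    have hx₁a' : β x₁ a' = 0 := by
      rw [hx₁, ob_sub_left β hβ, hβ.smul_left, div_mul_cancel₀ _ hpa', sub_self]
    have hx₁a : β x₁ a ≠ 0 := by
      rw [hx₁, ob_sub_left β hβ, hβ.smul_left, hpa, mul_zero, sub_zero, hβ.symm]
      exact hax
    obtain ⟨b₁, hb₁, hb₁1, -⟩ := exists_singular_correction β hβ hodd {a', s, a}
      (by have := Finset.card_le_three (a := a') (b := s) (c := a); omega) x₁
    have hb₁a' : β b₁ a' = 0 := by rw [hb₁1 a' (by simp), hx₁a']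
    have hb₁s : β b₁ s = 0 := by rw [hb₁1 s (by simp), hx₁s]
    have hb₁a : β b₁ a ≠ 0 := by
      rw [hb₁1 a (by simp)]
      exact hx₁a
    have hab₁ : β a b₁ ≠ 0 := by
      rw [hβ.symm]
      exact hb₁a
    obtain ⟨ρ, hρSL, hρx, hρiso⟩ := exists_osiegel β hβ a' ((β a b₁)⁻¹ • b₁) ha'
      (by rw [hβ.smul_left, ob_smul_right β hβ, hb₁, mul_zero, mul_zero])
      (by rw [ob_smul_right β hβ, hβ.symm a' b₁, hb₁a', mul_zero])
    have h1 := hconj ρ hρSL hρiso s a h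
    have e1 : (ρ : Matrix ι ι F) *ᵥ s = s := by
      rw [hρx, ob_smul_right β hβ, hβ.symm s b₁, hb₁s, mul_zero, zero_smul, add_zero,
        hβ.symm s a', ha's, zero_smul, sub_zero]
    have e2 : (ρ : Matrix ι ι F) *ᵥ a = a + a' := by
      rw [hρx, ob_smul_right β hβ, inv_mul_cancel₀ hab₁, one_smul, hβ.symm a a', ha'a,
        zero_smul, sub_zero]
    rw [e1, e2] at h1
    have h2 : P s a' := by
      have h3 := hadd s (a + a') (-a) (by rw [hβ.add_left, has, ha's, add_zero])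
        (by rw [ob_neg_left β hβ, has, neg_zero]) h1 (hneg s a has h)
      rwa [add_neg_cancel_comm] at h3
    -- second step: from `a'` to `a''`
    obtain ⟨b₂, hb₂, hb₂1, -⟩ := exists_singular_correction β hβ hodd {a'', s, a'}
      (by have := Finset.card_le_three (a := a'') (b := s) (c := a'); omega) p
    have hb₂a'' : β b₂ a'' = 0 := by rw [hb₂1 a'' (by simp), hpa'']
    have hb₂s : β b₂ s = 0 := by rw [hb₂1 s (by simp), hps]
    have hb₂a' : β b₂ a' ≠ 0 := by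
      rw [hb₂1 a' (by simp)]
      exact hpa'
    have ha'b₂ : β a' b₂ ≠ 0 := by
      rw [hβ.symm]
      exact hb₂a'
    obtain ⟨ρ₂, hρ₂SL, hρ₂x, hρ₂iso⟩ := exists_osiegel β hβ a'' ((β a' b₂)⁻¹ • b₂) ha''
      (by rw [hβ.smul_left, ob_smul_right β hβ, hb₂, mul_zero, mul_zero])
      (by rw [ob_smul_right β hβ, hβ.symm a'' b₂, hb₂a'', mul_zero])
    have h3 := hconj ρ₂ hρ₂SL hρ₂iso s a' h2
    have e3 : (ρ₂ : Matrix ι ι F) *ᵥ s = s := by
      rw [hρ₂x, ob_smul_right β hβ, hβ.symm s b₂, hb₂s, mul_zero, zero_smul, add_zero,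
        hβ.symm s a'', ha''s, zero_smul, sub_zero]
    have e4 : (ρ₂ : Matrix ι ι F) *ᵥ a' = a' + a'' := by
      rw [hρ₂x, ob_smul_right β hβ, inv_mul_cancel₀ ha'b₂, one_smul, ha'a'', zero_smul,
        sub_zero]
    rw [e3, e4] at h3
    have h4 := hadd s (a' + a'') (-a') (by rw [hβ.add_left, ha's, ha''s, add_zero])
      (by rw [ob_neg_left β hβ, ha's, neg_zero]) h3 (hneg s a' ha's h2)
    rwa [add_neg_cancel_comm] at h4
  intro w hws
  obtain ⟨z₁, z₂, hz₁, hz₂, h1, h2, rfl⟩ := exists_singular_sum β hβ hodd {s}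
    (by simp; omega) w (by simpa using hws)
  exact hadd s z₁ z₂ (h1 s (by simp)) (h2 s (by simp)) (key z₁ hz₁ (h1 s (by simp)))
    (key z₂ hz₂ (h2 s (by simp)))

include hβ in
/-- A subgroup containing the special isometries of `β` and a matrix that is not a similarity
contains all the transvections `x ↦ x + β x y • w`. -/
theorem ohasTv_all [Finite F] (hodd : Nat.card F % 2 = 1) (hn : 13 ≤ Fintype.card ι)
    (M : Subgroup (GL ι F)) (hM : ContainsSO β M) (g : GL ι F) (hgM : g ∈ M)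
    (hg : ¬ ∃ l : F, ∀ x y,
      β ((g : Matrix ι ι F) *ᵥ x) ((g : Matrix ι ι F) *ᵥ y) = l * β x y) :
    ∀ y w : ι → F, β w y = 0 → HasTv β M y w := by
  classical
  obtain ⟨s₀, w₀, hs₀, hs₀0, hw₀s₀, hne₀, h0⟩ := exists_first_otv β hβ hodd hn M hM g hgM hg
  have hR : ∀ s a : ι → F, β s s = 0 → s ≠ 0 → β a s = 0 → (∀ c : F, a ≠ c • s) →
      HasTv β M s a → ∀ w, β w s = 0 → HasTv β M s w := by
    intro s a hs hs0 has hne h
    exact orth_prop_all β hβ hodd hn (fun y w => HasTv β M y w)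
      (fun ρ hρSL hρiso y w hyw => hasTv_conj β M ρ (hM ρ hρSL hρiso) hρiso hyw)
      (fun y w w' _ hw' h1 h2 => ohasTv_add_right β hβ M h1 h2 hw')
      (fun y w hw h1 => ohasTv_neg_right β hβ M h1 hw)
      hs hs0 has hne h
  have hL : ∀ s a : ι → F, β s s = 0 → s ≠ 0 → β a s = 0 → (∀ c : F, a ≠ c • s) →
      HasTv β M a s → ∀ y, β y s = 0 → HasTv β M y s := by
    intro s a hs hs0 has hne h
    exact orth_prop_all β hβ hodd hn (fun w y => HasTv β M y w)
      (fun ρ hρSL hρiso w y hyw => hasTv_conj β M ρ (hM ρ hρSL hρiso) hρiso hyw)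
      (fun w y y' hy _ h1 h2 => ohasTv_add_left β hβ M h1 h2 (by rw [hβ.symm]; exact hy))
      (fun w y hy h1 => ohasTv_neg_left β hβ M h1 (by rw [hβ.symm]; exact hy))
      hs hs0 has hne h
  have hR0 := hR s₀ w₀ hs₀ hs₀0 hw₀s₀ hne₀ h0
  have hsing : ∀ y' : ι → F, β y' y' = 0 → ∀ w'', β w'' y' = 0 → HasTv β M y' w'' := by
    intro y' hy' w'' hw''
    by_cases hy'0 : y' = 0
    · refine ⟨1, M.one_mem, fun x => ?_⟩
      rw [hy'0, Units.val_one, Matrix.one_mulVec, ob_zero_right β hβ, zero_smul, add_zero]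
    obtain ⟨w, p, hw, hw1, hp1, hpw⟩ := exists_singular_out β hβ hodd {s₀, y'}
      (by have := Finset.card_le_two (a := s₀) (b := y'); omega)
    have hws₀ : β w s₀ = 0 := hw1 s₀ (by simp)
    have hwy' : β w y' = 0 := hw1 y' (by simp)
    have hps₀ : β p s₀ = 0 := hp1 s₀ (by simp)
    have hpy' : β p y' = 0 := hp1 y' (by simp)
    have hw0 : w ≠ 0 := by
      rintro rfl
      exact hpw (ob_zero_right β hβ p)
    have h1 : HasTv β M s₀ w := hR0 w hws₀
    have h2 : HasTv β M y' w := hL w s₀ hw hw0 (by rw [hβ.symm]; exact hws₀) (by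
      intro c hc
      have e := hps₀
      rw [hc, ob_smul_right β hβ] at e
      rcases mul_eq_zero.mp e with h | h
      · apply hs₀0
        rw [hc, h, zero_smul]
      · exact hpw h) h1 y' (by rw [hβ.symm]; exact hwy')
    exact hR y' w hy' hy'0 hwy' (by
      intro c hc
      apply hpw
      rw [hc, ob_smul_right β hβ, hpy', mul_zero]) h2 w'' hw''
  intro y w hwy
  obtain ⟨z₁, z₂, hz₁, hz₂, h1, h2, rfl⟩ := exists_singular_sum β hβ hodd {w}
    (by simp; omega) y (by simpa using (hβ.symm y w).trans hwy)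
  have e1 : β w z₁ = 0 := by
    rw [hβ.symm]
    exact h1 w (by simp)
  have e2 : β w z₂ = 0 := by
    rw [hβ.symm]
    exact h2 w (by simp)
  exact ohasTv_add_left β hβ M (hsing z₁ hz₁ w e1) (hsing z₂ hz₂ w e2) e1

end ogroup

section oquad

variable (Q : (ι → F) → F) (hQ : IsNondegenerateQuadraticForm Q)

include hQ in
lemma polar_isOrthForm (h2 : (2 : F) ≠ 0) : IsOrthForm (QuadraticMap.polar Q) where
  add_left := hQ.polar_bilinear.add_left
  smul_left := hQ.polar_bilinear.smul_left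
  symm := fun v w => QuadraticMap.polar_comm Q v w
  nondegenerate := hQ.nondegenerate
  two_ne := h2

include hQ in
lemma polar_self (x : ι → F) : QuadraticMap.polar Q x x = 2 * Q x := by
  have h1 := hQ.smul 2 x
  rw [two_smul] at h1
  unfold QuadraticMap.polar
  rw [h1]
  ring

include hQ in
/-- The similarities of a non-degenerate quadratic form in odd characteristic, of determinant
one, form a maximal subgroup of `SL`. -/
theorem sl_orth_max [Finite F] (hodd : Nat.card F % 2 = 1) (hn : 13 ≤ Fintype.card ι) :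
    IsMaximalIn (specialLinear ι F) (quadSimilarityGroup Q ⊓ specialLinear ι F) := by
  classical
  have h2 : (2 : F) ≠ 0 := two_ne_zero_of_odd_card hodd
  obtain ⟨β, hβdef⟩ : ∃ β : (ι → F) → (ι → F) → F, β = QuadraticMap.polar Q := ⟨_, rfl⟩
  have hβ : IsOrthForm β := by
    rw [hβdef]
    exact polar_isOrthForm Q hQ h2
  have hself : ∀ x, β x x = 2 * Q x := fun x => by
    rw [hβdef]
    exact polar_self Q hQ x
  have hsim : ∀ g : GL ι F, g ∈ quadSimilarityGroup Q → ∃ c : F, ∀ x y,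
      β ((g : Matrix ι ι F) *ᵥ x) ((g : Matrix ι ι F) *ᵥ y) = c * β x y := by
    rintro g ⟨c, hc⟩
    refine ⟨c, fun x y => ?_⟩
    rw [hβdef]
    unfold QuadraticMap.polar
    rw [← Matrix.mulVec_add, hc, hc, hc]
    ring
  have hiso : ∀ k : GL ι F,
      (∀ x y, β ((k : Matrix ι ι F) *ᵥ x) ((k : Matrix ι ι F) *ᵥ y) = β x y) →
      k ∈ quadSimilarityGroup Q := by
    intro k hk
    refine ⟨1, fun v => ?_⟩
    have h1 := hk v v
    rw [hself, hself] at h1
    rw [Units.val_one, one_mul]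
    exact mul_left_cancel₀ h2 h1
  have : Nontrivial ι := Fintype.one_lt_card_iff_nontrivial.mp (by omega)
  constructor
  · refine lt_of_le_of_ne inf_le_right ?_
    intro heq
    obtain ⟨w, hw, hw0⟩ := exists_singular_ne_zero β hβ hodd (by omega)
    obtain ⟨y, hy, hyy⟩ := exists_nonsingular_perp β hβ {w} (by simp; omega)
    have hyw : β y w = 0 := hy w (by simp)
    have hwy : β w y = 0 := by
      rw [hβ.symm]
      exact hyw
    have hwy' : obL β hβ y w = 0 := hwy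
    have hmem : Cfsg.Agent.Lib.Helper93.tvGL (obL β hβ y) w hwy'
        ∈ quadSimilarityGroup Q ⊓ specialLinear ι F := by
      rw [heq]
      exact Cfsg.Agent.Lib.Helper93.tvGL_mem_SL _ _ _
    obtain ⟨c, hc⟩ := hsim _ hmem.1
    have hx : ∀ x, ((Cfsg.Agent.Lib.Helper93.tvGL (obL β hβ y) w hwy' : GL ι F) :
        Matrix ι ι F) *ᵥ x = x + β x y • w := fun x => by
      rw [Cfsg.Agent.Lib.Helper93.tvGL_mulVec, obL_apply]
    obtain ⟨⟨a, ha⟩, -⟩ := hβ.nondegenerate w hw0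
    have hc1 : c = 1 := by
      have h1 := hc a w
      rw [hx, hx, hwy, zero_smul, add_zero, hβ.add_left, hβ.smul_left, hw, mul_zero,
        add_zero] at h1
      have h3 : (c - 1) * β a w = 0 := by linear_combination -h1
      rcases mul_eq_zero.mp h3 with h | h
      · linear_combination h
      · exact absurd h ha
    have h3 := hc a y
    rw [hx, hx, hc1, one_mul] at h3
    simp only [hβ.add_left, ob_add_right β hβ, hβ.smul_left, ob_smul_right β hβ, hw, hwy]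
      at h3
    have h4 : β y y * β a w = 0 := by linear_combination h3
    rcases mul_eq_zero.mp h4 with h | h
    · exact hyy h
    · exact ha h
  · intro M hHM hMS
    by_cases hMH : M = quadSimilarityGroup Q ⊓ specialLinear ι F
    · exact Or.inl hMH
    right
    apply le_antisymm hMS
    have hnle : ¬ M ≤ quadSimilarityGroup Q ⊓ specialLinear ι F :=
      fun h => hMH (le_antisymm h hHM)
    obtain ⟨g, hgM, hgH⟩ := SetLike.not_le_iff_exists.mp hnle
    have hg : g ∉ quadSimilarityGroup Q := fun h => hgH ⟨h, hMS hgM⟩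
    have hg' : ¬ ∃ l : F, ∀ x y,
        β ((g : Matrix ι ι F) *ᵥ x) ((g : Matrix ι ι F) *ᵥ y) = l * β x y := by
      rintro ⟨l, hl⟩
      apply hg
      have hl0 : l ≠ 0 := by
        rintro rfl
        obtain ⟨e, -, he0⟩ := exists_singular_ne_zero β hβ hodd (by omega)
        have hge : (g : Matrix ι ι F) *ᵥ e ≠ 0 := by
          intro h0
          apply he0
          apply gl_mulVec_injective g
          rw [h0, Matrix.mulVec_zero]
        obtain ⟨⟨x, hx⟩, -⟩ := hβ.nondegenerate _ hge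
        apply hx
        have h1 := hl (((g⁻¹ : GL ι F) : Matrix ι ι F) *ᵥ x) e
        rwa [gl_mulVec_inv_mulVec, zero_mul] at h1
      refine ⟨Units.mk0 l hl0, fun v => ?_⟩
      have h1 := hl v v
      rw [hself, hself] at h1
      rw [Units.val_mk0]
      apply mul_left_cancel₀ h2
      linear_combination h1
    have hM : ContainsSO β M := fun k hkSL hk => hHM ⟨hiso k hk, hkSL⟩
    have hall := ohasTv_all β hβ hodd hn M hM g hgM hg'
    apply sl_le_of_tvGL
    intro φ v h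
    obtain ⟨y, hy⟩ := exists_ob_repr β hβ φ
    obtain ⟨k, hkM, hkx⟩ := hall y v (by rw [hy, h])
    have e : Cfsg.Agent.Lib.Helper93.tvGL φ v h = k := by
      apply gl_ext
      intro x
      rw [Cfsg.Agent.Lib.Helper93.tvGL_mulVec, hkx, hy]
    rw [e]
    exact hkM

end oquad

end Cfsg.Agent.Lib.Helper94
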