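import Cfsg.Agent.Lib.Helper93.Parabolic
import Cfsg.Agent.Lib.Helper5.SLGen
import Cfsg.Agent.Lib.Helper94.SpClosure

set_option autoImplicit false
set_option linter.unusedSectionVars false

namespace Cfsg.Agent.Lib.Helper94

open Cfsg Cfsg.Geo
open scoped MatrixGroups Matrix

variable {F : Type*} [Field F] {ι : Type} [Fintype ι] [DecidableEq ι]

/-- A subgroup containing every transvection contains the special linear group. -/
theorem sl_le_of_tvGL [Nontrivial ι] (M : Subgroup (GL ι F))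
    (hM : ∀ (φ : Module.Dual F (ι → F)) (v : ι → F) (h : φ v = 0),
      Cfsg.Agent.Lib.Helper93.tvGL φ v h ∈ M) :
    specialLinear ι F ≤ M := by
  intro g hg
  have hdet : (g : Matrix ι ι F).det = 1 :=
    (Cfsg.Agent.Lib.Helper93.mem_specialLinear_iff g).mp hg
  have key : M.comap (Matrix.SpecialLinearGroup.toGL : Matrix.SpecialLinearGroup ι F →* GL ι F)
      = ⊤ := by
    apply Cfsg.Agent.Lib.Helper5.eq_top_of_transvection_mem
    intro i j hij c
    show Matrix.SpecialLinearGroup.toGL (Matrix.SpecialLinearGroup.transvection hij c) ∈ M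
    have h0 : (c • (LinearMap.proj j : (ι → F) →ₗ[F] F)) (Pi.single i 1) = 0 := by
      simp [Pi.single_eq_of_ne (Ne.symm hij)]
    have e : Matrix.SpecialLinearGroup.toGL (Matrix.SpecialLinearGroup.transvection hij c)
        = Cfsg.Agent.Lib.Helper93.tvGL (c • (LinearMap.proj j : (ι → F) →ₗ[F] F))
          (Pi.single i 1) h0 := by
      apply gl_ext
      intro x
      rw [Cfsg.Agent.Lib.Helper93.tvGL_mulVec]
      show (Matrix.SpecialLinearGroup.transvection hij c).1 *ᵥ x = _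
      rw [Matrix.SpecialLinearGroup.transvection_coe, Matrix.add_mulVec, Matrix.one_mulVec]
      congr 1
      ext k
      simp [Matrix.mulVec, dotProduct, Matrix.single_apply, Pi.single_apply]
      by_cases hk : i = k
      · simp [hk]
      · simp [hk, Ne.symm hk]
    rw [e]
    exact hM _ _ _
  have hmem : (⟨(g : Matrix ι ι F), hdet⟩ : Matrix.SpecialLinearGroup ι F)
      ∈ M.comap (Matrix.SpecialLinearGroup.toGL : Matrix.SpecialLinearGroup ι F →* GL ι F) := by
    rw [key]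
    trivial
  have hA : Matrix.SpecialLinearGroup.toGL
      (⟨(g : Matrix ι ι F), hdet⟩ : Matrix.SpecialLinearGroup ι F) = g := Units.ext rfl
  rw [← hA]
  exact hmem

section symp

variable (f : (ι → F) → (ι → F) → F) (hf : IsSymplecticForm f)

include hf in
lemma symp_zero_left (y : ι → F) : f 0 y = 0 := by
  have := hf.bilinear.smul_left 0 0 y
  rwa [zero_smul, zero_mul] at this

include hf in
lemma symp_zero_right (x : ι → F) : f x 0 = 0 := by
  have := hf.bilinear.smul_right 0 x 0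
  rwa [zero_smul, zero_mul] at this

include hf in
lemma symp_neg_left (x y : ι → F) : f (-x) y = - f x y := by
  have := hf.bilinear.smul_left (-1) x y
  rwa [neg_one_smul, neg_one_mul] at this

include hf in
lemma symp_neg_right (x y : ι → F) : f x (-y) = - f x y := by
  have := hf.bilinear.smul_right (-1) x y
  rwa [neg_one_smul, neg_one_mul] at this

include hf in
lemma symp_sub_left (x x' y : ι → F) : f (x - x') y = f x y - f x' y := by
  rw [sub_eq_add_neg, hf.bilinear.add_left, symp_neg_left f hf, sub_eq_add_neg]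

include hf in
lemma symp_sub_right (x y y' : ι → F) : f x (y - y') = f x y - f x y' := by
  rw [sub_eq_add_neg, hf.bilinear.add_right, symp_neg_right f hf, sub_eq_add_neg]

/-- `x ↦ f x y` as a linear functional. -/
def sympL (hf : IsSymplecticForm f) (y : ι → F) : Module.Dual F (ι → F) where
  toFun := fun x => f x y
  map_add' := fun a b => hf.bilinear.add_left a b y
  map_smul' := fun c a => by simpa using hf.bilinear.smul_left c a y

lemma sympL_apply (y x : ι → F) : sympL f hf y x = f x y := rfl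

/-- The form as a bilinear form. -/
noncomputable def sympB (hf : IsSymplecticForm f) : LinearMap.BilinForm F (ι → F) :=
  LinearMap.mk₂ F f hf.bilinear.add_left (fun c u v => by simpa using hf.bilinear.smul_left c u v)
    hf.bilinear.add_right (fun c u v => by simpa using hf.bilinear.smul_right c u v)

lemma sympB_apply (u v : ι → F) : sympB f hf u v = f u v := rfl

lemma sympB_nondeg : (sympB f hf).Nondegenerate := by
  constructor
  · intro x hx
    by_contra hne
    obtain ⟨-, ⟨z, hz⟩⟩ := hf.nondegenerate x hne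
    exact hz (hx z)
  · intro y hy
    by_contra hne
    obtain ⟨⟨z, hz⟩, -⟩ := hf.nondegenerate y hne
    exact hz (hy z)

include hf in
/-- Every functional is represented by the form. -/
lemma exists_symp_repr (φ : Module.Dual F (ι → F)) : ∃ y, ∀ x, f x y = φ x := by
  refine ⟨((sympB f hf).toDual (sympB_nondeg f hf)).symm (-φ), fun x => ?_⟩
  have h := LinearMap.BilinForm.apply_toDual_symm_apply (B := sympB f hf)
    (hB := sympB_nondeg f hf) (-φ) x
  rw [sympB_apply] at h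
  rw [hf.skew, h]
  simp

include hf in
/-- If `y` is not a multiple of `w ≠ 0`, some vector perpendicular to `w` is not perpendicular
to `y`. -/
lemma exists_perp_sep {w y : ι → F} (hw : w ≠ 0) (hy : ∀ c : F, y ≠ c • w) :
    ∃ u, f w u = 0 ∧ f y u ≠ 0 := by
  by_contra hcon
  push Not at hcon
  obtain ⟨-, ⟨a, ha⟩⟩ := hf.nondegenerate w hw
  apply hy (f y a / f w a)
  by_contra hne
  have hne' : y - (f y a / f w a) • w ≠ 0 := sub_ne_zero.mpr hne
  obtain ⟨-, ⟨u, hu⟩⟩ := hf.nondegenerate _ hne'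
  apply hu
  rw [symp_sub_left f hf, hf.bilinear.smul_left]
  have h1 := hcon (u - (f w u / f w a) • a)
    (by rw [symp_sub_right f hf, hf.bilinear.smul_right, div_mul_cancel₀ _ ha, sub_self])
  rw [symp_sub_right f hf, hf.bilinear.smul_right] at h1
  linear_combination h1

include hf in
lemma exists_symp_both {a b : ι → F} (ha : a ≠ 0) (hb : b ≠ 0) :
    ∃ z, f a z ≠ 0 ∧ f b z ≠ 0 := by
  obtain ⟨-, ⟨z1, h1⟩⟩ := hf.nondegenerate a ha
  obtain ⟨-, ⟨z2, h2⟩⟩ := hf.nondegenerate b hb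
  by_cases h3 : f b z1 = 0
  · by_cases h4 : f a z2 = 0
    · refine ⟨z1 + z2, ?_, ?_⟩
      · rw [hf.bilinear.add_right, h4, add_zero]
        exact h1
      · rw [hf.bilinear.add_right, h3, zero_add]
        exact h2
    · exact ⟨z2, h4, h2⟩
  · exact ⟨z1, h1, h3⟩

include hf in
/-- Perpendicular to few vectors there is a vector outside a given line. -/
lemma exists_perp_not_smul (hn : 5 ≤ Fintype.card ι) (s : Finset (ι → F)) (hs : s.card ≤ 3)
    (w : ι → F) : ∃ y, (∀ u ∈ s, f u y = 0) ∧ ∀ c : F, y ≠ c • w := by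
  by_contra hcon
  push Not at hcon
  have hle : (sympB f hf).orthogonal (Submodule.span F (s : Set (ι → F)))
      ≤ Submodule.span F {w} := by
    intro y hy
    rw [LinearMap.BilinForm.mem_orthogonal_iff] at hy
    obtain ⟨c, hc⟩ := hcon y (fun u hu => hy u (Submodule.subset_span hu))
    rw [hc]
    exact Submodule.smul_mem _ _ (Submodule.subset_span rfl)
  have h1 := Submodule.finrank_mono hle
  have h2 := LinearMap.BilinForm.finrank_orthogonal (sympB_nondeg f hf)
    (Submodule.span F (s : Set (ι → F)))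
  rw [Module.finrank_fintype_fun_eq_card] at h2
  have h3 : Module.finrank F (Submodule.span F (s : Set (ι → F))) ≤ 3 :=
    le_trans (finrank_span_finset_le_card s) hs
  have h4 : Module.finrank F (Submodule.span F {w}) ≤ 1 := by
    by_cases hw : w = 0
    · rw [hw, Submodule.span_zero_singleton, finrank_bot]
      exact Nat.zero_le 1
    · rw [finrank_span_singleton hw]
  omega

/-- `M` contains the transvection `x ↦ x + f x y • w`. -/
def HasTv (M : Subgroup (GL ι F)) (y w : ι → F) : Prop :=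
  ∃ g ∈ M, ∀ x, (g : Matrix ι ι F) *ᵥ x = x + f x y • w

lemma hasTv_conj (M : Subgroup (GL ι F)) (k : GL ι F) (hk : k ∈ M)
    (hiso : ∀ a b, f ((k : Matrix ι ι F) *ᵥ a) ((k : Matrix ι ι F) *ᵥ b) = f a b) {y w : ι → F}
    (h : HasTv f M y w) :
    HasTv f M ((k : Matrix ι ι F) *ᵥ y) ((k : Matrix ι ι F) *ᵥ w) := by
  obtain ⟨g, hg, hgx⟩ := h
  refine ⟨k * g * k⁻¹, M.mul_mem (M.mul_mem hk hg) (M.inv_mem hk), fun x => ?_⟩
  rw [gl_mul_mulVec, gl_mul_mulVec, hgx, Matrix.mulVec_add, Matrix.mulVec_smul,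
    gl_mulVec_inv_mulVec]
  congr 2
  have h1 := hiso (((k⁻¹ : GL ι F) : Matrix ι ι F) *ᵥ x) y
  rw [gl_mulVec_inv_mulVec] at h1
  exact h1.symm

include hf in
lemma hasTv_add_left (M : Subgroup (GL ι F)) {y y' w : ι → F} (h : HasTv f M y w)
    (h' : HasTv f M y' w) (hw : f w y = 0) : HasTv f M (y + y') w := by
  obtain ⟨g, hg, hgx⟩ := h
  obtain ⟨g', hg', hgx'⟩ := h'
  refine ⟨g * g', M.mul_mem hg hg', fun x => ?_⟩
  rw [gl_mul_mulVec, hgx', hgx, hf.bilinear.add_left, hf.bilinear.smul_left, hw, mul_zero,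
    add_zero, hf.bilinear.add_right]
  module

include hf in
lemma hasTv_neg_left (M : Subgroup (GL ι F)) {y w : ι → F} (h : HasTv f M y w)
    (hw : f w y = 0) : HasTv f M (-y) w := by
  obtain ⟨g, hg, hgx⟩ := h
  refine ⟨g⁻¹, M.inv_mem hg, fun x => ?_⟩
  apply gl_mulVec_injective g
  rw [gl_mulVec_inv_mulVec, hgx, hf.bilinear.add_left, hf.bilinear.smul_left, hw, mul_zero,
    add_zero, symp_neg_right f hf]
  module

include hf in
lemma hasTv_add_right (M : Subgroup (GL ι F)) {y w w' : ι → F} (h : HasTv f M y w)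
    (h' : HasTv f M y w') (hw : f w' y = 0) : HasTv f M y (w + w') := by
  obtain ⟨g, hg, hgx⟩ := h
  obtain ⟨g', hg', hgx'⟩ := h'
  refine ⟨g * g', M.mul_mem hg hg', fun x => ?_⟩
  rw [gl_mul_mulVec, hgx', hgx, hf.bilinear.add_left, hf.bilinear.smul_left, hw, mul_zero,
    add_zero]
  module

include hf in
lemma hasTv_neg_right (M : Subgroup (GL ι F)) {y w : ι → F} (h : HasTv f M y w)
    (hw : f w y = 0) : HasTv f M y (-w) := by
  obtain ⟨g, hg, hgx⟩ := hasTv_neg_left f hf M h hw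
  refine ⟨g, hg, fun x => ?_⟩
  rw [hgx, symp_neg_right f hf]
  module

include hf in
/-- The symplectic transvections. -/
lemma exists_symp_transvection (u : ι → F) (c : F) :
    ∃ k : GL ι F, k ∈ similarityGroup f ⊓ specialLinear ι F ∧
      (∀ x, (k : Matrix ι ι F) *ᵥ x = x + (c * f x u) • u) ∧
      ∀ a b, f ((k : Matrix ι ι F) *ᵥ a) ((k : Matrix ι ι F) *ᵥ b) = f a b := by
  have h0 : sympL f hf (c • u) u = 0 := by
    rw [sympL_apply, hf.bilinear.smul_right, hf.alternating, mul_zero]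
  have hx : ∀ x, ((Cfsg.Agent.Lib.Helper93.tvGL (sympL f hf (c • u)) u h0 : GL ι F) :
      Matrix ι ι F) *ᵥ x = x + (c * f x u) • u := by
    intro x
    rw [Cfsg.Agent.Lib.Helper93.tvGL_mulVec, sympL_apply, hf.bilinear.smul_right]
  have hiso : ∀ a b, f (((Cfsg.Agent.Lib.Helper93.tvGL (sympL f hf (c • u)) u h0 : GL ι F) :
      Matrix ι ι F) *ᵥ a) (((Cfsg.Agent.Lib.Helper93.tvGL (sympL f hf (c • u)) u h0 : GL ι F) :
      Matrix ι ι F) *ᵥ b) = f a b := by
    intro a b
    simp only [hx, hf.bilinear.add_left, hf.bilinear.add_right, hf.bilinear.smul_left,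
      hf.bilinear.smul_right, hf.alternating]
    rw [hf.skew u b]
    ring
  exact ⟨_, ⟨⟨1, fun a b => by rw [hiso, Units.val_one, one_mul]⟩,
    Cfsg.Agent.Lib.Helper93.tvGL_mem_SL _ _ _⟩, hx, hiso⟩

include hf in
lemma hasTv_all_left (M : Subgroup (GL ι F))
    (hHM : similarityGroup f ⊓ specialLinear ι F ≤ M) {y₀ w₀ u₀ : ι → F}
    (h0 : HasTv f M y₀ w₀) (hw : f w₀ y₀ = 0) (hu₀ : f w₀ u₀ = 0) (hyu₀ : f y₀ u₀ ≠ 0) :
    ∀ u, f w₀ u = 0 → HasTv f M u w₀ := by
  have key : ∀ u, f w₀ u = 0 → f y₀ u ≠ 0 → HasTv f M u w₀ := by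
    intro u hu hyu
    obtain ⟨k, hkH, hkx, hkiso⟩ := exists_symp_transvection f hf u (f y₀ u)⁻¹
    have h1 := hasTv_conj f M k (hHM hkH) hkiso h0
    rw [hkx, hkx, hu, mul_zero, zero_smul, add_zero, inv_mul_cancel₀ hyu, one_smul] at h1
    have h2 := hasTv_add_left f hf M h1 (hasTv_neg_left f hf M h0 hw)
      (by rw [hf.bilinear.add_right, hw, hu, add_zero])
    rwa [add_neg_cancel_comm] at h2
  intro u hu
  by_cases hyu : f y₀ u = 0
  · have h1 := key (u - u₀) (by rw [symp_sub_right f hf, hu, hu₀, sub_zero])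
      (by rw [symp_sub_right f hf, hyu, zero_sub]; exact neg_ne_zero.mpr hyu₀)
    have h2 := key u₀ hu₀ hyu₀
    have h3 := hasTv_add_left f hf M h1 h2 (by rw [symp_sub_right f hf, hu, hu₀, sub_zero])
    rwa [sub_add_cancel] at h3
  · exact key u hu hyu

include hf in
lemma hasTv_all_right (M : Subgroup (GL ι F))
    (hHM : similarityGroup f ⊓ specialLinear ι F ≤ M) {y₁ w₀ u₁ : ι → F}
    (h0 : HasTv f M y₁ w₀) (hw : f w₀ y₁ = 0) (hu₁ : f u₁ y₁ = 0) (hwu₁ : f w₀ u₁ ≠ 0) :
    ∀ w, f w y₁ = 0 → HasTv f M y₁ w := by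
  have key : ∀ u, f u y₁ = 0 → f w₀ u ≠ 0 → HasTv f M y₁ u := by
    intro u hu hwu
    obtain ⟨k, hkH, hkx, hkiso⟩ := exists_symp_transvection f hf u (f w₀ u)⁻¹
    have h1 := hasTv_conj f M k (hHM hkH) hkiso h0
    have hyu : f y₁ u = 0 := by rw [hf.skew, hu, neg_zero]
    rw [hkx, hkx, hyu, mul_zero, zero_smul, add_zero, inv_mul_cancel₀ hwu, one_smul] at h1
    have h2 := hasTv_add_right f hf M h1 (hasTv_neg_right f hf M h0 hw)
      (by rw [symp_neg_left f hf, hw, neg_zero])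
    rwa [add_neg_cancel_comm] at h2
  intro w hwy
  by_cases hww : f w₀ w = 0
  · have h1 := key (w - u₁) (by rw [symp_sub_left f hf, hwy, hu₁, sub_zero])
      (by rw [symp_sub_right f hf, hww, zero_sub]; exact neg_ne_zero.mpr hwu₁)
    have h2 := key u₁ hu₁ hwu₁
    have h3 := hasTv_add_right f hf M h1 h2 hu₁
    rwa [sub_add_cancel] at h3
  · exact key w hwy hww

include hf in
/-- A matrix that is not a similarity has an inverse not preserving perpendicularity. -/
lemma exists_not_perp_of_not_sim (g : GL ι F) (hg : g ∉ similarityGroup f) :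
    ∃ u₀ w₀, f u₀ w₀ = 0 ∧
      f (((g⁻¹ : GL ι F) : Matrix ι ι F) *ᵥ u₀) (((g⁻¹ : GL ι F) : Matrix ι ι F) *ᵥ w₀) ≠ 0 := by
  by_contra hcon
  push Not at hcon
  apply hg
  have hkey : ∀ b : ι → F, b ≠ 0 → ∃ l : F, ∀ a,
      f (((g⁻¹ : GL ι F) : Matrix ι ι F) *ᵥ a) (((g⁻¹ : GL ι F) : Matrix ι ι F) *ᵥ b)
        = l * f a b := by
    intro b hb
    obtain ⟨⟨a₀, ha₀⟩, -⟩ := hf.nondegenerate b hb
    refine ⟨f (((g⁻¹ : GL ι F) : Matrix ι ι F) *ᵥ a₀)
      (((g⁻¹ : GL ι F) : Matrix ι ι F) *ᵥ b) / f a₀ b, fun a => ?_⟩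
    have h1 := hcon (a - (f a b / f a₀ b) • a₀) b
      (by rw [symp_sub_left f hf, hf.bilinear.smul_left, div_mul_cancel₀ _ ha₀, sub_self])
    rw [Matrix.mulVec_sub, Matrix.mulVec_smul, symp_sub_left f hf, hf.bilinear.smul_left] at h1
    field_simp
    field_simp at h1
    linear_combination h1
  have hskew : ∀ a b : ι → F,
      f (((g⁻¹ : GL ι F) : Matrix ι ι F) *ᵥ a) (((g⁻¹ : GL ι F) : Matrix ι ι F) *ᵥ b)
        = - f (((g⁻¹ : GL ι F) : Matrix ι ι F) *ᵥ b) (((g⁻¹ : GL ι F) : Matrix ι ι F) *ᵥ a) :=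
    fun a b => hf.skew _ _
  have hsame : ∀ b₁ b₂ : ι → F, f b₁ b₂ ≠ 0 → ∀ l₁ l₂ : F,
      (∀ a, f (((g⁻¹ : GL ι F) : Matrix ι ι F) *ᵥ a) (((g⁻¹ : GL ι F) : Matrix ι ι F) *ᵥ b₁)
        = l₁ * f a b₁) →
      (∀ a, f (((g⁻¹ : GL ι F) : Matrix ι ι F) *ᵥ a) (((g⁻¹ : GL ι F) : Matrix ι ι F) *ᵥ b₂)
        = l₂ * f a b₂) → l₁ = l₂ := by
    intro b₁ b₂ hb l₁ l₂ h1 h2
    have e1 := h2 b₁
    have e2 := h1 b₂
    rw [hskew, e2, hf.skew b₂ b₁] at e1
    have e3 : (l₁ - l₂) * f b₁ b₂ = 0 := by linear_combination e1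
    rcases mul_eq_zero.mp e3 with h | h
    · exact sub_eq_zero.mp h
    · exact absurd h hb
  by_cases hall : ∀ b : ι → F, b = 0
  · refine ⟨1, fun u v => ?_⟩
    rw [hall ((g : Matrix ι ι F) *ᵥ u), hall u, symp_zero_left f hf, symp_zero_left f hf,
      mul_zero]
  push Not at hall
  obtain ⟨b₀, hb₀⟩ := hall
  obtain ⟨l, hl⟩ := hkey b₀ hb₀
  have hlall : ∀ a b : ι → F,
      f (((g⁻¹ : GL ι F) : Matrix ι ι F) *ᵥ a) (((g⁻¹ : GL ι F) : Matrix ι ι F) *ᵥ b)
        = l * f a b := by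
    intro a b
    by_cases hb : b = 0
    · rw [hb, Matrix.mulVec_zero, symp_zero_right f hf, symp_zero_right f hf, mul_zero]
    · obtain ⟨l', hl'⟩ := hkey b hb
      obtain ⟨z, hz₀, hz⟩ := exists_symp_both f hf hb₀ hb
      have hz0 : z ≠ 0 := by
        rintro rfl
        exact hz₀ (symp_zero_right f hf b₀)
      obtain ⟨lz, hlz⟩ := hkey z hz0
      have e1 := hsame b₀ z hz₀ l lz hl hlz
      have e2 := hsame b z hz l' lz hl' hlz
      rw [hl' a, e2, ← e1]
  have hl0 : l ≠ 0 := by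
    rintro rfl
    obtain ⟨⟨x, hx⟩, -⟩ := hf.nondegenerate (((g⁻¹ : GL ι F) : Matrix ι ι F) *ᵥ b₀)
      (by
        intro h0
        apply hb₀
        apply gl_mulVec_injective (g⁻¹ : GL ι F)
        rw [h0, Matrix.mulVec_zero])
    have h1 := hlall ((g : Matrix ι ι F) *ᵥ x) b₀
    rw [gl_inv_mulVec_mulVec, zero_mul] at h1
    exact hx h1
  refine ⟨(Units.mk0 l hl0)⁻¹, fun u v => ?_⟩
  have h1 := hlall ((g : Matrix ι ι F) *ᵥ u) ((g : Matrix ι ι F) *ᵥ v)
  rw [gl_inv_mulVec_mulVec, gl_inv_mulVec_mulVec] at h1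
  rw [h1, Units.val_inv_eq_inv_val, Units.val_mk0, inv_mul_cancel_left₀ hl0]

include hf in
/-- A subgroup properly containing the symplectic similarities of determinant one contains all
the transvections `x ↦ x + f x y • w`. -/
theorem hasTv_all (hn : 5 ≤ Fintype.card ι) (M : Subgroup (GL ι F))
    (hHM : similarityGroup f ⊓ specialLinear ι F ≤ M) (g : GL ι F) (hgM : g ∈ M)
    (hg : g ∉ similarityGroup f) :
    ∀ y w : ι → F, f w y = 0 → HasTv f M y w := by
  classical
  obtain ⟨u₀, w₀, hu₀, hne⟩ := exists_not_perp_of_not_sim f hf g hg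
  -- the conjugate of a symplectic transvection
  obtain ⟨y₀, hy₀⟩ := exists_symp_repr f hf
    ((sympL f hf (((g⁻¹ : GL ι F) : Matrix ι ι F) *ᵥ w₀)).comp
      (Matrix.toLin' ((g⁻¹ : GL ι F) : Matrix ι ι F)))
  have hy₀' : ∀ x, f x y₀ = f (((g⁻¹ : GL ι F) : Matrix ι ι F) *ᵥ x)
      (((g⁻¹ : GL ι F) : Matrix ι ι F) *ᵥ w₀) := by
    intro x
    rw [hy₀ x, LinearMap.comp_apply, Matrix.toLin'_apply, sympL_apply]
  have h0 : HasTv f M y₀ w₀ := by
    obtain ⟨k, hkH, hkx, -⟩ := exists_symp_transvection f hf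
      (((g⁻¹ : GL ι F) : Matrix ι ι F) *ᵥ w₀) 1
    refine ⟨g * k * g⁻¹, M.mul_mem (M.mul_mem hgM (hHM hkH)) (M.inv_mem hgM), fun x => ?_⟩
    rw [gl_mul_mulVec, gl_mul_mulVec, hkx, Matrix.mulVec_add, Matrix.mulVec_smul,
      gl_mulVec_inv_mulVec, gl_mulVec_inv_mulVec, one_mul, hy₀']
  have hw₀y₀ : f w₀ y₀ = 0 := by rw [hy₀', hf.alternating]
  have hw₀u₀ : f w₀ u₀ = 0 := by rw [hf.skew, hu₀, neg_zero]
  have hy₀u₀ : f y₀ u₀ ≠ 0 := by
    rw [hf.skew, hy₀']
    exact neg_ne_zero.mpr hne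
  have hw₀0 : w₀ ≠ 0 := by
    rintro rfl
    apply hne
    rw [Matrix.mulVec_zero, symp_zero_right f hf]
  have hA := hasTv_all_left f hf M hHM h0 hw₀y₀ hw₀u₀ hy₀u₀
  obtain ⟨-, ⟨u₁, hu₁⟩⟩ := hf.nondegenerate w₀ hw₀0
  have hC : ∀ y₁, f w₀ y₁ = 0 → f u₁ y₁ = 0 → ∀ w, f w y₁ = 0 → HasTv f M y₁ w :=
    fun y₁ h1 h2 => hasTv_all_right f hf M hHM (hA y₁ h1) h1 h2 hu₁
  intro y w hwy
  by_cases hw0 : w = 0
  · refine ⟨1, M.one_mem, fun x => ?_⟩
    rw [hw0, Units.val_one, Matrix.one_mulVec, smul_zero, add_zero]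
  obtain ⟨y₁, hy₁, hy₁w⟩ := exists_perp_not_smul f hf hn {w₀, u₁, w} Finset.card_le_three w
  have hwy₁ : f w y₁ = 0 := hy₁ w (by simp)
  have h1 := hC y₁ (hy₁ w₀ (by simp)) (hy₁ u₁ (by simp)) w hwy₁
  obtain ⟨u, hwu, hy₁u⟩ := exists_perp_sep f hf hw0 hy₁w
  exact hasTv_all_left f hf M hHM h1 hwy₁ hwu hy₁u y hwy

include hf in
/-- The symplectic similarities of determinant one form a maximal subgroup of `SL`. -/
theorem sl_symp_max (hn : 5 ≤ Fintype.card ι) :
    IsMaximalIn (specialLinear ι F) (similarityGroup f ⊓ specialLinear ι F) := by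
  classical
  have : Nontrivial ι := Fintype.one_lt_card_iff_nontrivial.mp (by omega)
  constructor
  · refine lt_of_le_of_ne inf_le_right ?_
    intro heq
    obtain ⟨i⟩ : Nonempty ι := inferInstance
    have hw0 : (Pi.single i 1 : ι → F) ≠ 0 := by
      intro h
      have := congrFun h i
      simp at this
    obtain ⟨w, hw⟩ : ∃ w : ι → F, w = Pi.single i 1 := ⟨_, rfl⟩
    rw [← hw] at hw0
    obtain ⟨y, hy, hyw⟩ := exists_perp_not_smul f hf hn {w} (by simp) w
    have hwy : f w y = 0 := hy w (by simp)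
    have hwy' : sympL f hf y w = 0 := hwy
    have hmem : Cfsg.Agent.Lib.Helper93.tvGL (sympL f hf y) w hwy'
        ∈ similarityGroup f ⊓ specialLinear ι F := by
      rw [heq]
      exact Cfsg.Agent.Lib.Helper93.tvGL_mem_SL _ _ _
    obtain ⟨c, hc⟩ := hmem.1
    have hx : ∀ x, ((Cfsg.Agent.Lib.Helper93.tvGL (sympL f hf y) w hwy' : GL ι F) :
        Matrix ι ι F) *ᵥ x = x + f x y • w := fun x => by
      rw [Cfsg.Agent.Lib.Helper93.tvGL_mulVec, sympL_apply]
    obtain ⟨⟨a, ha⟩, -⟩ := hf.nondegenerate w hw0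
    have hc1 : (c : F) = 1 := by
      have h1 := hc a w
      rw [hx, hx, hwy, zero_smul, add_zero, hf.bilinear.add_left, hf.bilinear.smul_left,
        hf.alternating, mul_zero, add_zero] at h1
      have h2 : ((c : F) - 1) * f a w = 0 := by linear_combination -h1
      rcases mul_eq_zero.mp h2 with h | h
      · linear_combination h
      · exact absurd h ha
    obtain ⟨u, hwu, hyu⟩ := exists_perp_sep f hf hw0 hyw
    have h3 := hc a u
    rw [hx, hx, hc1, one_mul] at h3
    simp only [hf.bilinear.add_left, hf.bilinear.add_right, hf.bilinear.smul_left,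
      hf.bilinear.smul_right, hf.alternating, hwu] at h3
    have huy : f u y ≠ 0 := by
      rw [hf.skew]
      exact neg_ne_zero.mpr hyu
    have h4 : f u y * f a w = 0 := by linear_combination h3
    rcases mul_eq_zero.mp h4 with h | h
    · exact huy h
    · exact ha h
  · intro M hHM hMS
    by_cases hMH : M = similarityGroup f ⊓ specialLinear ι F
    · exact Or.inl hMH
    right
    apply le_antisymm hMS
    have hnle : ¬ M ≤ similarityGroup f ⊓ specialLinear ι F :=
      fun h => hMH (le_antisymm h hHM)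
    obtain ⟨g, hgM, hgH⟩ := SetLike.not_le_iff_exists.mp hnle
    have hg : g ∉ similarityGroup f := fun h => hgH ⟨h, hMS hgM⟩
    have hall := hasTv_all f hf hn M hHM g hgM hg
    apply sl_le_of_tvGL
    intro φ v h
    obtain ⟨y, hy⟩ := exists_symp_repr f hf φ
    obtain ⟨k, hkM, hkx⟩ := hall y v (by rw [hy, h])
    have e : Cfsg.Agent.Lib.Helper93.tvGL φ v h = k := by
      apply gl_ext
      intro x
      rw [Cfsg.Agent.Lib.Helper93.tvGL_mulVec, hkx, hy]
    rw [e]
    exact hkM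

end symp

end Cfsg.Agent.Lib.Helper94
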