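import Cfsg.Agent.Lib.Helper94.UnitIso

set_option autoImplicit false
set_option linter.unusedSectionVars false

namespace Cfsg.Agent.Lib.Helper94

open Cfsg Cfsg.Geo
open scoped MatrixGroups Matrix

variable {F : Type*} [Field F] {ι : Type} [Fintype ι] [DecidableEq ι]

section ugroup

variable (σ : F ≃+* F) (f : (ι → F) → (ι → F) → F) (hf : IsUnitaryForm σ f)

include hf in
lemma uhasTv_add_left (M : Subgroup (GL ι F)) {y y' w : ι → F} (h : HasTv f M y w)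
    (h' : HasTv f M y' w) (hw : f w y = 0) : HasTv f M (y + y') w := by
  obtain ⟨g, hg, hgx⟩ := h
  obtain ⟨g', hg', hgx'⟩ := h'
  refine ⟨g * g', M.mul_mem hg hg', fun x => ?_⟩
  rw [gl_mul_mulVec, hgx', hgx, hf.add_left, hf.smul_left, hw, mul_zero, add_zero,
    uf_add_right σ f hf]
  module

include hf in
lemma uhasTv_neg_left (M : Subgroup (GL ι F)) {y w : ι → F} (h : HasTv f M y w)
    (hw : f w y = 0) : HasTv f M (-y) w := by
  obtain ⟨g, hg, hgx⟩ := h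
  refine ⟨g⁻¹, M.inv_mem hg, fun x => ?_⟩
  apply gl_mulVec_injective g
  rw [gl_mulVec_inv_mulVec, hgx, hf.add_left, hf.smul_left, hw, mul_zero, add_zero,
    uf_neg_right σ f hf]
  module

include hf in
lemma uhasTv_add_right (M : Subgroup (GL ι F)) {y w w' : ι → F} (h : HasTv f M y w)
    (h' : HasTv f M y w') (hw : f w' y = 0) : HasTv f M y (w + w') := by
  obtain ⟨g, hg, hgx⟩ := h
  obtain ⟨g', hg', hgx'⟩ := h'
  refine ⟨g * g', M.mul_mem hg hg', fun x => ?_⟩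
  rw [gl_mul_mulVec, hgx', hgx, hf.add_left, hf.smul_left, hw, mul_zero, add_zero]
  module

include hf in
lemma uhasTv_neg_right (M : Subgroup (GL ι F)) {y w : ι → F} (h : HasTv f M y w)
    (hw : f w y = 0) : HasTv f M y (-w) := by
  obtain ⟨g, hg, hgx⟩ := uhasTv_neg_left σ f hf M h hw
  refine ⟨g, hg, fun x => ?_⟩
  rw [hgx, uf_neg_right σ f hf]
  module

include hf in
lemma uhasTv_smul (M : Subgroup (GL ι F)) (c : F) (y w : ι → F) :
    HasTv f M (c • y) w ↔ HasTv f M y (σ c • w) := by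
  constructor
  · rintro ⟨g, hg, hgx⟩
    refine ⟨g, hg, fun x => ?_⟩
    rw [hgx, uf_smul_right σ f hf, smul_smul, mul_comm]
  · rintro ⟨g, hg, hgx⟩
    refine ⟨g, hg, fun x => ?_⟩
    rw [hgx, uf_smul_right σ f hf, smul_smul, mul_comm]

include hf in
/-- The unitary transvections. -/
lemma exists_unit_transvection (u : ι → F) (hu : f u u = 0) (b : F) (hb : σ b = -b) :
    ∃ k : GL ι F, k ∈ similarityGroup f ⊓ specialLinear ι F ∧
      (∀ x, (k : Matrix ι ι F) *ᵥ x = x + (b * f x u) • u) ∧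
      ∀ x y, f ((k : Matrix ι ι F) *ᵥ x) ((k : Matrix ι ι F) *ᵥ y) = f x y := by
  have h0 : (b • uL σ f hf u) u = 0 := by
    rw [LinearMap.smul_apply, uL_apply, hu, smul_zero]
  have hx : ∀ x, ((Cfsg.Agent.Lib.Helper93.tvGL (b • uL σ f hf u) u h0 : GL ι F) :
      Matrix ι ι F) *ᵥ x = x + (b * f x u) • u := by
    intro x
    rw [Cfsg.Agent.Lib.Helper93.tvGL_mulVec, LinearMap.smul_apply, uL_apply, smul_eq_mul]
  have hiso : ∀ x y, f (((Cfsg.Agent.Lib.Helper93.tvGL (b • uL σ f hf u) u h0 : GL ι F) :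
      Matrix ι ι F) *ᵥ x) (((Cfsg.Agent.Lib.Helper93.tvGL (b • uL σ f hf u) u h0 : GL ι F) :
      Matrix ι ι F) *ᵥ y) = f x y := by
    intro x y
    rw [hx, hx]
    simp only [hf.add_left, uf_add_right σ f hf, hf.smul_left, uf_smul_right σ f hf, hu,
      map_mul, hb]
    rw [← hf.herm u y]
    ring
  exact ⟨_, ⟨⟨1, fun a b => by rw [hiso, Units.val_one, one_mul]⟩,
    Cfsg.Agent.Lib.Helper93.tvGL_mem_SL _ _ _⟩, hx, hiso⟩

include hf in
/-- The unitary Siegel transformations. -/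
lemma exists_siegel (u' v : ι → F) (hu' : f u' u' = 0) (hv : f v v = 0) (huv : f u' v = 0) :
    ∃ ρ : GL ι F, ρ ∈ similarityGroup f ⊓ specialLinear ι F ∧
      (∀ x, (ρ : Matrix ι ι F) *ᵥ x = x + f x v • u' - f x u' • v) ∧
      ∀ x y, f ((ρ : Matrix ι ι F) *ᵥ x) ((ρ : Matrix ι ι F) *ᵥ y) = f x y := by
  have hvu : f v u' = 0 := uf_symm_zero σ f hf huv
  have h1 : (uL σ f hf v) u' = 0 := huv
  have h2 : (-(uL σ f hf u')) v = 0 := by
    rw [LinearMap.neg_apply, uL_apply, hvu, neg_zero]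
  have hx : ∀ x, ((Cfsg.Agent.Lib.Helper93.tvGL (uL σ f hf v) u' h1 *
      Cfsg.Agent.Lib.Helper93.tvGL (-(uL σ f hf u')) v h2 : GL ι F) : Matrix ι ι F) *ᵥ x
        = x + f x v • u' - f x u' • v := by
    intro x
    rw [gl_mul_mulVec, Cfsg.Agent.Lib.Helper93.tvGL_mulVec,
      Cfsg.Agent.Lib.Helper93.tvGL_mulVec, LinearMap.neg_apply, uL_apply, uL_apply,
      hf.add_left, hf.smul_left, hv, mul_zero, add_zero]
    module
  have hiso : ∀ x y, f (((Cfsg.Agent.Lib.Helper93.tvGL (uL σ f hf v) u' h1 *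
      Cfsg.Agent.Lib.Helper93.tvGL (-(uL σ f hf u')) v h2 : GL ι F) : Matrix ι ι F) *ᵥ x)
      (((Cfsg.Agent.Lib.Helper93.tvGL (uL σ f hf v) u' h1 *
      Cfsg.Agent.Lib.Helper93.tvGL (-(uL σ f hf u')) v h2 : GL ι F) : Matrix ι ι F) *ᵥ y)
        = f x y := by
    intro x y
    rw [hx, hx]
    simp only [hf.add_left, uf_add_right σ f hf, uf_sub_left σ f hf, uf_sub_right σ f hf,
      hf.smul_left, uf_smul_right σ f hf, hu', hv, huv, hvu]
    rw [← hf.herm v y, ← hf.herm u' y]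
    ring
  refine ⟨_, ⟨⟨1, fun a b => by rw [hiso, Units.val_one, one_mul]⟩, ?_⟩, hx, hiso⟩
  exact Subgroup.mul_mem _ (Cfsg.Agent.Lib.Helper93.tvGL_mem_SL _ _ _)
    (Cfsg.Agent.Lib.Helper93.tvGL_mem_SL _ _ _)

include hf in
lemma uhasTv_stepA (M : Subgroup (GL ι F))
    (hHM : similarityGroup f ⊓ specialLinear ι F ≤ M) {y₀ w₀ u : ι → F}
    (h0 : HasTv f M y₀ w₀) (hw : f w₀ y₀ = 0) (hu : f u u = 0) (huw : f w₀ u = 0)
    (b : F) (hb : σ b = -b) : HasTv f M ((b * f y₀ u) • u) w₀ := by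
  obtain ⟨k, hkH, hkx, hkiso⟩ := exists_unit_transvection σ f hf u hu b hb
  have h1 := hasTv_conj f M k (hHM hkH) hkiso h0
  rw [hkx, hkx, huw, mul_zero, zero_smul, add_zero] at h1
  have h2 := uhasTv_add_left σ f hf M h1 (uhasTv_neg_left σ f hf M h0 hw)
    (by rw [uf_add_right σ f hf, hw, uf_smul_right σ f hf, huw, mul_zero, add_zero])
  rwa [add_neg_cancel_comm] at h2

include hf in
lemma uhasTv_stepA' (M : Subgroup (GL ι F))
    (hHM : similarityGroup f ⊓ specialLinear ι F ≤ M) {y₀ w₀ u : ι → F}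
    (h0 : HasTv f M y₀ w₀) (hw : f w₀ y₀ = 0) (hu : f u u = 0) (huy : f y₀ u = 0)
    (b : F) (hb : σ b = -b) : HasTv f M y₀ ((b * f w₀ u) • u) := by
  obtain ⟨k, hkH, hkx, hkiso⟩ := exists_unit_transvection σ f hf u hu b hb
  have h1 := hasTv_conj f M k (hHM hkH) hkiso h0
  rw [hkx, hkx, huy, mul_zero, zero_smul, add_zero] at h1
  have h2 := uhasTv_add_right σ f hf M h1 (uhasTv_neg_right σ f hf M h0 hw)
    (by rw [uf_neg_left σ f hf, hw, neg_zero])
  rwa [add_neg_cancel_comm] at h2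

include hf in
/-- A matrix that is not a similarity fails to preserve perpendicularity to some isotropic
vector. -/
lemma exists_not_perp_of_not_usim [Finite F] (hn : 7 ≤ Fintype.card ι) (g : GL ι F)
    (hg : g ∉ similarityGroup f) :
    ∃ w z, f w w = 0 ∧ f ((g : Matrix ι ι F) *ᵥ z) ((g : Matrix ι ι F) *ᵥ w) = 0 ∧
      f z w ≠ 0 := by
  classical
  by_contra hcon
  push Not at hcon
  apply hg
  have hg0 : ∀ w : ι → F, w ≠ 0 → (g : Matrix ι ι F) *ᵥ w ≠ 0 := by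
    intro w hw h0
    apply hw
    apply gl_mulVec_injective g
    rw [h0, Matrix.mulVec_zero]
  have hkey : ∀ w : ι → F, f w w = 0 → w ≠ 0 → ∃ l : F, ∀ z,
      f z w = l * f ((g : Matrix ι ι F) *ᵥ z) ((g : Matrix ι ι F) *ᵥ w) := by
    intro w hw hw0
    obtain ⟨⟨a', ha'⟩, -⟩ := hf.nondegenerate _ (hg0 w hw0)
    obtain ⟨a, rfl⟩ : ∃ a, (g : Matrix ι ι F) *ᵥ a = a' :=
      ⟨((g⁻¹ : GL ι F) : Matrix ι ι F) *ᵥ a', gl_mulVec_inv_mulVec g a'⟩
    refine ⟨f a w / f ((g : Matrix ι ι F) *ᵥ a) ((g : Matrix ι ι F) *ᵥ w), fun z => ?_⟩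
    have h1 := hcon w (z - (f ((g : Matrix ι ι F) *ᵥ z) ((g : Matrix ι ι F) *ᵥ w) /
      f ((g : Matrix ι ι F) *ᵥ a) ((g : Matrix ι ι F) *ᵥ w)) • a) hw (by
        rw [Matrix.mulVec_sub, Matrix.mulVec_smul, uf_sub_left σ f hf, hf.smul_left,
          div_mul_cancel₀ _ ha', sub_self])
    rw [uf_sub_left σ f hf, hf.smul_left] at h1
    linear_combination h1
  have hadj : ∀ w₁ w₂ : ι → F, f w₁ w₂ ≠ 0 → ∀ l₁ l₂ : F,
      (∀ z, f z w₁ = l₁ * f ((g : Matrix ι ι F) *ᵥ z) ((g : Matrix ι ι F) *ᵥ w₁)) →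
      (∀ z, f z w₂ = l₂ * f ((g : Matrix ι ι F) *ᵥ z) ((g : Matrix ι ι F) *ᵥ w₂)) →
      l₂ = σ l₁ := by
    intro w₁ w₂ h12 l₁ l₂ h1 h2
    have e2 := h2 w₁
    have e1 := congrArg σ (h1 w₂)
    rw [map_mul, ← hf.herm, ← hf.herm] at e1
    have hne : f ((g : Matrix ι ι F) *ᵥ w₁) ((g : Matrix ι ι F) *ᵥ w₂) ≠ 0 := by
      intro h0
      rw [h0, mul_zero] at e2
      exact h12 e2
    have e3 : (l₂ - σ l₁) * f ((g : Matrix ι ι F) *ᵥ w₁) ((g : Matrix ι ι F) *ᵥ w₂) = 0 := by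
      linear_combination e1 - e2
    rcases mul_eq_zero.mp e3 with h | h
    · exact sub_eq_zero.mp h
    · exact absurd h hne
  have hfixed : ∀ w : ι → F, f w w = 0 → w ≠ 0 → ∀ l : F,
      (∀ z, f z w = l * f ((g : Matrix ι ι F) *ᵥ z) ((g : Matrix ι ι F) *ᵥ w)) → σ l = l := by
    intro w hw hw0 l hl
    obtain ⟨w₂, w₃, hw₂, hw₃, h12, h23, h13⟩ :=
      exists_isotropic_triangle σ f hf (by omega) hw hw0
    have hw₂0 : w₂ ≠ 0 := by
      rintro rfl
      exact h12 (uf_zero_right σ f hf w)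
    have hw₃0 : w₃ ≠ 0 := by
      rintro rfl
      exact h13 (uf_zero_right σ f hf w)
    obtain ⟨l₂, hl₂⟩ := hkey w₂ hw₂ hw₂0
    obtain ⟨l₃, hl₃⟩ := hkey w₃ hw₃ hw₃0
    have e1 := hadj w w₂ h12 l l₂ hl hl₂
    have e2 := hadj w₂ w₃ h23 l₂ l₃ hl₂ hl₃
    have e3 := hadj w₃ w (uf_symm_ne σ f hf h13) l₃ l hl₃ hl
    calc σ l = σ (σ l₃) := by rw [← e3]
      _ = l₃ := hf.involutive _
      _ = σ l₂ := e2
      _ = σ (σ l) := by rw [← e1]
      _ = l := hf.involutive _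
  obtain ⟨w₀, hw₀, hw₀0⟩ := exists_isotropic_ne_zero σ f hf (by omega)
  obtain ⟨l₀, hl₀⟩ := hkey w₀ hw₀ hw₀0
  have hl₀fix := hfixed w₀ hw₀ hw₀0 l₀ hl₀
  have hiso : ∀ w : ι → F, f w w = 0 → ∀ z,
      f z w = l₀ * f ((g : Matrix ι ι F) *ᵥ z) ((g : Matrix ι ι F) *ᵥ w) := by
    intro w hw z
    by_cases hw0 : w = 0
    · rw [hw0, Matrix.mulVec_zero, uf_zero_right σ f hf, uf_zero_right σ f hf, mul_zero]
    obtain ⟨c, hc, hc1, hc2⟩ := exists_isotropic_both σ f hf hn hw₀0 hw0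
    have hc0 : c ≠ 0 := by
      rintro rfl
      exact hc1 (uf_zero_right σ f hf w₀)
    obtain ⟨lc, hlc⟩ := hkey c hc hc0
    obtain ⟨l, hl⟩ := hkey w hw hw0
    have e1 := hadj w₀ c hc1 l₀ lc hl₀ hlc
    have e2 := hadj c w (uf_symm_ne σ f hf hc2) lc l hlc hl
    rw [hl z, e2, e1, hf.involutive]
  have hall : ∀ w z : ι → F,
      f z w = l₀ * f ((g : Matrix ι ι F) *ᵥ z) ((g : Matrix ι ι F) *ᵥ w) := by
    intro w z
    obtain ⟨z₁, z₂, hz₁, hz₂, -, -, rfl⟩ :=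
      exists_isotropic_sum σ f hf ∅ (by simp; omega) w (by simp)
    rw [Matrix.mulVec_add, uf_add_right σ f hf, uf_add_right σ f hf, hiso z₁ hz₁ z,
      hiso z₂ hz₂ z]
    ring
  have hl₀0 : l₀ ≠ 0 := by
    rintro rfl
    obtain ⟨⟨x, hx⟩, -⟩ := hf.nondegenerate w₀ hw₀0
    apply hx
    rw [hl₀ x, zero_mul]
  refine ⟨(Units.mk0 l₀ hl₀0)⁻¹, fun u v => ?_⟩
  rw [hall v u, Units.val_inv_eq_inv_val, Units.val_mk0, inv_mul_cancel_left₀ hl₀0]

include hf in
/-- A subgroup properly containing the unitary similarities of determinant one contains, for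
some isotropic `u' ≠ 0`, all the transvections with centre `u'` and axis `u'^⊥`. -/
lemma exists_ufull [Finite F] (hn : 7 ≤ Fintype.card ι) (M : Subgroup (GL ι F))
    (hHM : similarityGroup f ⊓ specialLinear ι F ≤ M) (g : GL ι F) (hgM : g ∈ M)
    (hg : g ∉ similarityGroup f) :
    ∃ u' : ι → F, f u' u' = 0 ∧ u' ≠ 0 ∧ ∀ a : F, HasTv f M (a • u') u' := by
  classical
  obtain ⟨w, z, hw, hgzw, hzw⟩ := exists_not_perp_of_not_usim σ f hf hn g hg
  obtain ⟨d, hd0, hd⟩ := exists_skew_elt σ hf.ne_refl hf.involutive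
  obtain ⟨y₀, hy₀⟩ := exists_uf_repr σ f hf
    (d • (uL σ f hf w).comp (Matrix.toLin' ((g⁻¹ : GL ι F) : Matrix ι ι F)))
  have hy₀' : ∀ x, f x y₀ = d * f (((g⁻¹ : GL ι F) : Matrix ι ι F) *ᵥ x) w := by
    intro x
    rw [hy₀ x, LinearMap.smul_apply, LinearMap.comp_apply, Matrix.toLin'_apply, uL_apply,
      smul_eq_mul]
  obtain ⟨w₀, hw₀⟩ : ∃ w₀, w₀ = (g : Matrix ι ι F) *ᵥ w := ⟨_, rfl⟩
  obtain ⟨u₁, hu₁⟩ : ∃ u₁, u₁ = (g : Matrix ι ι F) *ᵥ z := ⟨_, rfl⟩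
  have h0 : HasTv f M y₀ w₀ := by
    obtain ⟨k, hkH, hkx, -⟩ := exists_unit_transvection σ f hf w hw d hd
    refine ⟨g * k * g⁻¹, M.mul_mem (M.mul_mem hgM (hHM hkH)) (M.inv_mem hgM), fun x => ?_⟩
    rw [gl_mul_mulVec, gl_mul_mulVec, hkx, Matrix.mulVec_add, Matrix.mulVec_smul,
      gl_mulVec_inv_mulVec, hy₀', hw₀]
  have hw₀y₀ : f w₀ y₀ = 0 := by rw [hy₀', hw₀, gl_inv_mulVec_mulVec, hw, mul_zero]
  have hw₀u₁ : f w₀ u₁ = 0 := by
    rw [hw₀, hu₁]
    exact uf_symm_zero σ f hf hgzw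
  have hu₁y₀ : f u₁ y₀ ≠ 0 := by
    rw [hy₀', hu₁, gl_inv_mulVec_mulVec]
    exact mul_ne_zero hd0 hzw
  have hw0 : w ≠ 0 := by
    rintro rfl
    exact hzw (uf_zero_right σ f hf z)
  have hw₀0 : w₀ ≠ 0 := by
    rw [hw₀]
    intro h0
    apply hw0
    apply gl_mulVec_injective g
    rw [h0, Matrix.mulVec_zero]
  -- the first isotropic vector
  obtain ⟨u, hu, hu1, hu2⟩ := exists_isotropic_correction σ f hf {w₀, y₀}
    (by have := Finset.card_le_two (a := w₀) (b := y₀); omega) u₁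
  have hw₀u : f w₀ u = 0 := by rw [hu2 w₀ (by simp), hw₀u₁]
  have huy₀ : f u y₀ ≠ 0 := by
    rw [hu1 y₀ (by simp)]
    exact hu₁y₀
  have hy₀u : f y₀ u ≠ 0 := uf_symm_ne σ f hf huy₀
  have hu0 : u ≠ 0 := by
    rintro rfl
    exact huy₀ (uf_zero_left σ f hf y₀)
  have h1 := uhasTv_stepA σ f hf M hHM h0 hw₀y₀ hu hw₀u d hd
  obtain ⟨c₁, hc₁⟩ : ∃ c₁, c₁ = d * f y₀ u := ⟨_, rfl⟩
  rw [← hc₁] at h1
  have hc₁0 : c₁ ≠ 0 := by
    rw [hc₁]
    exact mul_ne_zero hd0 hy₀u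
  -- the second isotropic vector
  have hsep : ∀ c : F, w₀ ≠ c • u := by
    intro c hc
    have e1 : f y₀ w₀ = 0 := uf_symm_zero σ f hf hw₀y₀
    rw [hc, uf_smul_right σ f hf] at e1
    rcases mul_eq_zero.mp e1 with h | h
    · have hc0 : c = 0 := by
        have := congrArg σ h
        rwa [hf.involutive, map_zero] at this
      apply hw₀0
      rw [hc, hc0, zero_smul]
    · exact hy₀u h
  obtain ⟨x₀, hx₀1, hx₀2⟩ := exists_uperp_sep σ f hf hu0 hsep
  obtain ⟨u', hu', hu'1, hu'2⟩ := exists_isotropic_correction σ f hf {u, w₀}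
    (by have := Finset.card_le_two (a := u) (b := w₀); omega) x₀
  have huu' : f u u' = 0 := by rw [hu'2 u (by simp), hx₀1]
  have hu'u : f u' u = 0 := uf_symm_zero σ f hf huu'
  have hw₀u' : f w₀ u' ≠ 0 := by
    rw [hu'2 w₀ (by simp)]
    exact hx₀2
  have h2 := uhasTv_stepA' σ f hf M hHM h1
    (by rw [uf_smul_right σ f hf, hw₀u, mul_zero]) hu'
    (by rw [hf.smul_left, huu', mul_zero]) d hd
  obtain ⟨c₂, hc₂⟩ : ∃ c₂, c₂ = d * f w₀ u' := ⟨_, rfl⟩
  rw [← hc₂] at h2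
  have hc₂0 : c₂ ≠ 0 := by
    rw [hc₂]
    exact mul_ne_zero hd0 hw₀u'
  have hu'0 : u' ≠ 0 := by
    rintro rfl
    exact hw₀u' (uf_zero_right σ f hf w₀)
  -- the third isotropic vector
  have hsep' : ∀ c : F, u ≠ c • u' := by
    intro c hc
    have e1 := hw₀u
    rw [hc, uf_smul_right σ f hf] at e1
    rcases mul_eq_zero.mp e1 with h | h
    · have hc0 : c = 0 := by
        have := congrArg σ h
        rwa [hf.involutive, map_zero] at this
      apply hu0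
      rw [hc, hc0, zero_smul]
    · exact hw₀u' h
  obtain ⟨x₁, hx₁1, hx₁2⟩ := exists_uperp_sep σ f hf hu'0 hsep'
  obtain ⟨v₀, hv₀, hv₀1, hv₀2⟩ := exists_isotropic_correction σ f hf {u', u}
    (by have := Finset.card_le_two (a := u') (b := u); omega) x₁
  have hu'v₀ : f u' v₀ = 0 := by rw [hv₀2 u' (by simp), hx₁1]
  have huv₀ : f u v₀ ≠ 0 := by
    rw [hv₀2 u (by simp)]
    exact hx₁2
  have hv₀u : f v₀ u ≠ 0 := uf_symm_ne σ f hf huv₀
  have hσc₁ : σ c₁ ≠ 0 := by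
    intro h
    apply hc₁0
    have := congrArg σ h
    rwa [hf.involutive, map_zero] at this
  refine ⟨u', hu', hu'0, fun a => ?_⟩
  obtain ⟨l, hl⟩ : ∃ l : F, l = σ a / (f v₀ u * (σ c₁ * c₂)) := ⟨_, rfl⟩
  have hl' : l * (f v₀ u * (σ c₁ * c₂)) = σ a := by
    rw [hl]
    exact div_mul_cancel₀ _ (mul_ne_zero hv₀u (mul_ne_zero hσc₁ hc₂0))
  obtain ⟨ρ, hρH, hρx, hρiso⟩ := exists_siegel σ f hf u' (l • v₀) hu'
    (by rw [hf.smul_left, uf_smul_right σ f hf, hv₀, mul_zero, mul_zero])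
    (by rw [uf_smul_right σ f hf, hu'v₀, mul_zero])
  have h3 := hasTv_conj f M ρ (hHM hρH) hρiso h2
  have e1 : (ρ : Matrix ι ι F) *ᵥ (c₁ • u) = c₁ • u + (c₁ * f u (l • v₀)) • u' := by
    rw [hρx, hf.smul_left, hf.smul_left, huu', mul_zero, zero_smul, sub_zero]
  have e2 : (ρ : Matrix ι ι F) *ᵥ (c₂ • u') = c₂ • u' := by
    rw [hρx, hf.smul_left, hf.smul_left, hu', mul_zero, zero_smul, sub_zero,
      uf_smul_right σ f hf, hu'v₀, mul_zero, mul_zero, zero_smul, add_zero]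
  rw [e1, e2] at h3
  have h4 := uhasTv_add_left σ f hf M h3 (uhasTv_neg_left σ f hf M h2
    (by rw [hf.smul_left, uf_smul_right σ f hf, hu'u, mul_zero, mul_zero]))
    (by rw [hf.smul_left, uf_add_right σ f hf, uf_smul_right σ f hf, uf_smul_right σ f hf,
      hu'u, hu', mul_zero, mul_zero, add_zero, mul_zero])
  rw [add_neg_cancel_comm] at h4
  obtain ⟨k, hk, hkx⟩ := h4
  refine ⟨k, hk, fun x => ?_⟩
  rw [hkx]
  simp only [uf_smul_right σ f hf, smul_smul]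
  congr 2
  rw [map_mul, map_mul, hf.involutive, ← hf.herm v₀ u]
  linear_combination (f x u') * hl'

include hf in
/-- Fullness propagates along non-perpendicular isotropic vectors. -/
lemma ufull_propagate (M : Subgroup (GL ι F))
    (hHM : similarityGroup f ⊓ specialLinear ι F ≤ M) {w₀ w₁ : ι → F} (hw₀ : f w₀ w₀ = 0)
    (hw₁ : f w₁ w₁ = 0) (h01 : f w₀ w₁ ≠ 0) (h : ∀ a : F, HasTv f M (a • w₀) w₀) :
    ∀ a : F, HasTv f M (a • w₁) w₁ := by
  obtain ⟨d, hd0, hd⟩ := exists_skew_elt σ hf.ne_refl hf.involutive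
  obtain ⟨β, hβ⟩ : ∃ β, β = f w₀ w₁ := ⟨_, rfl⟩
  obtain ⟨μ, hμ⟩ : ∃ μ, μ = σ (d / β) := ⟨_, rfl⟩
  have hσμ : σ μ = d / β := by rw [hμ, hf.involutive]
  have hβ0 : β ≠ 0 := by
    rw [hβ]
    exact h01
  have hσμ0 : σ μ ≠ 0 := by
    rw [hσμ]
    exact div_ne_zero hd0 hβ0
  have hμ0 : μ ≠ 0 := by
    intro h0
    rw [h0, map_zero] at hσμ0
    exact hσμ0 rfl
  have h10 : f w₁ w₀ = σ β := by
    rw [hβ]
    exact hf.herm _ _
  have e1 : μ * σ β = -d := by rw [hμ, ← map_mul, div_mul_cancel₀ _ hβ0, hd]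
  have e2 : d / β * β = d := div_mul_cancel₀ _ hβ0
  have hu : f (w₀ + μ • w₁) (w₀ + μ • w₁) = 0 := by
    simp only [hf.add_left, uf_add_right σ f hf, hf.smul_left, uf_smul_right σ f hf, hw₀, hw₁,
      h10, ← hβ, hσμ]
    linear_combination e1 + e2
  obtain ⟨k, hkH, hkx, hkiso⟩ := exists_unit_transvection σ f hf (w₀ + μ • w₁) hu (-d⁻¹)
    (by rw [map_neg, map_inv₀, hd]; field_simp)
  have hkw₀ : (k : Matrix ι ι F) *ᵥ w₀ = (-μ) • w₁ := by
    rw [hkx, uf_add_right σ f hf, uf_smul_right σ f hf, hw₀, ← hβ, hσμ, zero_add, e2, neg_mul,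
      inv_mul_cancel₀ hd0]
    module
  intro a
  have h1 := hasTv_conj f M k (hHM hkH) hkiso (h (a / (μ * σ μ)))
  rw [Matrix.mulVec_smul, hkw₀] at h1
  obtain ⟨g, hg, hgx⟩ := h1
  refine ⟨g, hg, fun x => ?_⟩
  rw [hgx]
  simp only [uf_smul_right σ f hf, smul_smul]
  congr 2
  rw [map_mul, map_div₀, map_mul, hf.involutive, map_neg]
  field_simp

include hf in
lemma ufull_all [Finite F] (hn : 7 ≤ Fintype.card ι) (M : Subgroup (GL ι F))
    (hHM : similarityGroup f ⊓ specialLinear ι F ≤ M) (g : GL ι F) (hgM : g ∈ M)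
    (hg : g ∉ similarityGroup f) :
    ∀ w : ι → F, f w w = 0 → ∀ a : F, HasTv f M (a • w) w := by
  obtain ⟨u', hu', hu'0, hfull⟩ := exists_ufull σ f hf hn M hHM g hgM hg
  intro w hw a
  by_cases hw0 : w = 0
  · refine ⟨1, M.one_mem, fun x => ?_⟩
    rw [hw0, Units.val_one, Matrix.one_mulVec, smul_zero, add_zero]
  obtain ⟨z, hz, h1, h2⟩ := exists_isotropic_both σ f hf hn hu'0 hw0
  exact ufull_propagate σ f hf M hHM hz hw (uf_symm_ne σ f hf h2)
    (ufull_propagate σ f hf M hHM hu' hz h1 hfull) a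

include hf in
lemma uhasTv_orth (M : Subgroup (GL ι F))
    (hHM : similarityGroup f ⊓ specialLinear ι F ≤ M)
    (hfull : ∀ w : ι → F, f w w = 0 → ∀ a : F, HasTv f M (a • w) w) {w w' : ι → F}
    (hw : f w w = 0) (hw' : f w' w' = 0) (hww' : f w w' = 0) : HasTv f M w' w := by
  obtain ⟨θ, hθ⟩ := exists_trace_one σ hf.ne_refl hf.involutive
  have hw'w : f w' w = 0 := uf_symm_zero σ f hf hww'
  have hsum : f (w + w') (w + w') = 0 := by
    rw [hf.add_left, uf_add_right σ f hf, uf_add_right σ f hf, hw, hw', hww', hw'w]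
    ring
  obtain ⟨g₁, h₁, hx₁⟩ := hfull (w + w') hsum θ
  obtain ⟨g₂, h₂, hx₂⟩ := hfull w hw (-θ)
  obtain ⟨g₃, h₃, hx₃⟩ := hfull w' hw' (-θ)
  obtain ⟨ρ, hρH, hρx, -⟩ := exists_siegel σ f hf w (σ θ • w') hw
    (by rw [hf.smul_left, uf_smul_right σ f hf, hw', mul_zero, mul_zero])
    (by rw [uf_smul_right σ f hf, hww', mul_zero])
  refine ⟨g₁ * g₂ * g₃ * ρ, M.mul_mem (M.mul_mem (M.mul_mem h₁ h₂) h₃) (hHM hρH), fun x => ?_⟩
  rw [gl_mul_mulVec, gl_mul_mulVec, gl_mul_mulVec, hρx, hx₃, hx₂, hx₁]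
  simp only [hf.add_left, uf_add_right σ f hf, hf.smul_left, uf_smul_right σ f hf,
    uf_sub_left σ f hf, hw, hw', hww', hw'w, map_neg, hf.involutive]
  have hθ' : σ θ = 1 - θ := by linear_combination hθ
  rw [hθ']
  module

include hf in
/-- A subgroup properly containing the unitary similarities of determinant one contains all
the transvections `x ↦ x + f x y • w`. -/
theorem uhasTv_all [Finite F] (hn : 7 ≤ Fintype.card ι) (M : Subgroup (GL ι F))
    (hHM : similarityGroup f ⊓ specialLinear ι F ≤ M) (g : GL ι F) (hgM : g ∈ M)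
    (hg : g ∉ similarityGroup f) :
    ∀ y w : ι → F, f w y = 0 → HasTv f M y w := by
  classical
  have hfull := ufull_all σ f hf hn M hHM g hgM hg
  have hQ3 : ∀ y w : ι → F, f y y = 0 → f w y = 0 → HasTv f M y w := by
    intro y w hy hwy
    obtain ⟨z₁, z₂, hz₁, hz₂, h1, h2, rfl⟩ := exists_isotropic_sum σ f hf {y}
      (by simp; omega) w (by simpa using hwy)
    have e1 : f z₁ y = 0 := h1 y (by simp)
    have e2 : f z₂ y = 0 := h2 y (by simp)
    exact uhasTv_add_right σ f hf M (uhasTv_orth σ f hf M hHM hfull hz₁ hy e1)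
      (uhasTv_orth σ f hf M hHM hfull hz₂ hy e2) e2
  intro y w hwy
  obtain ⟨z₁, z₂, hz₁, hz₂, h1, h2, rfl⟩ := exists_isotropic_sum σ f hf {w}
    (by simp; omega) y (by simpa using uf_symm_zero σ f hf hwy)
  have e1 : f w z₁ = 0 := uf_symm_zero σ f hf (h1 w (by simp))
  have e2 : f w z₂ = 0 := uf_symm_zero σ f hf (h2 w (by simp))
  exact uhasTv_add_left σ f hf M (hQ3 z₁ w hz₁ e1) (hQ3 z₂ w hz₂ e2) e1

include hf in
/-- The unitary similarities of determinant one form a maximal subgroup of `SL`. -/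
theorem sl_unit_max [Finite F] (hn : 7 ≤ Fintype.card ι) :
    IsMaximalIn (specialLinear ι F) (similarityGroup f ⊓ specialLinear ι F) := by
  classical
  have : Nontrivial ι := Fintype.one_lt_card_iff_nontrivial.mp (by omega)
  constructor
  · refine lt_of_le_of_ne inf_le_right ?_
    intro heq
    obtain ⟨w, hw, hw0⟩ := exists_isotropic_ne_zero σ f hf (by omega)
    obtain ⟨y, hy, hyy⟩ := exists_nonisotropic_perp σ f hf {w} (by simp; omega)
    have hyw : f y w = 0 := hy w (by simp)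
    have hwy : f w y = 0 := uf_symm_zero σ f hf hyw
    have hwy' : uL σ f hf y w = 0 := hwy
    have hmem : Cfsg.Agent.Lib.Helper93.tvGL (uL σ f hf y) w hwy'
        ∈ similarityGroup f ⊓ specialLinear ι F := by
      rw [heq]
      exact Cfsg.Agent.Lib.Helper93.tvGL_mem_SL _ _ _
    obtain ⟨c, hc⟩ := hmem.1
    have hx : ∀ x, ((Cfsg.Agent.Lib.Helper93.tvGL (uL σ f hf y) w hwy' : GL ι F) :
        Matrix ι ι F) *ᵥ x = x + f x y • w := fun x => by
      rw [Cfsg.Agent.Lib.Helper93.tvGL_mulVec, uL_apply]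
    obtain ⟨⟨a, ha⟩, -⟩ := hf.nondegenerate w hw0
    have hc1 : (c : F) = 1 := by
      have h1 := hc a w
      rw [hx, hx, hwy, zero_smul, add_zero, hf.add_left, hf.smul_left, hw, mul_zero,
        add_zero] at h1
      have h2 : ((c : F) - 1) * f a w = 0 := by linear_combination -h1
      rcases mul_eq_zero.mp h2 with h | h
      · linear_combination h
      · exact absurd h ha
    have h3 := hc a y
    rw [hx, hx, hc1, one_mul] at h3
    simp only [hf.add_left, uf_add_right σ f hf, hf.smul_left, uf_smul_right σ f hf, hw, hwy,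
      uf_self_fixed σ f hf] at h3
    have h4 : f y y * f a w = 0 := by linear_combination h3
    rcases mul_eq_zero.mp h4 with h | h
    · exact hyy h
    · exact ha h
  · intro M hHM hMS
    by_cases hMH : M = similarityGroup f ⊓ specialLinear ι F
    · exact Or.inl hMH
    right
    apply le_antisymm hMS
    have hnle : ¬ M ≤ similarityGroup f ⊓ specialLinear ι F :=
      fun h => hMH (le_antisymm h hHM)
    obtain ⟨g, hgM, hgH⟩ := SetLike.not_le_iff_exists.mp hnle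
    have hg : g ∉ similarityGroup f := fun h => hgH ⟨h, hMS hgM⟩
    have hall := uhasTv_all σ f hf hn M hHM g hgM hg
    apply sl_le_of_tvGL
    intro φ v h
    obtain ⟨y, hy⟩ := exists_uf_repr σ f hf φ
    obtain ⟨k, hkM, hkx⟩ := hall y v (by rw [hy, h])
    have e : Cfsg.Agent.Lib.Helper93.tvGL φ v h = k := by
      apply gl_ext
      intro x
      rw [Cfsg.Agent.Lib.Helper93.tvGL_mulVec, hkx, hy]
    rw [e]
    exact hkM

end ugroup

end Cfsg.Agent.Lib.Helper94
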