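import Cfsg.Agent.Lib.Helper13.SUGen3
import Cfsg.Agent.Lib.Helper94.SpClosure
import Cfsg.Agent.Lib.Helper93.Transv

set_option autoImplicit false
set_option linter.unusedSectionVars false

namespace Cfsg.Agent.Lib.Helper94

open Cfsg Cfsg.Geo Matrix
open Cfsg.Agent.Lib.Helper45 Cfsg.Agent.Lib.Helper44 Cfsg.Agent.Lib.Helper13

variable {F : Type*} [Field F] [Fintype F] {q n : ℕ}

/-- `M` is the matrix of an element of `K`. -/
def InK (K : Subgroup (GL (Fin n) F)) (M : Matrix (Fin n) (Fin n) F) : Prop :=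
  ∃ g ∈ K, ((g : GL (Fin n) F) : Matrix (Fin n) (Fin n) F) = M

lemma inK_coe {K : Subgroup (GL (Fin n) F)} {g : GL (Fin n) F} (hg : g ∈ K) :
    InK K (g : Matrix (Fin n) (Fin n) F) := ⟨g, hg, rfl⟩

lemma inK_mono {K K' : Subgroup (GL (Fin n) F)} (h : K ≤ K') {M : Matrix (Fin n) (Fin n) F}
    (hM : InK K M) : InK K' M := by
  obtain ⟨g, hg, rfl⟩ := hM
  exact ⟨g, h hg, rfl⟩

lemma inK_mul {K : Subgroup (GL (Fin n) F)} {M₁ M₂ : Matrix (Fin n) (Fin n) F}
    (h1 : InK K M₁) (h2 : InK K M₂) : InK K (M₁ * M₂) := by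
  obtain ⟨g₁, hg₁, rfl⟩ := h1
  obtain ⟨g₂, hg₂, rfl⟩ := h2
  exact ⟨g₁ * g₂, K.mul_mem hg₁ hg₂, by rw [Units.val_mul]⟩

lemma inK_of_mul_eq {K : Subgroup (GL (Fin n) F)} {X Y T : Matrix (Fin n) (Fin n) F}
    (hX : InK K X) (hY : InK K Y) (h : X * T = Y) : InK K T := by
  obtain ⟨gX, hgX, rfl⟩ := hX
  obtain ⟨gY, hgY, rfl⟩ := hY
  refine ⟨gX⁻¹ * gY, K.mul_mem (K.inv_mem hgX) hgY, ?_⟩
  rw [Units.val_mul, ← h, ← Matrix.mul_assoc, ← Units.val_mul, inv_mul_cancel, Units.val_one,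
    Matrix.one_mul]

lemma inK_conj {K : Subgroup (GL (Fin n) F)} {G M M' : Matrix (Fin n) (Fin n) F}
    (hG : InK K G) (hM : InK K M) (h : G * M = M' * G) : InK K M' := by
  obtain ⟨g, hg, rfl⟩ := hG
  obtain ⟨k, hk, rfl⟩ := hM
  refine ⟨g * k * g⁻¹, K.mul_mem (K.mul_mem hg hk) (K.inv_mem hg), ?_⟩
  rw [Units.val_mul, Units.val_mul, h, Matrix.mul_assoc, ← Units.val_mul, mul_inv_cancel,
    Units.val_one, Matrix.mul_one]

lemma mem_GU_iff (g : GL (Fin n) F) :
    g ∈ Cfsg.GU n F q ↔ IsHermIso n F q (g : Matrix (Fin n) (Fin n) F) := Iff.rfl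

lemma herm_symm_zero (hF : Fintype.card F = q ^ 2) {u v : Fin n → F}
    (h : hermForm n F q u v = 0) : hermForm n F q v u = 0 := by
  rw [← herm_conj hF, h, conj_zero hF]

lemma herm_neg_left (u v : Fin n → F) : hermForm n F q (-u) v = - hermForm n F q u v := by
  have := herm_smul_left (q := q) n (-1 : F) u v
  rw [neg_one_smul, neg_one_mul] at this
  exact this

lemma herm_exists_ne (hF : Fintype.card F = q ^ 2) {v : Fin n → F} (hv : v ≠ 0) :
    ∃ z, hermForm n F q v z ≠ 0 := by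
  classical
  obtain ⟨i, hi⟩ : ∃ i, v i ≠ 0 := by
    by_contra h
    push Not at h
    exact hv (funext h)
  refine ⟨Pi.single i 1, ?_⟩
  rw [herm_single_right (by have := two_le_q hF; omega)]
  exact hi

/-- The functional `x ↦ h(x, v)`. -/
def hermL (q : ℕ) (v : Fin n → F) : (Fin n → F) →ₗ[F] F where
  toFun x := hermForm n F q x v
  map_add' x y := herm_add_left n x y v
  map_smul' c x := by simpa using herm_smul_left n c x v

lemma hermL_apply (v x : Fin n → F) : hermL q v x = hermForm n F q x v := rfl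

lemma herm_sum_left {κ : Type*} (s : Finset κ) (u : κ → Fin n → F) (v : Fin n → F) :
    hermForm n F q (∑ i ∈ s, u i) v = ∑ i ∈ s, hermForm n F q (u i) v :=
  map_sum (hermL q v) u s

/-- The isotropic vectors all of whose unitary transvections lie in `K`. -/
def uCenters (q : ℕ) (K : Subgroup (GL (Fin n) F)) : Set (Fin n → F) :=
  {v | hermForm n F q v v = 0 ∧ ∀ c : F, c ^ q = -c → InK K (unitaryTransvection n q v c)}

/-- A subgroup containing all unitary transvections contains the special unitary group. -/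
theorem su_le_of_uCenters (hF : Fintype.card F = q ^ 2) (hn : 4 ≤ n)
    (K : Subgroup (GL (Fin n) F))
    (h : ∀ v : Fin n → F, hermForm n F q v v = 0 → v ∈ uCenters q K) :
    Cfsg.GU n F q ⊓ specialLinear (Fin n) F ≤ K := by
  intro g hg
  have hM : IsHermIso n F q (g : Matrix (Fin n) (Fin n) F) := hg.1
  have hdet := (Cfsg.Agent.Lib.Helper93.mem_specialLinear_iff g).mp hg.2
  have hT := su_inT hF n (Or.inl hn) _ hM hdet
  have hK : InK K (g : Matrix (Fin n) (Fin n) F) := by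
    refine Submonoid.closure_induction (motive := fun M _ => InK K M) ?_ ?_ ?_ hT
    · rintro x ⟨v, c, hv, hc, rfl⟩
      exact (h v hv).2 c hc
    · exact ⟨1, K.one_mem, Units.val_one⟩
    · rintro x y _ _ hx hy
      exact inK_mul hx hy
  obtain ⟨g', hg', he⟩ := hK
  have : g' = g := Units.ext he
  rw [← this]
  exact hg'

lemma mulVec_mem_uCenters {K : Subgroup (GL (Fin n) F)} {G : Matrix (Fin n) (Fin n) F}
    (hG : IsHermIso n F q G) (hGK : InK K G) {v : Fin n → F} (hv : v ∈ uCenters q K) :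
    G *ᵥ v ∈ uCenters q K :=
  ⟨by rw [hG]; exact hv.1, fun c hc => inK_conj hGK (hv.2 c hc) (utransv_conj hG v c)⟩

lemma smul_mem_uCenters (hF : Fintype.card F = q ^ 2) {K : Subgroup (GL (Fin n) F)}
    {v : Fin n → F} (hv : v ∈ uCenters q K) (μ : F) : μ • v ∈ uCenters q K := by
  refine ⟨by rw [herm_smul_left, herm_smul_right, hv.1, mul_zero, mul_zero], fun c hc => ?_⟩
  rw [utransv_smul]
  apply hv.2
  rw [mul_pow, norm_fixed hF, hc]
  ring

lemma zero_mem_uCenters (hF : Fintype.card F = q ^ 2) (K : Subgroup (GL (Fin n) F)) :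
    (0 : Fin n → F) ∈ uCenters q K := by
  refine ⟨herm_zero_left hF n 0, fun c _ => ⟨1, K.one_mem, ?_⟩⟩
  rw [Units.val_one, Matrix.ext_iff_mulVec]
  intro x
  rw [utransv_mulVec, smul_zero, add_zero, Matrix.one_mulVec]

/-- Closure of the centres under hyperbolic lines. -/
lemma add_mem_uCenters (hF : Fintype.card F = q ^ 2) {K : Subgroup (GL (Fin n) F)}
    {u v : Fin n → F} (hu : u ∈ uCenters q K) (hv : v ∈ uCenters q K) (c : F)
    (hc : c ^ q = -c) : u + (c * hermForm n F q u v) • v ∈ uCenters q K := by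
  have := mulVec_mem_uCenters (isHermIso_utransv hF v c hv.1 hc) (hv.2 c hc) hu
  rwa [utransv_mulVec] at this

/-- An invertible matrix mapping a subspace into one of the same dimension: the inverse maps
back. -/
lemma gl_inv_maps_of_maps {ι : Type} [Fintype ι] [DecidableEq ι] {F : Type*} [Field F]
    (k : GL ι F) (A A' : Submodule F (ι → F))
    (hr : Module.finrank F A = Module.finrank F A')
    (hk : ∀ x ∈ A, (k : Matrix ι ι F) *ᵥ x ∈ A') :
    ∀ x ∈ A', ((k⁻¹ : GL ι F) : Matrix ι ι F) *ᵥ x ∈ A := by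
  have hle : A.map (Matrix.toLin' (k : Matrix ι ι F)) ≤ A' := by
    rintro _ ⟨x, hx, rfl⟩
    rw [Matrix.toLin'_apply]
    exact hk x hx
  have hinj : Function.Injective (Matrix.toLin' (k : Matrix ι ι F)) := by
    intro x y hxy
    rw [Matrix.toLin'_apply, Matrix.toLin'_apply] at hxy
    exact gl_mulVec_injective k hxy
  have hfr : Module.finrank F (A.map (Matrix.toLin' (k : Matrix ι ι F)))
      = Module.finrank F A :=
    (Submodule.equivMapOfInjective _ hinj A).finrank_eq.symm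
  have heq : A.map (Matrix.toLin' (k : Matrix ι ι F)) = A' :=
    Submodule.eq_of_le_of_finrank_eq hle (by rw [hfr, hr])
  intro x hx
  rw [← heq] at hx
  obtain ⟨y, hy, rfl⟩ := hx
  rw [Matrix.toLin'_apply, gl_inv_mulVec_mulVec]
  exact hy

/-- A matrix mapping the members of a family to each other along a permutation, together with
its inverse, stabilises the family. -/
lemma gl_mem_decompStab_of_maps {ι : Type} [Fintype ι] [DecidableEq ι] {F : Type*} [Field F]
    {t : ℕ} (D : Fin t → Submodule F (ι → F)) (g : GL ι F) (π : Equiv.Perm (Fin t))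
    (h1 : ∀ l, ∀ x ∈ D l, (g : Matrix ι ι F) *ᵥ x ∈ D (π l))
    (h2 : ∀ l, ∀ x ∈ D l, ((g⁻¹ : GL ι F) : Matrix ι ι F) *ᵥ x ∈ D (π.symm l)) :
    g ∈ decompositionStabilizer D := by
  rw [mem_decompositionStabilizer_iff]
  refine ⟨π, fun i => le_antisymm ?_ ?_⟩
  · rintro _ ⟨x, hx, rfl⟩
    rw [Matrix.toLin'_apply]
    exact h1 i x hx
  · intro y hy
    refine ⟨((g⁻¹ : GL ι F) : Matrix ι ι F) *ᵥ y, ?_, ?_⟩
    · have := h2 (π i) y hy
      rwa [Equiv.symm_apply_apply] at this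
    · rw [Matrix.toLin'_apply, gl_mulVec_inv_mulVec]

end Cfsg.Agent.Lib.Helper94
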