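import Cfsg.Agent.Lib.Helper94.SUClosure

set_option autoImplicit false
set_option linter.unusedSectionVars false

namespace Cfsg.Agent.Lib.Helper94

open Cfsg Cfsg.Geo Matrix
open Cfsg.Agent.Lib.Helper45 Cfsg.Agent.Lib.Helper44 Cfsg.Agent.Lib.Helper13

variable {F : Type*} [Field F] [Fintype F] {q n : ℕ}

/-- If `y` is not a multiple of `w ≠ 0`, some vector perpendicular to `w` is not perpendicular
to `y`. -/
lemma herm_perp_sep (hF : Fintype.card F = q ^ 2) {w y : Fin n → F} (hw : w ≠ 0)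
    (hy : ∀ c : F, y ≠ c • w) :
    ∃ u, hermForm n F q w u = 0 ∧ hermForm n F q y u ≠ 0 := by
  by_contra hcon
  push Not at hcon
  obtain ⟨a, ha⟩ := herm_exists_ne hF hw
  apply hy (hermForm n F q y a / hermForm n F q w a)
  by_contra hne
  have hne' : y - (hermForm n F q y a / hermForm n F q w a) • w ≠ 0 := sub_ne_zero.mpr hne
  obtain ⟨u, hu⟩ := herm_exists_ne hF hne'
  apply hu
  rw [herm_sub_left, herm_smul_left]
  have h1 := hcon (u - ((hermForm n F q w u / hermForm n F q w a) ^ q) • a)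
    (by rw [herm_sub_right hF, herm_smul_right, conj_conj hF, div_mul_cancel₀ _ ha, sub_self])
  rw [herm_sub_right hF, herm_smul_right, conj_conj hF] at h1
  linear_combination h1

/-- A pair of complementary totally isotropic subspaces of dimension `k`. -/
structure IsULagr (q k : ℕ) (A B : Submodule F (Fin n → F)) : Prop where
  tiA : ∀ u ∈ A, ∀ v ∈ A, hermForm n F q u v = 0
  tiB : ∀ u ∈ B, ∀ v ∈ B, hermForm n F q u v = 0
  sum : ∀ x, ∃ a ∈ A, ∃ b ∈ B, x = a + b
  rankA : Module.finrank F A = k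
  rankB : Module.finrank F B = k

section lagr

variable {k : ℕ} {A B : Submodule F (Fin n → F)}

theorem IsULagr.symm (h : IsULagr q k A B) : IsULagr q k B A :=
  ⟨h.tiB, h.tiA, fun x => by
    obtain ⟨a, ha, b, hb, rfl⟩ := h.sum x
    exact ⟨b, hb, a, ha, add_comm a b⟩, h.rankB, h.rankA⟩

lemma IsULagr.perp_mem (h : IsULagr q k A B) (hF : Fintype.card F = q ^ 2) {x : Fin n → F}
    (hx : ∀ a ∈ A, hermForm n F q x a = 0) : x ∈ A := by
  obtain ⟨a, ha, b, hb, rfl⟩ := h.sum x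
  have hb0 : b = 0 := by
    by_contra hne
    obtain ⟨z, hz⟩ := herm_exists_ne hF hne
    apply hz
    obtain ⟨a', ha', b', hb', rfl⟩ := h.sum z
    rw [herm_add_right hF, h.tiB b hb b' hb', add_zero]
    have := hx a' ha'
    rw [herm_add_left, h.tiA a ha a' ha', zero_add] at this
    exact this
  rw [hb0, add_zero]
  exact ha

lemma IsULagr.inter (h : IsULagr q k A B) (hF : Fintype.card F = q ^ 2) {x : Fin n → F}
    (hxA : x ∈ A) (hxB : x ∈ B) : x = 0 := by
  by_contra hne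
  obtain ⟨z, hz⟩ := herm_exists_ne hF hne
  apply hz
  obtain ⟨a', ha', b', hb', rfl⟩ := h.sum z
  rw [herm_add_right hF, h.tiA x hxA a' ha', h.tiB x hxB b' hb', add_zero]

lemma IsULagr.sep (h : IsULagr q k A B) (hF : Fintype.card F = q ^ 2) {a y : Fin n → F}
    (ha : a ∈ A) (ha0 : a ≠ 0) (hy : y ∈ A) (hya : ∀ c : F, y ≠ c • a) :
    ∃ b ∈ B, hermForm n F q a b = 0 ∧ hermForm n F q y b ≠ 0 := by
  obtain ⟨u, hu1, hu2⟩ := herm_perp_sep hF ha0 hya
  obtain ⟨a', ha', b', hb', rfl⟩ := h.sum u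
  refine ⟨b', hb', ?_, ?_⟩
  · rw [herm_add_right hF, h.tiA a ha a' ha', zero_add] at hu1
    exact hu1
  · rw [herm_add_right hF, h.tiA y hy a' ha', zero_add] at hu2
    exact hu2

lemma IsULagr.exists_ne (h : IsULagr q k A B) (hF : Fintype.card F = q ^ 2) {a : Fin n → F}
    (ha : a ∈ A) (ha0 : a ≠ 0) : ∃ b ∈ B, hermForm n F q a b ≠ 0 := by
  obtain ⟨z, hz⟩ := herm_exists_ne hF ha0
  obtain ⟨a', ha', b', hb', rfl⟩ := h.sum z
  refine ⟨b', hb', ?_⟩
  rw [herm_add_right hF, h.tiA a ha a' ha', zero_add] at hz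
  exact hz

lemma IsULagr.exists_ne_zero_perp (h : IsULagr q k A B) (hk : 2 ≤ k) (v : Fin n → F) :
    ∃ b ∈ B, b ≠ 0 ∧ hermForm n F q b v = 0 := by
  have hlt : Module.finrank F F < Module.finrank F B := by
    rw [Module.finrank_self, h.rankB]
    omega
  have hker := LinearMap.ker_ne_bot_of_finrank_lt (f := (hermL q v).comp B.subtype) hlt
  obtain ⟨b, hb, hb0⟩ := Submodule.exists_mem_ne_zero_of_ne_bot hker
  refine ⟨b.1, b.2, ?_, ?_⟩
  · intro h0
    exact hb0 (Subtype.ext h0)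
  · exact LinearMap.mem_ker.mp hb

/-- The Levi elements. -/
lemma IsULagr.siegel_iso (h : IsULagr q k A B) (hF : Fintype.card F = q ^ 2)
    {a b : Fin n → F} (ha : a ∈ A) (hb : b ∈ B) (hba : hermForm n F q b a = 0) :
    IsHermIso n F q (siegel q a b 0) :=
  isHermIso_siegel hF a b 0 (h.tiA a ha a ha) hba
    (by rw [conj_zero hF, h.tiB b hb b hb, add_zero, add_zero])

lemma IsULagr.siegel_det (h : IsULagr q k A B) (hF : Fintype.card F = q ^ 2)
    {a b : Fin n → F} (ha : a ∈ A) (hba : hermForm n F q b a = 0) :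
    (siegel q a b 0).det = 1 :=
  det_siegel a b 0 (h.tiA a ha a ha) hba (herm_symm_zero hF hba)

lemma IsULagr.siegel_maps (h : IsULagr q k A B) {a b : Fin n → F} (ha : a ∈ A) (hb : b ∈ B) :
    (∀ x ∈ A, siegel q a b 0 *ᵥ x ∈ A) ∧ (∀ x ∈ B, siegel q a b 0 *ᵥ x ∈ B) := by
  constructor
  · intro x hx
    rw [siegel_mulVec a b 0 (h.tiA a ha a ha), h.tiA x hx a ha, zero_smul, add_zero, mul_zero,
      zero_smul, add_zero]
    exact A.sub_mem hx (A.smul_mem _ ha)
  · intro x hx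
    rw [siegel_mulVec a b 0 (h.tiA a ha a ha), h.tiB x hx b hb, zero_smul, sub_zero, zero_mul,
      zero_smul, add_zero]
    exact B.add_mem hx (B.smul_mem _ hb)

/-- The first transvection group. -/
lemma IsULagr.first_center (h : IsULagr q k A B) (hF : Fintype.card F = q ^ 2) (hk : 5 ≤ k)
    (M : Subgroup (GL (Fin n) F))
    (hLevi : ∀ a ∈ A, ∀ b ∈ B, hermForm n F q b a = 0 → InK M (siegel q a b 0))
    {a' b' : Fin n → F} (ha'i : hermForm n F q a' a' = 0) (hb'i : hermForm n F q b' b' = 0)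
    (hb'a' : hermForm n F q b' a' = 0) (hE : ∀ θ : F, InK M (siegel q (θ • a') b' 0))
    (ha' : a' ∉ B) (hb' : b' ∉ B) :
    ∃ a ∈ A, a ≠ 0 ∧ a ∈ uCenters q M := by
  classical
  obtain ⟨a'₀, ha'₀, a'₁, ha'₁, hae⟩ := h.sum a'
  obtain ⟨b'₀, hb'₀, b'₁, hb'₁, hbe⟩ := h.sum b'
  have ha'₀0 : a'₀ ≠ 0 := by
    intro h0
    apply ha'
    rw [hae, h0, zero_add]
    exact ha'₁
  have hb'₀0 : b'₀ ≠ 0 := by
    intro h0
    apply hb'
    rw [hbe, h0, zero_add]
    exact hb'₁
  -- the vector `a`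
  obtain ⟨a, haA, haa', hab', haS⟩ : ∃ a ∈ A, hermForm n F q a a' = 0 ∧
      hermForm n F q a b' = 0 ∧ a ∉ Submodule.span F
        ((({a'₀, b'₀} : Finset (Fin n → F)) : Set (Fin n → F))) := by
    by_contra hcon
    push Not at hcon
    obtain ⟨φ, hφ⟩ : ∃ φ : A →ₗ[F] F × F, ∀ x : A, φ x =
        (hermForm n F q (x : Fin n → F) a', hermForm n F q (x : Fin n → F) b') :=
      ⟨((hermL q a').prod (hermL q b')).comp A.subtype, fun x => rfl⟩
    have hker : (LinearMap.ker φ).map A.subtype ≤ Submodule.span F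
        ((({a'₀, b'₀} : Finset (Fin n → F)) : Set (Fin n → F))) := by
      rintro _ ⟨x, hx, rfl⟩
      have hx' : φ x = 0 := LinearMap.mem_ker.mp hx
      rw [hφ] at hx'
      exact hcon x x.2 (congrArg Prod.fst hx') (congrArg Prod.snd hx')
    have hfr : Module.finrank F ((LinearMap.ker φ).map A.subtype)
        = Module.finrank F (LinearMap.ker φ) :=
      (Submodule.equivMapOfInjective _ A.injective_subtype _).finrank_eq.symm
    have h1 := Submodule.finrank_mono hker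
    have h2 := LinearMap.finrank_range_add_finrank_ker φ
    have h3 : Module.finrank F (LinearMap.range φ) ≤ 2 := by
      have := Submodule.finrank_le (LinearMap.range φ)
      rw [Module.finrank_prod, Module.finrank_self] at this
      exact this
    have h5 : Module.finrank F (Submodule.span F
        ((({a'₀, b'₀} : Finset (Fin n → F)) : Set (Fin n → F)))) ≤ 2 :=
      (finrank_span_finset_le_card _).trans Finset.card_le_two
    rw [h.rankA] at h2
    omega
  have ha0 : a ≠ 0 := by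
    intro h0
    apply haS
    rw [h0]
    exact Submodule.zero_mem _
  have hna : ∀ c : F, a'₀ ≠ c • a := by
    intro c hc
    have hc0 : c ≠ 0 := by
      intro h0
      rw [h0, zero_smul] at hc
      exact ha'₀0 hc
    apply haS
    have : a = c⁻¹ • a'₀ := by rw [hc, smul_smul, inv_mul_cancel₀ hc0, one_smul]
    rw [this]
    exact Submodule.smul_mem _ _ (Submodule.subset_span (by simp))
  have hnb : ∀ c : F, b'₀ ≠ c • a := by
    intro c hc
    have hc0 : c ≠ 0 := by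
      intro h0
      rw [h0, zero_smul] at hc
      exact hb'₀0 hc
    apply haS
    have : a = c⁻¹ • b'₀ := by rw [hc, smul_smul, inv_mul_cancel₀ hc0, one_smul]
    rw [this]
    exact Submodule.smul_mem _ _ (Submodule.subset_span (by simp))
  obtain ⟨b₁, hb₁, hab₁, hne₁⟩ := h.sep hF haA ha0 ha'₀ hna
  obtain ⟨b₂, hb₂, hab₂, hne₂⟩ := h.sep hF haA ha0 hb'₀ hnb
  obtain ⟨b, hb, hab0, hn1, hn2⟩ : ∃ b ∈ B, hermForm n F q a b = 0 ∧
      hermForm n F q a'₀ b ≠ 0 ∧ hermForm n F q b'₀ b ≠ 0 := by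
    by_cases h3 : hermForm n F q b'₀ b₁ = 0
    · by_cases h4 : hermForm n F q a'₀ b₂ = 0
      · refine ⟨b₁ + b₂, B.add_mem hb₁ hb₂, ?_, ?_, ?_⟩
        · rw [herm_add_right hF, hab₁, hab₂, add_zero]
        · rw [herm_add_right hF, h4, add_zero]
          exact hne₁
        · rw [herm_add_right hF, h3, zero_add]
          exact hne₂
      · exact ⟨b₂, hb₂, hab₂, h4, hne₂⟩
    · exact ⟨b₁, hb₁, hab₁, hne₁, h3⟩
  have hba : hermForm n F q b a = 0 := herm_symm_zero hF hab0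
  have haa : hermForm n F q a a = 0 := h.tiA a haA a haA
  obtain ⟨γ₁, hγ₁⟩ : ∃ γ₁ : F, γ₁ = hermForm n F q b a' := ⟨_, rfl⟩
  obtain ⟨γ₂, hγ₂⟩ : ∃ γ₂ : F, γ₂ = hermForm n F q b b' := ⟨_, rfl⟩
  have hγ₁0 : γ₁ ≠ 0 := by
    rw [hγ₁, hae, herm_add_right hF, h.tiB b hb a'₁ ha'₁, add_zero]
    intro h0
    exact hn1 (herm_symm_zero hF h0)
  have hγ₂0 : γ₂ ≠ 0 := by
    rw [hγ₂, hbe, herm_add_right hF, h.tiB b hb b'₁ hb'₁, add_zero]
    intro h0
    exact hn2 (herm_symm_zero hF h0)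
  obtain ⟨t, ht⟩ : ∃ t : F, t ^ q ≠ t := by
    by_contra hcon
    push Not at hcon
    apply sigmaQ_ne_id hF
    ext t
    rw [sigmaQ_apply, hcon t, RingHom.id_apply]
  have hγq : γ₁ * γ₂ ^ q ≠ 0 := mul_ne_zero hγ₁0 (pow_ne_zero _ hγ₂0)
  obtain ⟨θ, hθ⟩ : ∃ θ : F, θ ^ q * (γ₁ * γ₂ ^ q) = t :=
    ⟨(t / (γ₁ * γ₂ ^ q)) ^ q, by rw [conj_conj hF, div_mul_cancel₀ _ hγq]⟩
  have htq : t ^ q = θ * (γ₁ ^ q * γ₂) := by
    rw [← hθ, mul_pow, mul_pow, conj_conj hF, conj_conj hF]
  obtain ⟨δ, hδ⟩ : ∃ δ : F, δ = t - t ^ q := ⟨_, rfl⟩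
  have hδ0 : δ ≠ 0 := by
    rw [hδ]
    exact fun h0 => ht (sub_eq_zero.mp h0).symm
  have hδq : δ ^ q = -δ := by
    rw [hδ, conj_sub hF, conj_conj hF]
    ring
  obtain ⟨y₁, hy₁⟩ : ∃ y₁ : Fin n → F, y₁ = b + (θ ^ q * γ₁) • b' - (γ₂ * θ) • a' := ⟨_, rfl⟩
  have hθa : hermForm n F q (θ • a') (θ • a') = 0 := by
    rw [herm_smul_left, herm_smul_right, ha'i, mul_zero, mul_zero]
  have hEiso : IsHermIso n F q (siegel q (θ • a') b' 0) :=
    isHermIso_siegel hF (θ • a') b' 0 hθa (by rw [herm_smul_right, hb'a', mul_zero])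
      (by rw [conj_zero hF, hb'i, add_zero, add_zero])
  have hEa : siegel q (θ • a') b' 0 *ᵥ a = a := by
    rw [siegel_mulVec (θ • a') b' 0 hθa, herm_smul_right, haa', hab', mul_zero, zero_smul,
      zero_smul, mul_zero, zero_smul, add_zero, sub_zero, add_zero]
  have hEb : ∀ μ : F, siegel q (θ • a') b' 0 *ᵥ (μ • b) = μ • y₁ := by
    intro μ
    rw [siegel_mulVec (θ • a') b' 0 hθa, herm_smul_left, herm_smul_right, herm_smul_left,
      ← hγ₁, ← hγ₂, hy₁]
    module
  have hS : ∀ μ : F, InK M (siegel q a (μ • b) 0) := fun μ =>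
    hLevi a haA (μ • b) (B.smul_mem μ hb) (by rw [herm_smul_left, hba, mul_zero])
  have hC : ∀ μ : F, InK M (siegel q a (μ • y₁) 0) := by
    intro μ
    have hconj := siegel_conj hEiso a (μ • b) 0 haa
    rw [hEa, hEb μ] at hconj
    exact inK_conj (hE θ) (hS μ) hconj
  have hy₁a : hermForm n F q y₁ a = 0 := by
    rw [hy₁, herm_sub_left, herm_add_left, herm_smul_left, herm_smul_left, hba,
      herm_symm_zero hF hab', herm_symm_zero hF haa']
    ring
  have hay₁ : hermForm n F q a y₁ = 0 := herm_symm_zero hF hy₁a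
  have e1 : hermForm n F q b' b = γ₂ ^ q := by rw [hγ₂, herm_conj hF]
  have e2 : hermForm n F q a' b = γ₁ ^ q := by rw [hγ₁, herm_conj hF]
  have hy₁b : hermForm n F q y₁ b = δ := by
    rw [hy₁, herm_sub_left, herm_add_left, herm_smul_left, herm_smul_left, h.tiB b hb b hb, e1,
      e2, hδ, htq, ← hθ]
    ring
  have hby₁ : hermForm n F q b y₁ = -δ := by rw [← herm_conj hF, hy₁b, hδq]
  refine ⟨a, haA, ha0, haa, fun c hc => ?_⟩
  have hfix : (c / δ) ^ q = c / δ := by rw [div_pow, hc, hδq, neg_div_neg_eq]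
  obtain ⟨μ, hμ⟩ := exists_trace_eq hF (c / δ) hfix
  have hμba : hermForm n F q (μ • b) a = 0 := by rw [herm_smul_left, hba, mul_zero]
  have haμb : hermForm n F q a (μ • b) = 0 := herm_symm_zero hF hμba
  have mul12 := siegel_mul hF a y₁ (μ • b) 0 0 haa hμba hay₁
  have mul21 := siegel_mul hF a (μ • b) y₁ 0 0 haa hy₁a haμb
  have mulT := siegel_mul hF a (μ • b + y₁) 0 (0 + 0 - hermForm n F q y₁ (μ • b)) c haa
    (herm_zero_left hF n a) (by rw [herm_add_right hF, haμb, hay₁, add_zero])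
  have key : (siegel q a (μ • b) 0 * siegel q a y₁ 0) * unitaryTransvection n q a c
      = siegel q a y₁ 0 * siegel q a (μ • b) 0 := by
    rw [← siegel_zero hF a c haa, mul21, mulT, mul12]
    have ev : μ • b + y₁ + 0 = y₁ + μ • b := by abel
    have ec : 0 + 0 - hermForm n F q y₁ (μ • b) + c - hermForm n F q 0 (μ • b + y₁)
        = 0 + 0 - hermForm n F q (μ • b) y₁ := by
      rw [herm_zero_left hF, herm_smul_right, herm_smul_left, hy₁b, hby₁]
      have hcδ : c = δ * (μ + μ ^ q) := by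
        rw [hμ, mul_div_cancel₀ _ hδ0]
      rw [hcδ]
      ring
    rw [ev, ec]
  have hS1 : InK M (siegel q a y₁ 0) := by
    have := hC 1
    rwa [one_smul] at this
  exact inK_of_mul_eq (inK_mul (hS μ) hS1) (inK_mul hS1 (hS μ)) key


/-- A matrix that neither fixes nor exchanges the two subspaces moves a perpendicular pair
badly. -/
lemma IsULagr.good_pair (h : IsULagr q k A B) (hF : Fintype.card F = q ^ 2) (hk : 2 ≤ k)
    (G : Matrix (Fin n) (Fin n) F) (hG0 : ∀ x, G *ᵥ x = 0 → x = 0)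
    (h1 : ¬ ((∀ x ∈ A, G *ᵥ x ∈ A) ∧ (∀ x ∈ B, G *ᵥ x ∈ B)))
    (h2 : ¬ ((∀ x ∈ A, G *ᵥ x ∈ B) ∧ (∀ x ∈ B, G *ᵥ x ∈ A))) :
    ∃ a₀ ∈ A, ∃ b₀ ∈ B, hermForm n F q b₀ a₀ = 0 ∧
      ((G *ᵥ a₀ ∉ B ∧ G *ᵥ b₀ ∉ B) ∨ (G *ᵥ a₀ ∉ A ∧ G *ᵥ b₀ ∉ A)) := by
  by_contra hcon
  have hc : ∀ a₀ ∈ A, ∀ b₀ ∈ B, hermForm n F q b₀ a₀ = 0 →
      (G *ᵥ a₀ ∈ B ∨ G *ᵥ b₀ ∈ B) ∧ (G *ᵥ a₀ ∈ A ∨ G *ᵥ b₀ ∈ A) := by
    intro a₀ ha₀ b₀ hb₀ h0
    have := fun hx => hcon ⟨a₀, ha₀, b₀, hb₀, h0, hx⟩
    tauto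
  have hinj0 : ∀ x, G *ᵥ x ∈ A → G *ᵥ x ∈ B → x = 0 := by
    intro x hxA hxB
    exact hG0 x (h.inter hF hxA hxB)
  have hA1 : ∀ a₀ ∈ A, G *ᵥ a₀ ∈ A ∨ G *ᵥ a₀ ∈ B := by
    intro a₀ ha₀
    obtain ⟨b₀, hb₀, hb₀0, hab⟩ := h.exists_ne_zero_perp hk a₀
    obtain ⟨c1, c2⟩ := hc a₀ ha₀ b₀ hb₀ hab
    rcases c1 with c1 | c1
    · exact Or.inr c1
    · rcases c2 with c2 | c2
      · exact Or.inl c2
      · exact absurd (hinj0 b₀ c2 c1) hb₀0
  have hB1 : ∀ b₀ ∈ B, G *ᵥ b₀ ∈ A ∨ G *ᵥ b₀ ∈ B := by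
    intro b₀ hb₀
    obtain ⟨a₀, ha₀, ha₀0, hba⟩ := h.symm.exists_ne_zero_perp hk b₀
    have hab : hermForm n F q b₀ a₀ = 0 := herm_symm_zero hF hba
    obtain ⟨c1, c2⟩ := hc a₀ ha₀ b₀ hb₀ hab
    rcases c1 with c1 | c1
    · rcases c2 with c2 | c2
      · exact absurd (hinj0 a₀ c2 c1) ha₀0
      · exact Or.inl c2
    · exact Or.inr c1
  have hdich : ∀ C : Submodule F (Fin n → F),
      (∀ x ∈ C, G *ᵥ x ∈ A ∨ G *ᵥ x ∈ B) →
      (∀ x ∈ C, G *ᵥ x ∈ A) ∨ (∀ x ∈ C, G *ᵥ x ∈ B) := by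
    intro C hC
    by_contra hn
    push Not at hn
    obtain ⟨⟨x₁, hx₁, hx₁A⟩, ⟨x₂, hx₂, hx₂B⟩⟩ := hn
    have hx₁B := (hC x₁ hx₁).resolve_left hx₁A
    have hx₂A := (hC x₂ hx₂).resolve_right hx₂B
    rcases hC (x₁ + x₂) (C.add_mem hx₁ hx₂) with h3 | h3
    · rw [Matrix.mulVec_add] at h3
      apply hx₁A
      have := A.sub_mem h3 hx₂A
      rwa [add_sub_cancel_right] at this
    · rw [Matrix.mulVec_add] at h3
      apply hx₂B
      have := B.sub_mem h3 hx₁B
      rwa [add_sub_cancel_left] at this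
  obtain ⟨a₀, ha₀, ha₀0, -⟩ := h.symm.exists_ne_zero_perp hk 0
  obtain ⟨b₀, hb₀, hb₀0, hab⟩ := h.exists_ne_zero_perp hk a₀
  obtain ⟨c1, c2⟩ := hc a₀ ha₀ b₀ hb₀ hab
  rcases hdich A hA1 with hAA | hAB
  · rcases hdich B hB1 with hBA | hBB
    · rcases c1 with c1 | c1
      · exact ha₀0 (hinj0 a₀ (hAA a₀ ha₀) c1)
      · exact hb₀0 (hinj0 b₀ (hBA b₀ hb₀) c1)
    · exact h1 ⟨hAA, hBB⟩
  · rcases hdich B hB1 with hBA | hBB
    · exact h2 ⟨hAB, hBA⟩
    · rcases c2 with c2 | c2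
      · exact ha₀0 (hinj0 a₀ c2 (hAB a₀ ha₀))
      · exact hb₀0 (hinj0 b₀ c2 (hBB b₀ hb₀))

/-- One non-zero centre in `A` gives all of `A`. -/
lemma IsULagr.centers (h : IsULagr q k A B) (hF : Fintype.card F = q ^ 2)
    (M : Subgroup (GL (Fin n) F))
    (hLevi : ∀ a ∈ A, ∀ b ∈ B, hermForm n F q b a = 0 → InK M (siegel q a b 0))
    {a : Fin n → F} (ha : a ∈ A) (ha0 : a ≠ 0) (haC : a ∈ uCenters q M) :
    ∀ x ∈ A, x ∈ uCenters q M := by
  intro x hx
  by_cases hxa : ∃ c : F, x = c • a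
  · obtain ⟨c, rfl⟩ := hxa
    exact smul_mem_uCenters hF haC c
  · push Not at hxa
    have hne : x - a ≠ 0 := by
      intro h0
      apply hxa 1
      rw [one_smul]
      exact sub_eq_zero.mp h0
    have hna : ∀ c : F, a ≠ c • (x - a) := by
      intro c hc
      have hc0 : c ≠ 0 := by
        intro h0
        rw [h0, zero_smul] at hc
        exact ha0 hc
      have hd : x - a = c⁻¹ • a := by
        conv_rhs => rw [hc]
        rw [smul_smul, inv_mul_cancel₀ hc0, one_smul]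
      apply hxa (c⁻¹ + 1)
      rw [add_smul, one_smul, ← hd]
      abel
    have hxaA : x - a ∈ A := A.sub_mem hx ha
    obtain ⟨b, hb, hb1, hb2⟩ := h.sep hF hxaA hne ha hna
    obtain ⟨l, hl⟩ : ∃ l : F, l ^ q * hermForm n F q a b = -1 :=
      ⟨(-1 / hermForm n F q a b) ^ q, by rw [conj_conj hF, div_mul_cancel₀ _ hb2]⟩
    have h0 : hermForm n F q (l • b) (x - a) = 0 := by
      rw [herm_smul_left, herm_symm_zero hF hb1, mul_zero]
    have hS := hLevi (x - a) hxaA (l • b) (B.smul_mem _ hb) h0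
    have hiso := h.siegel_iso hF hxaA (B.smul_mem l hb) h0
    have hmem := mulVec_mem_uCenters hiso hS haC
    rw [siegel_mulVec _ _ _ (h.tiA _ hxaA _ hxaA), h.tiA a ha (x - a) hxaA, herm_smul_right,
      hl] at hmem
    have e : a + (0 : F) • l • b - (-1 : F) • (x - a) + ((0 : F) * 0) • (x - a) = x := by
      module
    rwa [e] at hmem

/-- Dual bases of the two subspaces. -/
lemma IsULagr.exists_dual_basis (h : IsULagr q k A B) (hF : Fintype.card F = q ^ 2) :
    ∃ α β : Fin k → (Fin n → F), (∀ l, α l ∈ A) ∧ (∀ l, β l ∈ B) ∧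
      (∀ l l', hermForm n F q (α l) (β l') = if l = l' then 1 else 0) ∧
      (∀ x ∈ A, x = ∑ l, hermForm n F q x (β l) • α l) ∧
      (∀ y ∈ B, y = ∑ l, hermForm n F q y (α l) • β l) := by
  classical
  obtain ⟨bA⟩ : Nonempty (Module.Basis (Fin k) F A) := ⟨Module.finBasisOfFinrankEq F A h.rankA⟩
  have hexp : ∀ a (ha : a ∈ A), a = ∑ i, (bA.repr ⟨a, ha⟩ i) • (bA i : Fin n → F) := by
    intro a ha
    have h1 : ((∑ i, (bA.repr ⟨a, ha⟩ i) • bA i : A) : Fin n → F) = a :=
      congrArg (Subtype.val) (bA.sum_repr ⟨a, ha⟩)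
    rw [Submodule.coe_sum] at h1
    simp only [Submodule.coe_smul] at h1
    exact h1.symm
  have hA_of : ∀ v, (∀ j, hermForm n F q v (bA j : Fin n → F) = 0) →
      ∀ a ∈ A, hermForm n F q v a = 0 := by
    intro v hv a ha
    apply herm_symm_zero hF
    rw [hexp a ha, herm_sum_left]
    apply Finset.sum_eq_zero
    intro i _
    rw [herm_smul_left, herm_symm_zero hF (hv i), mul_zero]
  obtain ⟨Φ, hΦ⟩ : ∃ Φ : B →ₗ[F] (Fin k → F), ∀ b : B, ∀ j,
      Φ b j = hermForm n F q (b : Fin n → F) (bA j : Fin n → F) :=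
    ⟨LinearMap.pi (fun j => (hermL q (bA j : Fin n → F)).comp B.subtype), fun b j => rfl⟩
  have hinj : Function.Injective Φ := by
    rw [← LinearMap.ker_eq_bot, LinearMap.ker_eq_bot']
    intro b hb
    have h0 : ∀ j, hermForm n F q (b : Fin n → F) (bA j : Fin n → F) = 0 := fun j => by
      rw [← hΦ, hb]
      rfl
    have hbA : (b : Fin n → F) ∈ A := h.perp_mem hF (hA_of b h0)
    exact Subtype.ext (h.inter hF hbA b.2)
  have hsurj : Function.Surjective Φ :=
    (LinearMap.injective_iff_surjective_of_finrank_eq_finrank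
      (by rw [h.rankB, Module.finrank_fintype_fun_eq_card, Fintype.card_fin])).mp hinj
  choose β' hβ' using fun l : Fin k => hsurj (Pi.single l 1)
  have hba : ∀ l l', hermForm n F q (β' l : Fin n → F) (bA l') = if l' = l then 1 else 0 := by
    intro l l'
    rw [← hΦ, hβ', Pi.single_apply]
  have hab : ∀ l l', hermForm n F q (bA l : Fin n → F) (β' l') = if l = l' then 1 else 0 := by
    intro l l'
    rw [← herm_conj hF, hba l' l]
    by_cases hl : l = l'
    · rw [if_pos hl, one_pow]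
    · rw [if_neg hl, conj_zero hF]
  refine ⟨fun l => (bA l : Fin n → F), fun l => (β' l : Fin n → F),
    fun l => (bA l).2, fun l => (β' l).2, hab, ?_, ?_⟩
  · intro a ha
    have hco : ∀ j, hermForm n F q a (β' j) = bA.repr ⟨a, ha⟩ j := by
      intro j
      conv_lhs => rw [hexp a ha]
      rw [herm_sum_left, Finset.sum_eq_single j]
      · rw [herm_smul_left, hab, if_pos rfl, mul_one]
      · intro l _ hl
        rw [herm_smul_left, hab, if_neg hl, mul_zero]
      · intro hh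
        exact absurd (Finset.mem_univ _) hh
    conv_lhs => rw [hexp a ha]
    exact Finset.sum_congr rfl (fun j _ => by rw [hco j])
  · intro y hy
    obtain ⟨y', hy'⟩ : ∃ y' : Fin n → F, y' = ∑ l, hermForm n F q y (bA l) •
        (β' l : Fin n → F) := ⟨_, rfl⟩
    rw [← hy']
    have hy'B : y' ∈ B := by
      rw [hy']
      exact Submodule.sum_mem _ (fun l _ => B.smul_mem _ (β' l).2)
    have h1 : ∀ j, hermForm n F q (y - y') (bA j : Fin n → F) = 0 := by
      intro j
      rw [herm_sub_left, hy', herm_sum_left, Finset.sum_eq_single j]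
      · rw [herm_smul_left, hba, if_pos rfl, mul_one, sub_self]
      · intro l _ hl
        rw [herm_smul_left, hba, if_neg (Ne.symm hl), mul_zero]
      · intro hh
        exact absurd (Finset.mem_univ _) hh
    have hdA : y - y' ∈ A := h.perp_mem hF (hA_of _ h1)
    exact sub_eq_zero.mp (h.inter hF hdA (B.sub_mem hy hy'B))

end lagr

section swap

/-- `x ↦ Σ h(x, α l) α l`. -/
def hermN (q : ℕ) {k : ℕ} (α : Fin k → (Fin n → F)) : (Fin n → F) →ₗ[F] (Fin n → F) :=
  ∑ l, (hermL q (α l)).smulRight (α l)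

lemma hermN_apply {k : ℕ} (α : Fin k → (Fin n → F)) (x : Fin n → F) :
    hermN q α x = ∑ l, hermForm n F q x (α l) • α l := by
  simp [hermN, LinearMap.sum_apply, hermL_apply]

lemma herm_list_sum_zero (hF : Fintype.card F = q ^ 2) (x v : Fin n → F) :
    ∀ L : List (Fin n → F), (∀ w ∈ L, hermForm n F q w v = 0) →
      hermForm n F q ((L.map (fun w => hermForm n F q x w • w)).sum) v = 0
  | [], _ => by rw [List.map_nil, List.sum_nil, herm_zero_left hF]
  | w :: L, hv => by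
      rw [List.map_cons, List.sum_cons, herm_add_left, herm_smul_left,
        hv w List.mem_cons_self, mul_zero, zero_add]
      exact herm_list_sum_zero hF x v L (fun w' hw' => hv w' (List.mem_cons_of_mem _ hw'))

lemma utransv_list_prod (hF : Fintype.card F = q ^ 2) (c : F) :
    ∀ L : List (Fin n → F), (∀ v ∈ L, ∀ w ∈ L, hermForm n F q w v = 0) → ∀ x : Fin n → F,
      (L.map (fun v => unitaryTransvection n q v c)).prod *ᵥ x
        = x + c • (L.map (fun v => hermForm n F q x v • v)).sum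
  | [], _, x => by
      rw [List.map_nil, List.prod_nil, Matrix.one_mulVec, List.map_nil, List.sum_nil, smul_zero,
        add_zero]
  | v :: L, hL, x => by
      have ih := utransv_list_prod hF c L
        (fun v' hv' w hw => hL v' (List.mem_cons_of_mem _ hv') w (List.mem_cons_of_mem _ hw)) x
      rw [List.map_cons, List.prod_cons, ← Matrix.mulVec_mulVec, ih, utransv_mulVec,
        herm_add_left, herm_smul_left,
        herm_list_sum_zero hF x v L
          (fun w hw => hL v List.mem_cons_self w (List.mem_cons_of_mem _ hw)),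
        mul_zero, add_zero, List.map_cons, List.sum_cons]
      module

/-- The product of the transvections with centres `α l`. -/
def utProd (q : ℕ) {k : ℕ} (α : Fin k → (Fin n → F)) (c : F) : Matrix (Fin n) (Fin n) F :=
  ((List.ofFn α).map (fun v => unitaryTransvection n q v c)).prod

lemma utProd_inT {k : ℕ} (α : Fin k → (Fin n → F)) (c : F)
    (hα : ∀ l, hermForm n F q (α l) (α l) = 0) (hc : c ^ q = -c) :
    InT n F q (utProd q α c) := by
  unfold utProd InT
  apply Submonoid.list_prod_mem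
  intro M hM
  rw [List.mem_map] at hM
  obtain ⟨v, hv, rfl⟩ := hM
  rw [List.mem_ofFn] at hv
  obtain ⟨l, rfl⟩ := hv
  exact Submonoid.subset_closure ⟨α l, c, hα l, hc, rfl⟩

lemma utProd_mulVec (hF : Fintype.card F = q ^ 2) {k : ℕ} (α : Fin k → (Fin n → F)) (c : F)
    (hα : ∀ l l', hermForm n F q (α l) (α l') = 0) (x : Fin n → F) :
    utProd q α c *ᵥ x = x + c • hermN q α x := by
  unfold utProd
  rw [utransv_list_prod hF c (List.ofFn α) ?_ x, hermN_apply, List.map_ofFn, List.sum_ofFn]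
  · rfl
  · intro v hv w hw
    rw [List.mem_ofFn] at hv hw
    obtain ⟨l, rfl⟩ := hv
    obtain ⟨l', rfl⟩ := hw
    exact hα l' l

variable {k : ℕ} {A B : Submodule F (Fin n → F)}

/-- A product of unitary transvections exchanging the two subspaces. -/
lemma IsULagr.exists_swap (h : IsULagr q k A B) (hF : Fintype.card F = q ^ 2) :
    ∃ S : Matrix (Fin n) (Fin n) F, InT n F q S ∧ (∀ x ∈ A, S *ᵥ x ∈ B) ∧
      (∀ y ∈ B, S *ᵥ y ∈ A) ∧ (∀ y ∈ B, S *ᵥ (S *ᵥ y) = -y) := by
  obtain ⟨α, β, hα, hβ, hαβ, hexpA, hexpB⟩ := h.exists_dual_basis hF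
  obtain ⟨δ, hδ0, hδ⟩ := exists_skew hF
  have hβα : ∀ l l', hermForm n F q (β l) (α l') = if l' = l then 1 else 0 := by
    intro l l'
    rw [← herm_conj hF, hαβ l' l]
    by_cases hl : l' = l
    · rw [if_pos hl, one_pow]
    · rw [if_neg hl, conj_zero hF]
  have hNαA : ∀ x ∈ A, hermN q α x = 0 := by
    intro x hx
    rw [hermN_apply]
    apply Finset.sum_eq_zero
    intro l _
    rw [h.tiA x hx (α l) (hα l), zero_smul]
  have hNβB : ∀ y ∈ B, hermN q β y = 0 := by
    intro y hy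
    rw [hermN_apply]
    apply Finset.sum_eq_zero
    intro l _
    rw [h.tiB y hy (β l) (hβ l), zero_smul]
  have hNα_mem : ∀ x, hermN q α x ∈ A := by
    intro x
    rw [hermN_apply]
    exact Submodule.sum_mem _ (fun l _ => A.smul_mem _ (hα l))
  have hNβ_mem : ∀ x, hermN q β x ∈ B := by
    intro x
    rw [hermN_apply]
    exact Submodule.sum_mem _ (fun l _ => B.smul_mem _ (hβ l))
  have hNαβ : ∀ x ∈ A, hermN q α (hermN q β x) = x := by
    intro x hx
    rw [hermN_apply]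
    conv_rhs => rw [hexpA x hx]
    apply Finset.sum_congr rfl
    intro l _
    congr 1
    rw [hermN_apply, herm_sum_left, Finset.sum_eq_single l]
    · rw [herm_smul_left, hβα, if_pos rfl, mul_one]
    · intro j _ hj
      rw [herm_smul_left, hβα, if_neg (Ne.symm hj), mul_zero]
    · intro hh
      exact absurd (Finset.mem_univ _) hh
  have hNβα : ∀ y ∈ B, hermN q β (hermN q α y) = y := by
    intro y hy
    rw [hermN_apply]
    conv_rhs => rw [hexpB y hy]
    apply Finset.sum_congr rfl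
    intro l _
    congr 1
    rw [hermN_apply, herm_sum_left, Finset.sum_eq_single l]
    · rw [herm_smul_left, hαβ, if_pos rfl, mul_one]
    · intro j _ hj
      rw [herm_smul_left, hαβ, if_neg hj, mul_zero]
    · intro hh
      exact absurd (Finset.mem_univ _) hh
  obtain ⟨u, hu⟩ : ∃ u : F, u = -δ⁻¹ := ⟨_, rfl⟩
  have huq : u ^ q = -u := by
    rw [hu, conj_neg hF, inv_pow, hδ, inv_neg]
  have huv : u * δ = -1 := by
    rw [hu, neg_mul, inv_mul_cancel₀ hδ0]
  have hαα : ∀ l l', hermForm n F q (α l) (α l') = 0 := fun l l' => h.tiA _ (hα l) _ (hα l')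
  have hββ : ∀ l l', hermForm n F q (β l) (β l') = 0 := fun l l' => h.tiB _ (hβ l) _ (hβ l')
  have hUα : ∀ x, utProd q α u *ᵥ x = x + u • hermN q α x := utProd_mulVec hF α u hαα
  have hUβ : ∀ x, utProd q β δ *ᵥ x = x + δ • hermN q β x := utProd_mulVec hF β δ hββ
  have hSA : ∀ x ∈ A, (utProd q α u * utProd q β δ * utProd q α u) *ᵥ x
      = δ • hermN q β x := by
    intro x hx
    rw [← Matrix.mulVec_mulVec, ← Matrix.mulVec_mulVec, hUα x, hNαA x hx, smul_zero, add_zero,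
      hUβ x, hUα, map_add, map_smul, hNαA x hx, hNαβ x hx]
    have e : u • (0 + δ • x) = -x := by rw [zero_add, smul_smul, huv, neg_one_smul]
    rw [e]
    abel
  have hSB : ∀ y ∈ B, (utProd q α u * utProd q β δ * utProd q α u) *ᵥ y
      = u • hermN q α y := by
    intro y hy
    rw [← Matrix.mulVec_mulVec, ← Matrix.mulVec_mulVec, hUα y, hUβ, map_add, map_smul,
      hNβB y hy, hNβα y hy, hUα]
    have e : y + u • hermN q α y + δ • (0 + u • y) = u • hermN q α y := by
      rw [zero_add, smul_smul, mul_comm, huv, neg_one_smul]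
      abel
    rw [e, map_smul, hNαA _ (hNα_mem y), smul_zero, smul_zero, add_zero]
  refine ⟨utProd q α u * utProd q β δ * utProd q α u,
    inT_mul (inT_mul (utProd_inT α u (fun l => hαα l l) huq)
      (utProd_inT β δ (fun l => hββ l l) hδ)) (utProd_inT α u (fun l => hαα l l) huq),
    ?_, ?_, ?_⟩
  · intro x hx
    rw [hSA x hx]
    exact B.smul_mem _ (hNβ_mem x)
  · intro y hy
    rw [hSB y hy]
    exact A.smul_mem _ (hNα_mem y)
  · intro y hy
    rw [hSB y hy, hSA _ (A.smul_mem _ (hNα_mem y)), map_smul, hNβα y hy, smul_smul, mul_comm,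
      huv, neg_one_smul]

end swap

/-- Every vector is a sum of components. -/
lemma gl_exists_components {ι : Type} [Fintype ι] [DecidableEq ι] {F : Type*} [Field F] {t : ℕ}
    (D : Fin t → Submodule F (ι → F)) (hsup : iSup D = ⊤) (v : ι → F) :
    ∃ c : Fin t → (ι → F), (∀ i, c i ∈ D i) ∧ v = ∑ i, c i := by
  classical
  have hv : v ∈ iSup D := by rw [hsup]; exact Submodule.mem_top
  refine Submodule.iSup_induction D (motive := fun v =>
    ∃ c : Fin t → (ι → F), (∀ i, c i ∈ D i) ∧ v = ∑ i, c i) hv ?_ ?_ ?_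
  · intro i x hx
    refine ⟨Pi.single i x, ?_, ?_⟩
    · intro j
      by_cases h : j = i
      · subst h
        rw [Pi.single_eq_same]
        exact hx
      · rw [Pi.single_eq_of_ne h]
        exact (D j).zero_mem
    · rw [Finset.sum_pi_single']
      simp
  · exact ⟨0, fun i => (D i).zero_mem, by simp⟩
  · rintro x y ⟨c, hc, rfl⟩ ⟨c', hc', rfl⟩
    exact ⟨c + c', fun i => (D i).add_mem (hc i) (hc' i), by simp [Finset.sum_add_distrib]⟩

/-- The stabiliser of a pair of complementary totally isotropic subspaces is maximal in the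
special unitary group (`k ≥ 5`). -/
theorem su_lagr_max (hF : Fintype.card F = q ^ 2) (hn : 4 ≤ n) (k : ℕ) (hk : 5 ≤ k)
    (D : Fin 2 → Submodule F (Fin n → F)) (hD : IsMDecomposition k D)
    (hts : ∀ i, IsTotallySingularFor (hermForm n F q) (D i)) :
    IsMaximalIn (GU n F q ⊓ specialLinear (Fin n) F)
      (decompositionStabilizer D ⊓ (GU n F q ⊓ specialLinear (Fin n) F)) := by
  have h : IsULagr q k (D 0) (D 1) := ⟨hts 0, hts 1, fun x => by
    obtain ⟨c, hc, hx⟩ := gl_exists_components D hD.iSup_eq_top x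
    rw [Fin.sum_univ_two] at hx
    exact ⟨c 0, hc 0, c 1, hc 1, hx⟩, hD.finrank_eq 0, hD.finrank_eq 1⟩
  have hSame : ∀ X : Matrix (Fin n) (Fin n) F, IsHermIso n F q X → X.det = 1 →
      (∀ x ∈ D 0, X *ᵥ x ∈ D 0) → (∀ x ∈ D 1, X *ᵥ x ∈ D 1) →
      InK (decompositionStabilizer D ⊓ (GU n F q ⊓ specialLinear (Fin n) F)) X := by
    intro X hX hdet h0 h1
    obtain ⟨g, hg⟩ : ∃ g : GL (Fin n) F, (g : Matrix (Fin n) (Fin n) F) = X :=
      ⟨(isHermIso_isUnit hF hX).unit, IsUnit.unit_spec _⟩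
    refine ⟨g, ⟨?_, ?_, ?_⟩, hg⟩
    · apply gl_mem_decompStab_of_maps D g 1
      · intro l x hx
        rw [hg]
        fin_cases l
        · exact h0 x hx
        · exact h1 x hx
      · intro l x hx
        fin_cases l
        · exact gl_inv_maps_of_maps g (D 0) (D 0) rfl (by rw [hg]; exact h0) x hx
        · exact gl_inv_maps_of_maps g (D 1) (D 1) rfl (by rw [hg]; exact h1) x hx
    · show IsHermIso n F q (g : Matrix (Fin n) (Fin n) F)
      rw [hg]
      exact hX
    · exact (Cfsg.Agent.Lib.Helper93.mem_specialLinear_iff g).mpr (by rw [hg]; exact hdet)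
  have hSwap : ∀ X : Matrix (Fin n) (Fin n) F, IsHermIso n F q X → X.det = 1 →
      (∀ x ∈ D 0, X *ᵥ x ∈ D 1) → (∀ x ∈ D 1, X *ᵥ x ∈ D 0) →
      InK (decompositionStabilizer D ⊓ (GU n F q ⊓ specialLinear (Fin n) F)) X := by
    intro X hX hdet h0 h1
    obtain ⟨g, hg⟩ : ∃ g : GL (Fin n) F, (g : Matrix (Fin n) (Fin n) F) = X :=
      ⟨(isHermIso_isUnit hF hX).unit, IsUnit.unit_spec _⟩
    have e0 : Equiv.swap (0 : Fin 2) 1 0 = 1 := Equiv.swap_apply_left 0 1
    have e1 : Equiv.swap (0 : Fin 2) 1 1 = 0 := Equiv.swap_apply_right 0 1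
    refine ⟨g, ⟨?_, ?_, ?_⟩, hg⟩
    · apply gl_mem_decompStab_of_maps D g (Equiv.swap 0 1)
      · intro l x hx
        rw [hg]
        fin_cases l
        · show _ ∈ D (Equiv.swap (0 : Fin 2) 1 0)
          rw [e0]
          exact h0 x hx
        · show _ ∈ D (Equiv.swap (0 : Fin 2) 1 1)
          rw [e1]
          exact h1 x hx
      · intro l x hx
        rw [Equiv.symm_swap]
        fin_cases l
        · show _ ∈ D (Equiv.swap (0 : Fin 2) 1 0)
          rw [e0]
          exact gl_inv_maps_of_maps g (D 1) (D 0) (by rw [h.rankA, h.rankB])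
            (by rw [hg]; exact h1) x hx
        · show _ ∈ D (Equiv.swap (0 : Fin 2) 1 1)
          rw [e1]
          exact gl_inv_maps_of_maps g (D 0) (D 1) (by rw [h.rankA, h.rankB])
            (by rw [hg]; exact h0) x hx
    · show IsHermIso n F q (g : Matrix (Fin n) (Fin n) F)
      rw [hg]
      exact hX
    · exact (Cfsg.Agent.Lib.Helper93.mem_specialLinear_iff g).mpr (by rw [hg]; exact hdet)
  constructor
  · refine lt_of_le_of_ne inf_le_right ?_
    intro heq
    obtain ⟨a, ha, ha0, -⟩ := h.symm.exists_ne_zero_perp (by omega) 0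
    obtain ⟨b, hb, hab⟩ := h.exists_ne hF ha ha0
    obtain ⟨δ, hδ0, hδ⟩ := exists_skew hF
    have hbb := h.tiB b hb b hb
    have hiso := isHermIso_utransv hF b δ hbb hδ
    obtain ⟨g, hg⟩ : ∃ g : GL (Fin n) F,
        (g : Matrix (Fin n) (Fin n) F) = unitaryTransvection n q b δ :=
      ⟨(isHermIso_isUnit hF hiso).unit, IsUnit.unit_spec _⟩
    have hgm : g ∈ GU n F q ⊓ specialLinear (Fin n) F := by
      refine ⟨?_, ?_⟩
      · show IsHermIso n F q (g : Matrix (Fin n) (Fin n) F)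
        rw [hg]
        exact hiso
      · exact (Cfsg.Agent.Lib.Helper93.mem_specialLinear_iff g).mpr
          (by rw [hg]; exact det_utransv b δ hbb)
    rw [← heq] at hgm
    obtain ⟨σ, hσ⟩ := (mem_decompositionStabilizer_iff D g).mp hgm.1
    have hmem := mulVec_mem_of_mem_decompositionStabilizer D g σ hσ 0 a ha
    rw [hg, utransv_mulVec] at hmem
    have hb0 : b ≠ 0 := by
      intro h0
      rw [h0, herm_zero_right hF] at hab
      exact hab rfl
    have hc0 : δ * hermForm n F q a b ≠ 0 := mul_ne_zero hδ0 hab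
    have h01 : ∀ i : Fin 2, i = 0 ∨ i = 1 := by decide
    rcases h01 (σ 0) with hs | hs
    · rw [hs] at hmem
      have h1 : (δ * hermForm n F q a b) • b ∈ D 0 := by
        have := (D 0).sub_mem hmem ha
        rwa [add_sub_cancel_left] at this
      have h3 : b ∈ D 0 := by
        have := (D 0).smul_mem (δ * hermForm n F q a b)⁻¹ h1
        rwa [smul_smul, inv_mul_cancel₀ hc0, one_smul] at this
      exact hb0 (h.inter hF h3 hb)
    · rw [hs] at hmem
      have h1 : a ∈ D 1 := by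
        have := (D 1).sub_mem hmem ((D 1).smul_mem (δ * hermForm n F q a b) hb)
        rwa [add_sub_cancel_right] at this
      exact ha0 (h.inter hF ha h1)
  · intro M hHM hMS
    by_cases hMH : M = decompositionStabilizer D ⊓ (GU n F q ⊓ specialLinear (Fin n) F)
    · exact Or.inl hMH
    right
    apply le_antisymm hMS
    obtain ⟨g, hgM, hgH⟩ := SetLike.not_le_iff_exists.mp (fun hle => hMH (le_antisymm hle hHM))
    have hGiso : IsHermIso n F q (g : Matrix (Fin n) (Fin n) F) := (hMS hgM).1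
    have hGdet : (g : Matrix (Fin n) (Fin n) F).det = 1 :=
      (Cfsg.Agent.Lib.Helper93.mem_specialLinear_iff g).mp (hMS hgM).2
    have hGM : InK M (g : Matrix (Fin n) (Fin n) F) := inK_coe hgM
    have hLevi : ∀ a ∈ D 0, ∀ b ∈ D 1, hermForm n F q b a = 0 → InK M (siegel q a b 0) :=
      fun a ha b hb hba => inK_mono hHM (hSame _ (h.siegel_iso hF ha hb hba)
        (h.siegel_det hF ha hba) (h.siegel_maps ha hb).1 (h.siegel_maps ha hb).2)
    obtain ⟨S, hST, hSA, hSB, hSS⟩ := h.exists_swap hF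
    have hSiso := (inT_iso_det hF hST).1
    have hSdet := (inT_iso_det hF hST).2
    have hSM : InK M S := inK_mono hHM (hSwap S hSiso hSdet hSA hSB)
    have hg1 : ¬ ((∀ x ∈ D 0, (g : Matrix (Fin n) (Fin n) F) *ᵥ x ∈ D 0) ∧
        (∀ x ∈ D 1, (g : Matrix (Fin n) (Fin n) F) *ᵥ x ∈ D 1)) := by
      rintro ⟨p1, p2⟩
      obtain ⟨g', hg', he⟩ := hSame _ hGiso hGdet p1 p2
      have : g' = g := Units.ext he
      rw [this] at hg'
      exact hgH hg'
    have hg2 : ¬ ((∀ x ∈ D 0, (g : Matrix (Fin n) (Fin n) F) *ᵥ x ∈ D 1) ∧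
        (∀ x ∈ D 1, (g : Matrix (Fin n) (Fin n) F) *ᵥ x ∈ D 0)) := by
      rintro ⟨p1, p2⟩
      obtain ⟨g', hg', he⟩ := hSwap _ hGiso hGdet p1 p2
      have : g' = g := Units.ext he
      rw [this] at hg'
      exact hgH hg'
    have hG0 : ∀ x, (g : Matrix (Fin n) (Fin n) F) *ᵥ x = 0 → x = 0 := by
      intro x hx
      apply gl_mulVec_injective g
      rw [hx, Matrix.mulVec_zero]
    obtain ⟨a₀, ha₀, b₀, hb₀, hba, hcase⟩ := h.good_pair hF (by omega) _ hG0 hg1 hg2
    obtain ⟨G', hG'iso, hG'M, c1, c2⟩ : ∃ G' : Matrix (Fin n) (Fin n) F, IsHermIso n F q G' ∧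
        InK M G' ∧ G' *ᵥ a₀ ∉ D 1 ∧ G' *ᵥ b₀ ∉ D 1 := by
      rcases hcase with ⟨c1, c2⟩ | ⟨c1, c2⟩
      · exact ⟨_, hGiso, hGM, c1, c2⟩
      · have hSinv : ∀ x, S *ᵥ x ∈ D 1 → x ∈ D 0 := by
          intro x hx
          obtain ⟨xa, hxa, xb, hxb, rfl⟩ := h.sum x
          rw [Matrix.mulVec_add] at hx
          have h1 : S *ᵥ xb ∈ D 1 := by
            have := (D 1).sub_mem hx (hSA xa hxa)
            rwa [add_sub_cancel_left] at this
          have h2 : S *ᵥ xb = 0 := h.inter hF (hSB xb hxb) h1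
          have h3 : xb = 0 := by
            have := hSS xb hxb
            rw [h2, Matrix.mulVec_zero] at this
            exact neg_eq_zero.mp this.symm
          rw [h3, add_zero]
          exact hxa
        refine ⟨S * (g : Matrix (Fin n) (Fin n) F), isHermIso_mul hSiso hGiso,
          inK_mul hSM hGM, ?_, ?_⟩
        · intro hin
          rw [← Matrix.mulVec_mulVec] at hin
          exact c1 (hSinv _ hin)
        · intro hin
          rw [← Matrix.mulVec_mulVec] at hin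
          exact c2 (hSinv _ hin)
    have hE : ∀ θ : F, InK M (siegel q (θ • (G' *ᵥ a₀)) (G' *ᵥ b₀) 0) := by
      intro θ
      have hθa : hermForm n F q (θ • a₀) (θ • a₀) = 0 :=
        h.tiA _ ((D 0).smul_mem θ ha₀) _ ((D 0).smul_mem θ ha₀)
      have hconj := siegel_conj hG'iso (θ • a₀) b₀ 0 hθa
      rw [Matrix.mulVec_smul] at hconj
      exact inK_conj hG'M (hLevi (θ • a₀) ((D 0).smul_mem θ ha₀) b₀ hb₀
        (by rw [herm_smul_right, hba, mul_zero])) hconj
    obtain ⟨a, ha, ha0, haC⟩ := h.first_center hF hk M hLevi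
      (by rw [hG'iso]; exact h.tiA a₀ ha₀ a₀ ha₀) (by rw [hG'iso]; exact h.tiB b₀ hb₀ b₀ hb₀)
      (by rw [hG'iso]; exact hba) hE c1 c2
    have hAC := h.centers hF M hLevi ha ha0 haC
    have hBC : ∀ y ∈ D 1, y ∈ uCenters q M := by
      intro y hy
      have h1 := hSB y hy
      have h3 := mulVec_mem_uCenters hSiso hSM (hAC _ ((D 0).neg_mem h1))
      rw [Matrix.mulVec_neg, hSS y hy, neg_neg] at h3
      exact h3
    apply su_le_of_uCenters hF hn
    intro v hv
    obtain ⟨x, hx, y, hy, rfl⟩ := h.sum v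
    by_cases hx0 : x = 0
    · rw [hx0, zero_add]
      exact hBC y hy
    have hxy_skew : hermForm n F q x y ^ q = - hermForm n F q x y := by
      rw [herm_add_left, herm_add_right hF, herm_add_right hF, h.tiA x hx x hx,
        h.tiB y hy y hy, zero_add, add_zero] at hv
      rw [herm_conj hF]
      linear_combination hv
    by_cases hxy : hermForm n F q x y = 0
    · obtain ⟨y₂', hy₂', hne⟩ := h.exists_ne hF hx hx0
      obtain ⟨δ, hδ0, hδ⟩ := exists_skew hF
      obtain ⟨l, hl⟩ : ∃ l : F, l ^ q * hermForm n F q x y₂' = δ :=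
        ⟨(δ / hermForm n F q x y₂') ^ q, by rw [conj_conj hF, div_mul_cancel₀ _ hne]⟩
      obtain ⟨y₂, hy₂def⟩ : ∃ y₂ : Fin n → F, y₂ = l • y₂' := ⟨_, rfl⟩
      have hy₂ : y₂ ∈ D 1 := by
        rw [hy₂def]
        exact (D 1).smul_mem l hy₂'
      have hxy₂ : hermForm n F q x y₂ = δ := by rw [hy₂def, herm_smul_right, hl]
      have hδinv : (δ⁻¹) ^ q = -δ⁻¹ := by rw [inv_pow, hδ, inv_neg]
      have s1 := add_mem_uCenters hF (hAC x hx) (hBC _ ((D 1).add_mem hy hy₂)) δ⁻¹ hδinv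
      rw [herm_add_right hF, hxy, zero_add, hxy₂, inv_mul_cancel₀ hδ0, one_smul] at s1
      have hc : (-δ⁻¹) ^ q = -(-δ⁻¹) := by rw [conj_neg hF, hδinv]
      have s2 := add_mem_uCenters hF s1 (hBC y₂ hy₂) (-δ⁻¹) hc
      rw [herm_add_left, herm_add_left, h.tiB y hy y₂ hy₂, h.tiB y₂ hy₂ y₂ hy₂, add_zero,
        add_zero, hxy₂, neg_mul, inv_mul_cancel₀ hδ0, neg_one_smul] at s2
      have e : x + (y + y₂) + -y₂ = x + y := by abel
      rwa [e] at s2
    · have hc : ((hermForm n F q x y)⁻¹) ^ q = -(hermForm n F q x y)⁻¹ := by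
        rw [inv_pow, hxy_skew, inv_neg]
      have s1 := add_mem_uCenters hF (hAC x hx) (hBC y hy) _ hc
      rwa [inv_mul_cancel₀ hxy, one_smul] at s1

end Cfsg.Agent.Lib.Helper94
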