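import Cfsg.Agent.Lib.Helper94.SpDecompMax

set_option autoImplicit false
set_option linter.unusedSectionVars false

namespace Cfsg.Agent.Lib.Helper94

open Cfsg Cfsg.Geo
open scoped MatrixGroups Matrix

variable {F : Type*} [Field F] {m : ℕ}

/-- Centres of the symplectic transvections with parameter one lying in `K`. -/
def unitCenters (K : Subgroup (GL (Fin m ⊕ Fin m) F)) : Set (Fin m ⊕ Fin m → F) :=
  {v | sympTransGL m v 1 ∈ K}

lemma mulVec_mem_unitCenters (K : Subgroup (GL (Fin m ⊕ Fin m) F))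
    (k : GL (Fin m ⊕ Fin m) F) (hk : k ∈ K) (hkS : k ∈ spGL m F) {v : Fin m ⊕ Fin m → F}
    (hv : v ∈ unitCenters K) :
    (k : Matrix (Fin m ⊕ Fin m) (Fin m ⊕ Fin m) F) *ᵥ v ∈ unitCenters K := by
  show sympTransGL m _ 1 ∈ K
  rw [← sympTransGL_conj k hkS]
  exact K.mul_mem (K.mul_mem hk hv) (K.inv_mem hk)

lemma trans_mem_unitCenters (K : Subgroup (GL (Fin m ⊕ Fin m) F)) {u v : Fin m ⊕ Fin m → F}
    (hu : u ∈ unitCenters K) (hv : v ∈ unitCenters K) :
    u + sympForm m F u v • v ∈ unitCenters K := by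
  have := mulVec_mem_unitCenters K (sympTransGL m v 1) hv (sympTransGL_mem m v 1) hu
  rwa [sympTransGL_mulVec, one_mul] at this

lemma spGL_le_of_unitCenters (K : Subgroup (GL (Fin m ⊕ Fin m) F))
    (hrt : ∀ c : F, ∃ r, r ^ 2 = c) (h : ∀ v : Fin m ⊕ Fin m → F, v ∈ unitCenters K) :
    spGL m F ≤ K := by
  apply spGL_le_of_transCenters
  intro v c
  obtain ⟨r, hr⟩ := hrt c
  have e : sympTransGL m v c = sympTransGL m (r • v) 1 := by
    apply gl_ext
    intro x
    rw [sympTransGL_mulVec, sympTransGL_mulVec, sf_smul_right, smul_smul]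
    congr 2
    linear_combination (-(sympForm m F x v)) * hr
  rw [e]
  exact h (r • v)

section quad

variable (Q : (Fin m ⊕ Fin m → F) → F)
variable (hsm : ∀ (c : F) (v : Fin m ⊕ Fin m → F), Q (c • v) = c ^ 2 * Q v)
variable (hpol : ∀ u v, QuadraticMap.polar Q u v = sympForm m F u v)
variable (h2 : (2 : F) = 0)
variable (hrt : ∀ c : F, ∃ r, r ^ 2 = c)

include hpol in
lemma q_add (u v : Fin m ⊕ Fin m → F) : Q (u + v) = Q u + Q v + sympForm m F u v := by
  have := hpol u v
  rw [QuadraticMap.polar] at this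
  linear_combination this

include hsm in
lemma q_zero : Q 0 = 0 := by
  have := hsm 0 0
  rw [zero_smul] at this
  linear_combination this

include hsm hpol h2 in
/-- The transvection with a centre of norm one is an isometry of `Q`. -/
lemma q_trans (u : Fin m ⊕ Fin m → F) (hu : Q u = 1) (x : Fin m ⊕ Fin m → F) :
    Q (((sympTransGL m u 1 : GL (Fin m ⊕ Fin m) F) :
      Matrix (Fin m ⊕ Fin m) (Fin m ⊕ Fin m) F) *ᵥ x) = Q x := by
  rw [sympTransGL_mulVec, q_add Q hpol, hsm, hu, sf_smul_right]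
  linear_combination (sympForm m F x u) ^ 2 * h2

lemma mem_quadSim_inf (g : GL (Fin m ⊕ Fin m) F) (hg : g ∈ spGL m F)
    (h : ∀ x, Q ((g : Matrix (Fin m ⊕ Fin m) (Fin m ⊕ Fin m) F) *ᵥ x) = Q x) :
    g ∈ quadSimilarityGroup Q ⊓ spGL m F :=
  ⟨⟨1, fun v => by rw [h v, Units.val_one, one_mul]⟩, hg⟩

include hpol in
lemma q_eq_of_mem (u v : Fin m ⊕ Fin m → F) (huv : sympForm m F u v ≠ 0)
    (g : GL (Fin m ⊕ Fin m) F) (hg : g ∈ quadSimilarityGroup Q ⊓ spGL m F)
    (x : Fin m ⊕ Fin m → F) :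
    Q ((g : Matrix (Fin m ⊕ Fin m) (Fin m ⊕ Fin m) F) *ᵥ x) = Q x := by
  obtain ⟨⟨c, hc⟩, hS⟩ := hg
  have h1 := hc (u + v)
  rw [Matrix.mulVec_add, q_add Q hpol, q_add Q hpol, hc u, hc v,
    (mem_spGL_iff m g).mp hS u v] at h1
  have hc1 : (c : F) = 1 := by
    have h3 : ((c : F) - 1) * sympForm m F u v = 0 := by linear_combination -h1
    rcases mul_eq_zero.mp h3 with h | h
    · linear_combination h
    · exact absurd h huv
  rw [hc x, hc1, one_mul]

include hsm hpol h2 hrt in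
/-- Two vectors of the same norm that are not perpendicular are exchanged by a reflection. -/
lemma refl_mem_unitCenters (M : Subgroup (GL (Fin m ⊕ Fin m) F))
    (hHM : quadSimilarityGroup Q ⊓ spGL m F ≤ M) {x y : Fin m ⊕ Fin m → F}
    (hx : x ∈ unitCenters M) (hQ : Q y = Q x) (hf : sympForm m F x y ≠ 0) :
    y ∈ unitCenters M := by
  obtain ⟨ρ, hρ⟩ := hrt (sympForm m F x y)
  have hρ0 : ρ ≠ 0 := by
    rintro rfl
    apply hf
    rw [← hρ]
    ring
  obtain ⟨u, hu⟩ : ∃ u : Fin m ⊕ Fin m → F, u = ρ⁻¹ • (x + y) := ⟨_, rfl⟩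
  have hQu : Q u = 1 := by
    rw [hu, hsm, q_add Q hpol, hQ, ← hρ]
    have h3 : Q x + Q x = 0 := by linear_combination (Q x) * h2
    rw [h3, zero_add]
    field_simp
  have ht : sympTransGL m u 1 ∈ M :=
    hHM (mem_quadSim_inf Q _ (sympTransGL_mem m u 1) (q_trans Q hsm hpol h2 u hQu))
  have hmem := mulVec_mem_unitCenters M _ ht (sympTransGL_mem m u 1) hx
  have e : ((sympTransGL m u 1 : GL (Fin m ⊕ Fin m) F) :
      Matrix (Fin m ⊕ Fin m) (Fin m ⊕ Fin m) F) *ᵥ x = y := by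
    rw [sympTransGL_mulVec, hu, sf_smul_right, sf_add_right, sf_self, zero_add, ← hρ, smul_smul]
    have h1 : 1 * (ρ⁻¹ * ρ ^ 2) * ρ⁻¹ = 1 := by field_simp
    rw [h1, one_smul]
    have h3 : x + x = 0 := by
      have : x + x = (2 : F) • x := by module
      rw [this, h2, zero_smul]
    calc x + (x + y) = (x + x) + y := by abel
      _ = y := by rw [h3, zero_add]
  rw [e] at hmem
  exact hmem

include hpol in
/-- Away from few vectors there is a non-singular vector. -/
lemma exists_nonsing_perp (hm : 4 ≤ m) (s : Finset (Fin m ⊕ Fin m → F)) (hs : s.card ≤ 3) :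
    ∃ t, (∀ u ∈ s, sympForm m F u t = 0) ∧ Q t ≠ 0 := by
  by_contra hcon
  push Not at hcon
  have hQW : ∀ t ∈ sperp (Submodule.span F (s : Set (Fin m ⊕ Fin m → F))), Q t = 0 := by
    intro t ht
    apply hcon
    intro u hu
    exact (mem_sperp _ t).mp ht u (Submodule.subset_span hu)
  have hle : sperp (Submodule.span F (s : Set (Fin m ⊕ Fin m → F)))
      ≤ sperp (sperp (Submodule.span F (s : Set (Fin m ⊕ Fin m → F)))) := by
    intro t ht
    rw [mem_sperp]
    intro w hw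
    have h1 := q_add Q hpol w t
    rw [hQW _ (Submodule.add_mem _ hw ht), hQW w hw, hQW t ht] at h1
    linear_combination -h1
  have h1 := Submodule.finrank_mono hle
  have h2' := finrank_sperp (sperp (Submodule.span F (s : Set (Fin m ⊕ Fin m → F))))
  have h3 := finrank_sperp (Submodule.span F (s : Set (Fin m ⊕ Fin m → F)))
  have h4 : Module.finrank F (Submodule.span F (s : Set (Fin m ⊕ Fin m → F))) ≤ 3 :=
    le_trans (finrank_span_finset_le_card s) hs
  omega

include hsm hpol hrt in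
lemma exists_perp_with_q (hm : 4 ≤ m) (s : Finset (Fin m ⊕ Fin m → F)) (hs : s.card ≤ 3)
    (d : F) : ∃ t, (∀ u ∈ s, sympForm m F u t = 0) ∧ Q t = d := by
  obtain ⟨t₁, ht₁, hQ₁⟩ := exists_nonsing_perp Q hpol hm s hs
  obtain ⟨r, hr⟩ := hrt (d / Q t₁)
  refine ⟨r • t₁, ?_, ?_⟩
  · intro u hu
    rw [sf_smul_right, ht₁ u hu, mul_zero]
  · rw [hsm, hr]
    field_simp

include hsm hpol h2 hrt in
/-- Non-zero vectors of the same norm are centres together. -/
lemma conn_mem_unitCenters (hm : 4 ≤ m) (M : Subgroup (GL (Fin m ⊕ Fin m) F))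
    (hHM : quadSimilarityGroup Q ⊓ spGL m F ≤ M) {x y : Fin m ⊕ Fin m → F}
    (hx : x ∈ unitCenters M) (hx0 : x ≠ 0) (hy0 : y ≠ 0) (hQ : Q y = Q x) :
    y ∈ unitCenters M := by
  classical
  by_cases hf : sympForm m F x y = 0
  · obtain ⟨z₀, hz₀x, hz₀y⟩ := Cfsg.Agent.Lib.Helper8.exists_sympForm_both hx0 hy0
    obtain ⟨t, ht, hQt⟩ := exists_perp_with_q Q hsm hpol hrt hm {x, y, z₀}
      Finset.card_le_three (Q x - Q z₀)
    have hz : Q (z₀ + t) = Q x := by
      rw [q_add Q hpol, hQt, ht z₀ (by simp)]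
      ring
    have hfx : sympForm m F x (z₀ + t) ≠ 0 := by
      rw [sf_add_right, ht x (by simp), add_zero]
      exact hz₀x
    have hfy : sympForm m F (z₀ + t) y ≠ 0 := by
      rw [sf_add_left, sf_swap m t y, ht y (by simp), neg_zero, add_zero, sf_swap]
      exact neg_ne_zero.mpr hz₀y
    have hz' := refl_mem_unitCenters Q hsm hpol h2 hrt M hHM hx hz hfx
    exact refl_mem_unitCenters Q hsm hpol h2 hrt M hHM hz' (hQ.trans hz.symm) hfy
  · exact refl_mem_unitCenters Q hsm hpol h2 hrt M hHM hx hQ hf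

include hsm hpol hrt in
/-- A symplectic map that is not an isometry of `Q` moves some vector of norm one off norm one. -/
lemma exists_unit_moved (hm : 4 ≤ m) (g : GL (Fin m ⊕ Fin m) F) (hgS : g ∈ spGL m F)
    (hgH : g ∉ quadSimilarityGroup Q ⊓ spGL m F) :
    ∃ x, Q x = 1 ∧ Q ((g : Matrix (Fin m ⊕ Fin m) (Fin m ⊕ Fin m) F) *ᵥ x) ≠ 1 := by
  classical
  by_contra hcon
  push Not at hcon
  apply hgH
  apply mem_quadSim_inf Q g hgS
  have h1 : ∀ x, Q x ≠ 0 →
      Q ((g : Matrix (Fin m ⊕ Fin m) (Fin m ⊕ Fin m) F) *ᵥ x) = Q x := by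
    intro x hx
    obtain ⟨r, hr⟩ := hrt (Q x)
    have hr0 : r ≠ 0 := by
      rintro rfl
      apply hx
      rw [← hr]
      ring
    have h := hcon (r⁻¹ • x) (by rw [hsm, ← hr]; field_simp)
    rw [Matrix.mulVec_smul, hsm] at h
    rw [← hr]
    field_simp at h
    linear_combination h
  intro x
  by_cases hx : Q x = 0
  · obtain ⟨z, hz, hQz⟩ := exists_nonsing_perp Q hpol hm {x} (by simp)
    have hxz : Q (x + z) ≠ 0 := by
      rw [q_add Q hpol, hx, hz x (by simp), zero_add, add_zero]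
      exact hQz
    have e1 := h1 (x + z) hxz
    rw [Matrix.mulVec_add, q_add Q hpol, q_add Q hpol, h1 z hQz,
      (mem_spGL_iff m g).mp hgS x z] at e1
    linear_combination e1
  · exact h1 x hx

include hsm hpol h2 hrt in
/-- Given a centre whose norm is not one, there are centres of every norm. -/
lemma exists_center_of_norm (hm : 4 ≤ m) (M : Subgroup (GL (Fin m ⊕ Fin m) F))
    (hN : ∀ u, Q u = 1 → u ∈ unitCenters M) {v₀ : Fin m ⊕ Fin m → F}
    (hv₀ : v₀ ∈ unitCenters M) (hv₀0 : v₀ ≠ 0) (hQ₀ : Q v₀ ≠ 1) (c : F) :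
    ∃ w, w ∈ unitCenters M ∧ w ≠ 0 ∧ Q w = c := by
  classical
  by_cases hc : c = 1
  · obtain ⟨t, -, hQt⟩ := exists_perp_with_q Q hsm hpol hrt hm ∅ (by simp) 1
    refine ⟨t, hN t hQt, ?_, by rw [hQt, hc]⟩
    rintro rfl
    rw [q_zero Q hsm] at hQt
    exact zero_ne_one hQt
  · have hQ₀' : Q v₀ - 1 ≠ 0 := sub_ne_zero.mpr hQ₀
    obtain ⟨φ, hφ⟩ := hrt ((c - 1) / (Q v₀ - 1))
    have hφ0 : φ ≠ 0 := by
      rintro rfl
      have h0 : (c - 1) / (Q v₀ - 1) = 0 := by
        rw [← hφ]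
        ring
      rcases div_eq_zero_iff.mp h0 with h | h
      · exact hc (sub_eq_zero.mp h)
      · exact hQ₀' h
    obtain ⟨d, hd⟩ := Cfsg.Agent.Lib.Helper8.exists_sympForm_ne_zero hv₀0
    have hd' : sympForm m F d v₀ ≠ 0 := by
      rw [sf_swap]
      exact neg_ne_zero.mpr hd
    obtain ⟨u₀, hu₀⟩ : ∃ u₀ : Fin m ⊕ Fin m → F, u₀ = (φ / sympForm m F d v₀) • d := ⟨_, rfl⟩
    have hfu₀ : sympForm m F u₀ v₀ = φ := by
      rw [hu₀, sf_smul_left]
      field_simp
    obtain ⟨t, ht, hQt⟩ := exists_perp_with_q Q hsm hpol hrt hm {v₀, u₀}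
      (le_trans Finset.card_le_two (by norm_num)) (1 - Q u₀)
    have hQu : Q (u₀ + t) = 1 := by
      rw [q_add Q hpol, hQt, ht u₀ (by simp)]
      ring
    have hfu : sympForm m F (u₀ + t) v₀ = φ := by
      rw [sf_add_left, hfu₀, sf_swap m t v₀, ht v₀ (by simp), neg_zero, add_zero]
    have hw := trans_mem_unitCenters M (hN _ hQu) hv₀
    rw [hfu] at hw
    have h1 : sympForm m F (u₀ + t + φ • v₀) v₀ = φ := by
      rw [sf_add_left, hfu, sf_smul_left, sf_self, mul_zero, add_zero]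
    refine ⟨u₀ + t + φ • v₀, hw, ?_, ?_⟩
    · intro h0
      rw [h0, sf_zero_left] at h1
      exact hφ0 h1.symm
    · rw [q_add Q hpol, hQu, hsm, sf_smul_right, hfu]
      have hφ' : φ ^ 2 * (Q v₀ - 1) = c - 1 := by
        rw [hφ]
        field_simp
      linear_combination hφ' + φ ^ 2 * h2

end quad

/-- In characteristic two the isometry group of a quadratic form polarising to the standard
alternating form is a maximal subgroup of the symplectic group. -/
theorem sp_quad_max [Fintype F] (hm : 4 ≤ m) (heven : ¬ Odd (Fintype.card F))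
    (Q : (Fin m ⊕ Fin m → F) → F) (hQ : IsNondegenerateQuadraticForm Q)
    (hpol : ∀ u v, QuadraticMap.polar Q u v = sympForm m F u v) :
    IsMaximalIn (spGL m F) (quadSimilarityGroup Q ⊓ spGL m F) := by
  classical
  have hsm := hQ.smul
  have h2 : (2 : F) = 0 := by
    have hch : ringChar F = 2 := by
      rw [FiniteField.even_card_iff_char_two]
      rcases Nat.even_or_odd (Fintype.card F) with h | h
      · exact Nat.even_iff.mp h
      · exact absurd h heven
    have : CharP F 2 := by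
      rw [← hch]
      exact ringChar.charP F
    exact CharTwo.two_eq_zero
  have hrt : ∀ c : F, ∃ r, r ^ 2 = c := by
    have hinj : Function.Injective (fun x : F => x ^ 2) := by
      intro x y hxy
      have hxy' : x ^ 2 = y ^ 2 := hxy
      have h3 : (x - y) ^ 2 = 0 := by linear_combination hxy' - (x * y - y ^ 2) * h2
      exact sub_eq_zero.mp (pow_eq_zero_iff (two_ne_zero) |>.mp h3)
    exact Finite.injective_iff_surjective.mp hinj
  have hN : ∀ u, Q u = 1 → sympTransGL m u 1 ∈ quadSimilarityGroup Q ⊓ spGL m F :=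
    fun u hu => mem_quadSim_inf Q _ (sympTransGL_mem m u 1) (q_trans Q hsm hpol h2 u hu)
  obtain ⟨e₁, he₁⟩ : ∃ e : Fin m ⊕ Fin m → F, e ≠ 0 := by
    refine ⟨Pi.single (Sum.inl ⟨0, by omega⟩) 1, ?_⟩
    intro h
    have := congrFun h (Sum.inl ⟨0, by omega⟩)
    simp at this
  obtain ⟨e₂, he₂⟩ := Cfsg.Agent.Lib.Helper8.exists_sympForm_ne_zero he₁
  constructor
  · refine lt_of_le_of_ne inf_le_right ?_
    intro heq
    obtain ⟨v, hv0, hQv⟩ : ∃ v : Fin m ⊕ Fin m → F, v ≠ 0 ∧ Q v ≠ 1 := by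
      by_cases h1 : Q e₁ = 1
      · obtain ⟨t, ht, hQt⟩ := exists_perp_with_q Q hsm hpol hrt hm {e₁, e₂}
          (le_trans Finset.card_le_two (by norm_num)) 1
        refine ⟨e₁ + t, ?_, ?_⟩
        · intro h0
          have h3 : sympForm m F (e₁ + t) e₂ = sympForm m F e₁ e₂ := by
            rw [sf_add_left, sf_swap m t e₂, ht e₂ (by simp), neg_zero, add_zero]
          rw [h0, sf_zero_left] at h3
          exact he₂ h3.symm
        · rw [q_add Q hpol, h1, hQt, ht e₁ (by simp), add_zero]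
          intro h3
          have h4 : (1 : F) = 0 := by linear_combination h3
          exact one_ne_zero h4
      · exact ⟨e₁, he₁, h1⟩
    have hmem : sympTransGL m v 1 ∈ quadSimilarityGroup Q ⊓ spGL m F := by
      rw [heq]
      exact sympTransGL_mem m v 1
    obtain ⟨z, hz⟩ := Cfsg.Agent.Lib.Helper8.exists_sympForm_ne_zero hv0
    have hz' : sympForm m F z v ≠ 0 := by
      rw [sf_swap]
      exact neg_ne_zero.mpr hz
    have h3 := q_eq_of_mem Q hpol e₁ e₂ he₂ _ hmem z
    rw [sympTransGL_mulVec, q_add Q hpol, hsm, sf_smul_right, one_mul] at h3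
    have h4 : (sympForm m F z v) ^ 2 * (Q v - 1) = 0 := by
      linear_combination h3 - (sympForm m F z v) ^ 2 * h2
    rcases mul_eq_zero.mp h4 with h | h
    · exact hz' (pow_eq_zero_iff (two_ne_zero) |>.mp h)
    · exact hQv (sub_eq_zero.mp h)
  · intro M hHM hMS
    by_cases hMH : M = quadSimilarityGroup Q ⊓ spGL m F
    · exact Or.inl hMH
    right
    apply le_antisymm hMS
    have hnle : ¬ M ≤ quadSimilarityGroup Q ⊓ spGL m F := fun h => hMH (le_antisymm h hHM)
    obtain ⟨g, hgM, hgH⟩ := SetLike.not_le_iff_exists.mp hnle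
    obtain ⟨x, hQx, hQgx⟩ := exists_unit_moved Q hsm hpol hrt hm g (hMS hgM) hgH
    have hNM : ∀ u, Q u = 1 → u ∈ unitCenters M := fun u hu => hHM (hN u hu)
    have hv₀ : (g : Matrix (Fin m ⊕ Fin m) (Fin m ⊕ Fin m) F) *ᵥ x ∈ unitCenters M :=
      mulVec_mem_unitCenters M g hgM (hMS hgM) (hNM x hQx)
    have hv₀0 : (g : Matrix (Fin m ⊕ Fin m) (Fin m ⊕ Fin m) F) *ᵥ x ≠ 0 := by
      intro h0
      have hx0 : x = 0 := gl_mulVec_injective g (by rw [h0, Matrix.mulVec_zero])
      rw [hx0, q_zero Q hsm] at hQx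
      exact zero_ne_one hQx
    apply spGL_le_of_unitCenters M hrt
    intro w
    by_cases hw : w = 0
    · rw [hw]
      show sympTransGL m 0 1 ∈ M
      rw [sympTransGL_zero]
      exact M.one_mem
    obtain ⟨w', hw', hw'0, hQw'⟩ :=
      exists_center_of_norm Q hsm hpol h2 hrt hm M hNM hv₀ hv₀0 hQgx (Q w)
    exact conn_mem_unitCenters Q hsm hpol h2 hrt hm M hHM hw' hw'0 hw hQw'.symm

end Cfsg.Agent.Lib.Helper94
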