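import Cfsg.Agent.Lib.Helper94.Symp
import Cfsg.Agent.Lib.Helper94.FrameMax

set_option autoImplicit false
set_option linter.unusedSectionVars false

namespace Cfsg.Agent.Lib.Helper94

open Cfsg Cfsg.Geo
open scoped MatrixGroups Matrix

variable {F : Type*} [Field F] {m : ℕ}

/-- `chi D j v` is `0` if `v` is orthogonal to the member `D j` and `1` otherwise. -/
noncomputable def chi {t : ℕ} (D : Fin t → Submodule F (Fin m ⊕ Fin m → F)) (j : Fin t)
    (v : Fin m ⊕ Fin m → F) : F :=
  letI := Classical.propDecidable (∀ d ∈ D j, sympForm m F v d = 0)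
  if ∀ d ∈ D j, sympForm m F v d = 0 then 0 else 1

lemma chi_of_perp {t : ℕ} (D : Fin t → Submodule F (Fin m ⊕ Fin m → F)) (j : Fin t)
    (v : Fin m ⊕ Fin m → F) (h : ∀ d ∈ D j, sympForm m F v d = 0) : chi D j v = 0 := by
  unfold chi
  exact if_pos h

lemma chi_of_not_perp {t : ℕ} (D : Fin t → Submodule F (Fin m ⊕ Fin m → F)) (j : Fin t)
    (v : Fin m ⊕ Fin m → F) (h : ¬ ∀ d ∈ D j, sympForm m F v d = 0) : chi D j v = 1 := by
  unfold chi
  exact if_neg h

/-- The number of members of the decomposition not orthogonal to `v`, as an element of `F`. -/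
noncomputable def qD {t : ℕ} (D : Fin t → Submodule F (Fin m ⊕ Fin m → F))
    (v : Fin m ⊕ Fin m → F) : F := ∑ j, chi D j v

/-- A symplectic basis of a non-degenerate plane over the field with two elements. -/
lemma exists_block_basis [Fintype F] (hF : Fintype.card F = 2)
    (D0 : Submodule F (Fin m ⊕ Fin m → F)) (hfr : Module.finrank F D0 = 2)
    (hnd : IsNondegenerateOn (sympForm m F) D0) :
    ∃ a b : Fin m ⊕ Fin m → F, a ∈ D0 ∧ b ∈ D0 ∧ sympForm m F a b = 1 ∧
      ∀ d ∈ D0, ∃ x y : F, d = x • a + y • b := by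
  have h01 := eq_zero_or_one_of_card hF
  have hne : D0 ≠ ⊥ := by
    intro h
    rw [h] at hfr
    simp at hfr
  obtain ⟨a, haD, ha0⟩ := Submodule.exists_mem_ne_zero_of_ne_bot hne
  obtain ⟨-, ⟨b, hbD, hab⟩⟩ := hnd a haD ha0
  have hab1 : sympForm m F a b = 1 := (h01 _).resolve_left hab
  refine ⟨a, b, haD, hbD, hab1, ?_⟩
  have hli : LinearIndependent F ![a, b] := by
    rw [LinearIndependent.pair_iff]
    intro s t hst
    have e1 : sympForm m F (s • a + t • b) b = 0 := by rw [hst, sf_zero_left]
    have e2 : sympForm m F a (s • a + t • b) = 0 := by rw [hst, sf_zero_right]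
    rw [sf_add_left, sf_smul_left, sf_smul_left, sf_self, hab1] at e1
    rw [sf_add_right, sf_smul_right, sf_smul_right, sf_self, hab1] at e2
    constructor
    · simpa using e1
    · simpa using e2
  have hspan_le : Submodule.span F {a, b} ≤ D0 := by
    rw [Submodule.span_le]
    intro v hv
    rcases hv with rfl | rfl
    · exact haD
    · exact hbD
  have hfr' : Module.finrank F (Submodule.span F {a, b}) = 2 := by
    have := finrank_span_eq_card hli
    rw [Matrix.range_cons_cons_empty] at this
    simpa using this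
  have heq : Submodule.span F {a, b} = D0 :=
    Submodule.eq_of_le_of_finrank_eq hspan_le (by rw [hfr', hfr])
  intro v hv
  rw [← heq, Submodule.mem_span_pair] at hv
  obtain ⟨x, y, hxy⟩ := hv
  exact ⟨x, y, hxy.symm⟩

lemma perp_iff_basis {t : ℕ} (D : Fin t → Submodule F (Fin m ⊕ Fin m → F)) (j : Fin t)
    (a b : Fin m ⊕ Fin m → F) (ha : a ∈ D j) (hb : b ∈ D j)
    (hspan : ∀ d ∈ D j, ∃ x y : F, d = x • a + y • b) (v : Fin m ⊕ Fin m → F) :
    (∀ d ∈ D j, sympForm m F v d = 0) ↔ (sympForm m F v a = 0 ∧ sympForm m F v b = 0) := by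
  constructor
  · intro h
    exact ⟨h a ha, h b hb⟩
  · rintro ⟨h1, h2⟩ d hd
    obtain ⟨x, y, rfl⟩ := hspan d hd
    rw [sf_add_right, sf_smul_right, sf_smul_right, h1, h2]
    ring

/-- The change of `chi` under adding a vector with prescribed values on a symplectic basis. -/
lemma chi_add_basis [Fintype F] (hF : Fintype.card F = 2) {t : ℕ}
    (D : Fin t → Submodule F (Fin m ⊕ Fin m → F)) (j : Fin t)
    (a b : Fin m ⊕ Fin m → F) (ha : a ∈ D j) (hb : b ∈ D j)
    (hspan : ∀ d ∈ D j, ∃ x y : F, d = x • a + y • b) (x w : Fin m ⊕ Fin m → F)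
    (hwa : sympForm m F w a = 0) (hwb : sympForm m F w b = 1) :
    chi D j (x + w) = chi D j x + 1 + sympForm m F x a := by
  have h2 := two_eq_zero_of_card hF
  have h01 := eq_zero_or_one_of_card hF
  have hp := perp_iff_basis D j a b ha hb hspan
  have e1 : sympForm m F (x + w) a = sympForm m F x a := by rw [sf_add_left, hwa, add_zero]
  have e2 : sympForm m F (x + w) b = sympForm m F x b + 1 := by rw [sf_add_left, hwb]
  have h11 : (1 : F) + 1 = 0 := by linear_combination h2
  rcases h01 (sympForm m F x a) with hX | hX <;> rcases h01 (sympForm m F x b) with hY | hY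
  · rw [chi_of_perp D j x ((hp x).mpr ⟨hX, hY⟩),
      chi_of_not_perp D j (x + w) (fun h => by
        have := ((hp (x + w)).mp h).2
        rw [e2, hY] at this
        simp at this), hX]
    ring
  · rw [chi_of_not_perp D j x (fun h => by
        have := ((hp x).mp h).2
        rw [hY] at this
        simp at this),
      chi_of_perp D j (x + w) ((hp (x + w)).mpr ⟨by rw [e1, hX], by rw [e2, hY, h11]⟩), hX]
    linear_combination -h2
  · rw [chi_of_not_perp D j x (fun h => by
        have := ((hp x).mp h).1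
        rw [hX] at this
        simp at this),
      chi_of_not_perp D j (x + w) (fun h => by
        have := ((hp (x + w)).mp h).1
        rw [e1, hX] at this
        simp at this), hX]
    linear_combination -h2
  · rw [chi_of_not_perp D j x (fun h => by
        have := ((hp x).mp h).1
        rw [hX] at this
        simp at this),
      chi_of_not_perp D j (x + w) (fun h => by
        have := ((hp (x + w)).mp h).1
        rw [e1, hX] at this
        simp at this), hX]
    linear_combination -h2

lemma chi_add_perp {t : ℕ} (D : Fin t → Submodule F (Fin m ⊕ Fin m → F)) (j : Fin t)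
    (x w : Fin m ⊕ Fin m → F) (hw : ∀ d ∈ D j, sympForm m F w d = 0) :
    chi D j (x + w) = chi D j x := by
  have hiff : (∀ d ∈ D j, sympForm m F (x + w) d = 0) ↔ (∀ d ∈ D j, sympForm m F x d = 0) :=
    forall₂_congr fun d hd => by rw [sf_add_left, hw d hd, add_zero]
  by_cases h : ∀ d ∈ D j, sympForm m F x d = 0
  · rw [chi_of_perp D j x h, chi_of_perp D j (x + w) (hiff.mpr h)]
  · rw [chi_of_not_perp D j x h, chi_of_not_perp D j (x + w) (fun h' => h (hiff.mp h'))]

/-- The dimension count for a decomposition into `k`-dimensional members. -/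
lemma decomposition_card {ι : Type} [Fintype ι] [DecidableEq ι] {t k : ℕ}
    (D : Fin t → Submodule F (ι → F)) (hD : IsMDecomposition k D) :
    Fintype.card ι = t * k := by
  have hint := DirectSum.isInternal_submodule_of_iSupIndep_of_iSup_eq_top hD.indep hD.iSup_eq_top
  have e := LinearEquiv.ofBijective (DirectSum.coeLinearMap D) hint
  have h1 := e.finrank_eq
  rw [Module.finrank_directSum, Module.finrank_pi] at h1
  rw [← h1]
  simp [hD.finrank_eq]

/-- The stabiliser of a decomposition preserves the count `qD`. -/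
lemma qD_of_mem_stab {t : ℕ} (D : Fin t → Submodule F (Fin m ⊕ Fin m → F))
    (g : GL (Fin m ⊕ Fin m) F) (hgD : g ∈ decompositionStabilizer D) (hgS : g ∈ spGL m F)
    (v : Fin m ⊕ Fin m → F) :
    qD D ((g : Matrix (Fin m ⊕ Fin m) (Fin m ⊕ Fin m) F) *ᵥ v) = qD D v := by
  obtain ⟨σ, hσ⟩ := (mem_decompositionStabilizer_iff D g).mp hgD
  have hchi : ∀ j, chi D (σ j) ((g : Matrix (Fin m ⊕ Fin m) (Fin m ⊕ Fin m) F) *ᵥ v)
      = chi D j v := by
    intro j
    have hiff : (∀ d ∈ D (σ j), sympForm m F
        ((g : Matrix (Fin m ⊕ Fin m) (Fin m ⊕ Fin m) F) *ᵥ v) d = 0) ↔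
        (∀ d ∈ D j, sympForm m F v d = 0) := by
      constructor
      · intro h d hd
        have := h _ (mulVec_mem_of_mem_decompositionStabilizer D g σ hσ j d hd)
        rwa [(mem_spGL_iff m g).mp hgS] at this
      · intro h d hd
        rw [← hσ j] at hd
        obtain ⟨d', hd', rfl⟩ := hd
        rw [Matrix.toLin'_apply, (mem_spGL_iff m g).mp hgS]
        exact h d' hd'
    by_cases h : ∀ d ∈ D j, sympForm m F v d = 0
    · rw [chi_of_perp D j v h, chi_of_perp D (σ j) _ (hiff.mpr h)]
    · rw [chi_of_not_perp D j v h, chi_of_not_perp D (σ j) _ (fun h' => h (hiff.mp h'))]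
  unfold qD
  rw [← Equiv.sum_comp σ]
  exact Finset.sum_congr rfl fun j _ => hchi j

/-- The change of `qD` under adding a sum of first basis vectors of some blocks. -/
lemma qD_add_sum [Fintype F] (hF : Fintype.card F = 2) {t : ℕ}
    (D : Fin t → Submodule F (Fin m ⊕ Fin m → F))
    (horth : ∀ i j, i ≠ j → AreOrthogonalFor (sympForm m F) (D i) (D j))
    (a b : Fin t → (Fin m ⊕ Fin m → F)) (ha : ∀ j, a j ∈ D j) (hb : ∀ j, b j ∈ D j)
    (hab : ∀ j, sympForm m F (a j) (b j) = 1)
    (hspan : ∀ j, ∀ d ∈ D j, ∃ x y : F, d = x • a j + y • b j)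
    (J : Finset (Fin t)) (x : Fin m ⊕ Fin m → F) :
    qD D (x + ∑ j ∈ J, a j) = qD D x + (J.card : F) + sympForm m F x (∑ j ∈ J, a j) := by
  classical
  have hchi : ∀ j, chi D j (x + ∑ i ∈ J, a i)
      = chi D j x + (if j ∈ J then 1 + sympForm m F x (a j) else 0) := by
    intro j
    by_cases hj : j ∈ J
    · rw [if_pos hj, ← add_assoc]
      apply chi_add_basis hF D j (a j) (b j) (ha j) (hb j) (hspan j)
      · rw [sf_sum_left]
        apply Finset.sum_eq_zero
        intro i _
        by_cases hij : i = j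
        · rw [hij, sf_self]
        · exact horth i j hij _ (ha i) _ (ha j)
      · rw [sf_sum_left, Finset.sum_eq_single_of_mem j hj, hab j]
        intro i _ hij
        exact horth i j hij _ (ha i) _ (hb j)
    · rw [if_neg hj, add_zero]
      apply chi_add_perp
      intro d hd
      rw [sf_sum_left]
      apply Finset.sum_eq_zero
      intro i hi
      exact horth i j (fun h => hj (h ▸ hi)) _ (ha i) _ hd
  unfold qD
  rw [Finset.sum_congr rfl fun j _ => hchi j, Finset.sum_add_distrib, Finset.sum_ite_mem,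
    Finset.univ_inter, Finset.sum_add_distrib, sf_sum_right]
  simp
  ring

/-- Over the field with two elements the stabiliser in the symplectic group of a decomposition
into at least three pairwise orthogonal non-degenerate planes is not maximal. -/
theorem sp_two_decomp_not_max [Fintype F] (hF : Fintype.card F = 2) {t : ℕ}
    (D : Fin t → Submodule F (Fin m ⊕ Fin m → F))
    (hD : IsNondegenerateMDecomposition (sympForm m F) 2 D) (ht : 3 ≤ t) :
    ∃ K : Subgroup (GL (Fin m ⊕ Fin m) F),
      decompositionStabilizer D ⊓ spGL m F < K ∧ K < spGL m F := by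
  classical
  have h2 := two_eq_zero_of_card hF
  have h01 := eq_zero_or_one_of_card hF
  have h11 : (1 : F) + 1 = 0 := by linear_combination h2
  have horth := hD.orthogonal
  choose a b ha hb hab hspan using fun j =>
    exists_block_basis hF (D j) (hD.decomp.finrank_eq j) (hD.nondegenerate j)
  have hba : ∀ j, sympForm m F (b j) (a j) = 1 := by
    intro j
    rw [sf_swap, hab j]
    linear_combination -h2
  have key := qD_add_sum hF D horth a b ha hb hab hspan
  obtain ⟨j1, hj1⟩ : ∃ j : Fin t, j = ⟨0, by omega⟩ := ⟨_, rfl⟩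
  obtain ⟨j2, hj2⟩ : ∃ j : Fin t, j = ⟨1, by omega⟩ := ⟨_, rfl⟩
  obtain ⟨j3, hj3⟩ : ∃ j : Fin t, j = ⟨2, by omega⟩ := ⟨_, rfl⟩
  have h12 : j1 ≠ j2 := by rw [hj1, hj2]; simp
  have h13 : j1 ≠ j3 := by rw [hj1, hj3]; simp
  have h23 : j2 ≠ j3 := by rw [hj2, hj3]; simp
  refine ⟨isometryGroup F (qD D) ⊓ spGL m F, ?_, ?_⟩
  · rw [SetLike.lt_iff_le_and_exists]
    constructor
    · intro g hg
      rw [Subgroup.mem_inf] at hg ⊢
      exact ⟨fun u v => qD_of_mem_stab D g hg.1 hg.2 u, hg.2⟩
    · obtain ⟨J, hJ⟩ : ∃ J : Finset (Fin t), J = {j1, j2, j3} := ⟨_, rfl⟩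
      have hcard : J.card = 3 := by
        rw [hJ, Finset.card_insert_of_notMem (by simp [h12, h13]),
          Finset.card_insert_of_notMem (by simp [h23]), Finset.card_singleton]
      obtain ⟨w, hw⟩ : ∃ w : Fin m ⊕ Fin m → F, w = ∑ j ∈ J, a j := ⟨_, rfl⟩
      have hwsum : w = a j1 + a j2 + a j3 := by
        rw [hw, hJ, Finset.sum_insert (by simp [h12, h13]), Finset.sum_insert (by simp [h23]),
          Finset.sum_singleton, add_assoc]
      refine ⟨sympTransGL m w 1, Subgroup.mem_inf.mpr ⟨?_, sympTransGL_mem m w 1⟩, ?_⟩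
      · intro u v
        show qD D ((sympTransGL m w 1 : GL (Fin m ⊕ Fin m) F).1 *ᵥ u) = qD D u
        rw [sympTransGL_mulVec, one_mul]
        rcases h01 (sympForm m F u w) with h0 | h1
        · rw [h0, zero_smul, add_zero]
        · rw [h1, one_smul, hw, key J u, ← hw, h1, hcard]
          push_cast
          linear_combination (2 : F) * h2
      · intro hg
        obtain ⟨σ, hσ⟩ := (mem_decompositionStabilizer_iff D _).mp (Subgroup.mem_inf.mp hg).1
        have m1 := mulVec_mem_of_mem_decompositionStabilizer D _ σ hσ j1 (b j1) (hb j1)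
        rw [sympTransGL_mulVec, one_mul] at m1
        have e1 : sympForm m F (b j1) w = 1 := by
          rw [hwsum, sf_add_right, sf_add_right, hba j1, horth j1 j2 h12 _ (hb j1) _ (ha j2),
            horth j1 j3 h13 _ (hb j1) _ (ha j3)]
          ring
        rw [e1, one_smul] at m1
        have e2 : sympForm m F (b j1 + w) (b j2) = 1 := by
          rw [hwsum, sf_add_left, sf_add_left, sf_add_left, hab j2,
            horth j1 j2 h12 _ (hb j1) _ (hb j2), horth j1 j2 h12 _ (ha j1) _ (hb j2),
            horth j3 j2 h23.symm _ (ha j3) _ (hb j2)]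
          ring
        have e3 : sympForm m F (b j1 + w) (b j3) = 1 := by
          rw [hwsum, sf_add_left, sf_add_left, sf_add_left, hab j3,
            horth j1 j3 h13 _ (hb j1) _ (hb j3), horth j1 j3 h13 _ (ha j1) _ (hb j3),
            horth j2 j3 h23 _ (ha j2) _ (hb j3)]
          ring
        have k2 : σ j1 = j2 := by
          by_contra hne
          have := horth (σ j1) j2 hne _ m1 _ (hb j2)
          rw [e2] at this
          exact one_ne_zero this
        have k3 : σ j1 = j3 := by
          by_contra hne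
          have := horth (σ j1) j3 hne _ m1 _ (hb j3)
          rw [e3] at this
          exact one_ne_zero this
        exact h23 (k2.symm.trans k3)
  · rw [SetLike.lt_iff_le_and_exists]
    refine ⟨inf_le_right, ?_⟩
    obtain ⟨J, hJ⟩ : ∃ J : Finset (Fin t), J = {j1, j2} := ⟨_, rfl⟩
    have hcard : J.card = 2 := by
      rw [hJ, Finset.card_insert_of_notMem (by simp [h12]), Finset.card_singleton]
    obtain ⟨w, hw⟩ : ∃ w : Fin m ⊕ Fin m → F, w = ∑ j ∈ J, a j := ⟨_, rfl⟩
    have hwsum : w = a j1 + a j2 := by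
      rw [hw, hJ, Finset.sum_insert (by simp [h12]), Finset.sum_singleton]
    refine ⟨sympTransGL m w 1, sympTransGL_mem m w 1, ?_⟩
    intro hg
    have hiso := isometry_apply _ (Subgroup.mem_inf.mp hg).1 (b j1)
    rw [sympTransGL_mulVec, one_mul] at hiso
    have e1 : sympForm m F (b j1) w = 1 := by
      rw [hwsum, sf_add_right, hba j1, horth j1 j2 h12 _ (hb j1) _ (ha j2)]
      ring
    rw [e1, one_smul, hw, key J (b j1), ← hw, e1, hcard] at hiso
    push_cast at hiso
    have : (1 : F) = 0 := by linear_combination hiso - h2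
    exact one_ne_zero this

end Cfsg.Agent.Lib.Helper94
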