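import Mathlib
import Cfsg.Agent.Lib.Helper94.SubGood
import Cfsg.Agent.Lib.Helper94.SL2Gen

set_option autoImplicit false

/-! The "generic" case: an overgroup `M` of the rational transvections with no extra root
parameters cannot map a rational vector to a vector outside all rational hyperplanes. -/

namespace Cfsg.Agent.Lib.Helper94.Subf

open Matrix Cfsg.Agent.Lib.Helper5.SL2 Cfsg.Agent.Lib.Helper89

variable {F : Type*} [Field F] {n : ℕ}

/-- the elements of `SL₂` induced (up to sign) on the plane `⟨w, u⟩` by elements of `M` -/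
def planeSub (M : Subgroup (GL (Fin n) F)) (w u : Fin n → F) :
    Subgroup (SpecialLinearGroup (Fin 2) F) where
  carrier := {s | ∃ m ∈ M, ∃ ε : F, (ε = 1 ∨ ε = -1) ∧
    (m : Matrix (Fin n) (Fin n) F) *ᵥ w = ε • (s.1 0 0 • w + s.1 1 0 • u) ∧
    (m : Matrix (Fin n) (Fin n) F) *ᵥ u = ε • (s.1 0 1 • w + s.1 1 1 • u)}
  mul_mem' := by
    rintro s s' ⟨m, hm, ε, hε, hw, hu⟩ ⟨m', hm', ε', hε', hw', hu'⟩
    refine ⟨m * m', M.mul_mem hm hm', ε * ε', ?_, ?_, ?_⟩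
    · rcases hε with rfl | rfl <;> rcases hε' with rfl | rfl <;> simp
    · rw [Cfsg.Agent.Lib.Helper93.gl_mul_mulVec, hw', Matrix.mulVec_smul, Matrix.mulVec_add,
        Matrix.mulVec_smul, Matrix.mulVec_smul, hw, hu, sl_mul_00, sl_mul_10]
      module
    · rw [Cfsg.Agent.Lib.Helper93.gl_mul_mulVec, hu', Matrix.mulVec_smul, Matrix.mulVec_add,
        Matrix.mulVec_smul, Matrix.mulVec_smul, hw, hu, sl_mul_01, sl_mul_11]
      module
  one_mem' := by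
    refine ⟨1, M.one_mem, 1, Or.inl rfl, ?_, ?_⟩
    · rw [Units.val_one, Matrix.one_mulVec, sl_one_00, sl_one_10]
      module
    · rw [Units.val_one, Matrix.one_mulVec, sl_one_01, sl_one_11]
      module
  inv_mem' := by
    rintro s ⟨m, hm, ε, hε, hw, hu⟩
    have hε2 : ε * ε = 1 := by rcases hε with rfl | rfl <;> simp
    have hd := sl_det s
    refine ⟨m⁻¹, M.inv_mem hm, ε, hε, ?_, ?_⟩
    · have h1 : (m : Matrix (Fin n) (Fin n) F) *ᵥ
          (ε • ((s⁻¹).1 0 0 • w + (s⁻¹).1 1 0 • u)) = w := by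
        rw [sl_inv_00, sl_inv_10, Matrix.mulVec_smul, Matrix.mulVec_add, Matrix.mulVec_smul,
          Matrix.mulVec_smul, hw, hu]
        refine Eq.trans (b := (ε * ε * (s.1 0 0 * s.1 1 1 - s.1 0 1 * s.1 1 0)) • w)
          (by module) ?_
        rw [hε2, hd, one_mul, one_smul]
      conv_lhs => rw [← h1]
      rw [Cfsg.Agent.Lib.Helper93.gl_inv_mulVec]
    · have h1 : (m : Matrix (Fin n) (Fin n) F) *ᵥ
          (ε • ((s⁻¹).1 0 1 • w + (s⁻¹).1 1 1 • u)) = u := by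
        rw [sl_inv_01, sl_inv_11, Matrix.mulVec_smul, Matrix.mulVec_add, Matrix.mulVec_smul,
          Matrix.mulVec_smul, hw, hu]
        refine Eq.trans (b := (ε * ε * (s.1 0 0 * s.1 1 1 - s.1 0 1 * s.1 1 0)) • u)
          (by module) ?_
        rw [hε2, hd, one_mul, one_smul]
      conv_lhs => rw [← h1]
      rw [Cfsg.Agent.Lib.Helper93.gl_inv_mulVec]

theorem neg_one_mem_planeSub (M : Subgroup (GL (Fin n) F)) (w u : Fin n → F) :
    (-1 : SpecialLinearGroup (Fin 2) F) ∈ planeSub M w u := by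
  refine ⟨1, M.one_mem, -1, Or.inr rfl, ?_, ?_⟩
  · rw [Units.val_one, Matrix.one_mulVec, sl_neg_apply, sl_neg_apply, sl_one_00, sl_one_10]
    module
  · rw [Units.val_one, Matrix.one_mulVec, sl_neg_apply, sl_neg_apply, sl_one_01, sl_one_11]
    module

theorem uSL_mem_planeSub {F₀ : Subfield F} {M : Subgroup (GL (Fin n) F)} (hM : HasRat F₀ M)
    {w u ψ : Fin n → F} (hw : Rat F₀ w) (hψ : Rat F₀ ψ) (hψw : ψ ⬝ᵥ w = 0) :
    uSL (ψ ⬝ᵥ u) ∈ planeSub M w u := by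
  refine ⟨tv ψ w, hM ψ w hψ hw hψw, 1, Or.inl rfl, ?_, ?_⟩
  · rw [tv_mulVec hψw, hψw, uSL_00, uSL_10]
    module
  · rw [tv_mulVec hψw, uSL_01, uSL_11]
    module

theorem lSL_mem_planeSub {M : Subgroup (GL (Fin n) F)} {w u φ : Fin n → F}
    (hφu : φ ⬝ᵥ u = 0) (h : tv φ u ∈ M) : lSL (φ ⬝ᵥ w) ∈ planeSub M w u := by
  refine ⟨tv φ u, h, 1, Or.inl rfl, ?_, ?_⟩
  · rw [tv_mulVec hφu, lSL_00, lSL_10]
    module
  · rw [tv_mulVec hφu, hφu, lSL_01, lSL_11]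
    module

/-- no element of `M` maps a rational vector outside all rational hyperplanes -/
theorem bad_false [Fintype F] (F₀ : Subfield F) (hn : 7 ≤ n)
    (hmax : ∀ K : Subfield F, F₀ ≤ K → K = F₀ ∨ K = ⊤) {M : Subgroup (GL (Fin n) F)}
    (hM : HasRat F₀ M) (hR : NoExtra F₀ M) (g : GL (Fin n) F) (hg : g ∈ M) (x0 : Fin n → F)
    (hx0 : Rat F₀ x0) (hx00 : x0 ≠ 0)
    (hgen : ∀ ψ : Fin n → F, Rat F₀ ψ → ψ ≠ 0 →
      ψ ⬝ᵥ ((g : Matrix (Fin n) (Fin n) F) *ᵥ x0) ≠ 0) : False := by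
  classical
  have h1F : (1 : F) ∈ F₀ := F₀.one_mem
  obtain ⟨u, hu⟩ : ∃ u, u = (g : Matrix (Fin n) (Fin n) F) *ᵥ x0 := ⟨_, rfl⟩
  rw [← hu] at hgen
  obtain ⟨i0, hi0⟩ : ∃ i0 : Fin n, i0 = ⟨0, by omega⟩ := ⟨_, rfl⟩
  obtain ⟨i1, hi1⟩ : ∃ i1 : Fin n, i1 = ⟨1, by omega⟩ := ⟨_, rfl⟩
  obtain ⟨i2, hi2⟩ : ∃ i2 : Fin n, i2 = ⟨2, by omega⟩ := ⟨_, rfl⟩
  have h01 : i0 ≠ i1 := by rw [hi0, hi1]; intro h; simp [Fin.ext_iff] at h
  have h02 : i0 ≠ i2 := by rw [hi0, hi2]; intro h; simp [Fin.ext_iff] at h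
  have h12 : i1 ≠ i2 := by rw [hi1, hi2]; intro h; simp [Fin.ext_iff] at h
  obtain ⟨w, hw⟩ : ∃ w : Fin n → F, w = Pi.single i0 1 := ⟨_, rfl⟩
  have hwr : Rat F₀ w := by rw [hw]; exact rat_single F₀ i0 h1F
  have hw0 : w ≠ 0 := by rw [hw]; exact single_one_ne_zero i0
  obtain ⟨S, hS⟩ : ∃ S, S = planeSub M w u := ⟨_, rfl⟩
  have hneg : -1 ∈ S := by rw [hS]; exact neg_one_mem_planeSub M w u
  have hU : ∀ ψ : Fin n → F, Rat F₀ ψ → ψ ⬝ᵥ w = 0 → uSL (ψ ⬝ᵥ u) ∈ S := by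
    intro ψ hψ hψw
    rw [hS]
    exact uSL_mem_planeSub hM hwr hψ hψw
  have hui : ∀ i : Fin n, u i ≠ 0 := by
    intro i
    have := hgen (Pi.single i 1) (rat_single F₀ i h1F) (single_one_ne_zero i)
    rwa [single_dotProduct, one_mul] at this
  -- the lower element
  obtain ⟨ψ₀, hψ₀, hψ₀x, hψ₀w⟩ : ∃ ψ₀ : Fin n → F, Rat F₀ ψ₀ ∧ ψ₀ ⬝ᵥ x0 = 0 ∧
      ψ₀ ⬝ᵥ (((g⁻¹ : GL (Fin n) F) : Matrix (Fin n) (Fin n) F) *ᵥ w) ≠ 0 := by
    by_contra hcon
    push Not at hcon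
    obtain ⟨c, hc⟩ := prop_of_forall_perp F₀ hx0 hx00
      (u := ((g⁻¹ : GL (Fin n) F) : Matrix (Fin n) (Fin n) F) *ᵥ w)
      (fun z hz hzx => hcon z hz hzx)
    have h1 : w = c • u := by
      have := congrArg (fun t => (g : Matrix (Fin n) (Fin n) F) *ᵥ t) hc
      simp only [Cfsg.Agent.Lib.Helper93.gl_mulVec_inv, Matrix.mulVec_smul] at this
      rw [this, hu]
    have h2 := congrFun h1 i1
    rw [hw, Pi.single_eq_of_ne (Ne.symm h01), Pi.smul_apply, smul_eq_mul] at h2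
    have hc0 : c = 0 := by
      rcases mul_eq_zero.mp h2.symm with h | h
      · exact h
      · exact absurd h (hui i1)
    rw [hc0, zero_smul] at h1
    exact hw0 h1
  obtain ⟨φ, hφ⟩ : ∃ φ : Fin n → F,
      φ = ψ₀ ᵥ* ((g⁻¹ : GL (Fin n) F) : Matrix (Fin n) (Fin n) F) := ⟨_, rfl⟩
  have hφu : φ ⬝ᵥ u = 0 := by
    rw [hφ, hu, ← Matrix.dotProduct_mulVec, Cfsg.Agent.Lib.Helper93.gl_inv_mulVec, hψ₀x]
  have hφM : tv φ u ∈ M := by
    have h1 := tv_conj g hψ₀x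
    rw [hφ, hu, ← h1]
    exact M.mul_mem (M.mul_mem hg (hM _ _ hψ₀ hx0 hψ₀x)) (M.inv_mem hg)
  have hφw : φ ⬝ᵥ w ≠ 0 := by
    rw [hφ, ← Matrix.dotProduct_mulVec]
    exact hψ₀w
  have hL : lSL (φ ⬝ᵥ w) ∈ S := by
    rw [hS]
    exact lSL_mem_planeSub hφu hφM
  -- upper elements
  have hF₀ : ∀ c ∈ F₀, uSL (c * u i1) ∈ S := by
    intro c hc
    have := hU (c • Pi.single i1 1) ((rat_single F₀ i1 h1F).smul hc)
      (by rw [smul_dotProduct, hw, single_dot_single_ne (Ne.symm h01), smul_zero])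
    rwa [smul_dotProduct, single_dotProduct, one_mul, smul_eq_mul] at this
  have ha2 : uSL (u i2) ∈ S := by
    have := hU (Pi.single i2 1) (rat_single F₀ i2 h1F)
      (by rw [hw]; exact single_dot_single_ne (Ne.symm h02) 1 1)
    rwa [single_dotProduct, one_mul] at this
  have hind : ∀ c ∈ F₀, u i2 ≠ c * u i1 := by
    intro c hc h
    have h1 := hgen (Pi.single i2 1 - c • Pi.single i1 1)
      ((rat_single F₀ i2 h1F).sub ((rat_single F₀ i1 h1F).smul hc)) (by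
        intro h0
        have := congrFun h0 i2
        simp [Pi.single_eq_of_ne (Ne.symm h12)] at this)
    apply h1
    rw [sub_dotProduct, smul_dotProduct, single_dotProduct, single_dotProduct, one_mul, one_mul,
      smul_eq_mul, h, sub_self]
  have hbig : 60 < Nat.card (uAdd S) := by
    let ψc : (Fin 6 → F₀) → (Fin n → F) := fun c i =>
      if h : 1 ≤ i.val ∧ i.val ≤ 6 then ((c ⟨i.val - 1, by omega⟩ : F₀) : F) else 0
    have hψr : ∀ c, Rat F₀ (ψc c) := by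
      intro c i
      show (if h : 1 ≤ i.val ∧ i.val ≤ 6 then ((c ⟨i.val - 1, by omega⟩ : F₀) : F) else 0) ∈ F₀
      split_ifs
      · exact (c _).2
      · exact F₀.zero_mem
    have hψw : ∀ c, ψc c ⬝ᵥ w = 0 := by
      intro c
      rw [hw, dotProduct_single, mul_one]
      show (if h : 1 ≤ i0.val ∧ i0.val ≤ 6 then ((c ⟨i0.val - 1, by omega⟩ : F₀) : F) else 0) = 0
      rw [dif_neg]
      rw [hi0]
      simp
    have hinj : Function.Injective (fun c : Fin 6 → F₀ =>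
        (⟨ψc c ⬝ᵥ u, hU _ (hψr c) (hψw c)⟩ : uAdd S)) := by
      intro c c' h
      have h1 : ψc c ⬝ᵥ u = ψc c' ⬝ᵥ u := congrArg Subtype.val h
      have h2 : (ψc c - ψc c') ⬝ᵥ u = 0 := by rw [sub_dotProduct, h1, sub_self]
      have h3 : ψc c - ψc c' = 0 := by
        by_contra hne
        exact hgen _ ((hψr c).sub (hψr c')) hne h2
      funext j
      have h5 : ∀ d : Fin 6 → F₀, ψc d ⟨j.val + 1, by omega⟩ = ((d j : F₀) : F) := by
        intro d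
        show (if h : 1 ≤ j.val + 1 ∧ j.val + 1 ≤ 6 then
          ((d ⟨j.val + 1 - 1, by omega⟩ : F₀) : F) else 0) = _
        rw [dif_pos ⟨by omega, by omega⟩]
        rfl
      have h4 := congrFun h3 ⟨j.val + 1, by omega⟩
      rw [Pi.sub_apply, h5 c, h5 c', Pi.zero_apply, sub_eq_zero] at h4
      exact Subtype.ext h4
    have hle := Nat.card_le_card_of_injective _ hinj
    have hcard : Nat.card (Fin 6 → F₀) = Nat.card F₀ ^ 6 := by
      rw [Nat.card_fun, Nat.card_eq_fintype_card (α := Fin 6), Fintype.card_fin]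
    have h2 : 2 ≤ Nat.card F₀ := by
      have : Fintype F₀ := Fintype.ofFinite _
      rw [Nat.card_eq_fintype_card]
      exact Fintype.one_lt_card
    have h64 : 64 ≤ Nat.card F₀ ^ 6 := by
      calc 64 = 2 ^ 6 := by norm_num
        _ ≤ Nat.card F₀ ^ 6 := Nat.pow_le_pow_left h2 6
    have hle2 : Nat.card F₀ ^ 6 ≤ Nat.card (uAdd S) := by
      rw [← hcard]
      exact hle
    exact lt_of_lt_of_le (by norm_num) (le_trans h64 hle2)
  have htop : S = ⊤ := Cfsg.Agent.Lib.Helper94.SL2Gen.sl2_gen F₀ hmax S hneg (u i1) (u i2)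
    (φ ⬝ᵥ w) (hui i1) hF₀ ha2 hind hφw hL hbig
  -- the element `lSL z`
  obtain ⟨z, hz⟩ : ∃ z : F, z = -(u i0)⁻¹ := ⟨_, rfl⟩
  have hz0 : z ≠ 0 := by rw [hz]; exact neg_ne_zero.mpr (inv_ne_zero (hui i0))
  have hzS : lSL z ∈ S := by rw [htop]; trivial
  rw [hS] at hzS
  obtain ⟨m, hm, ε, hε, hmw, -⟩ := hzS
  rw [lSL_00, lSL_10] at hmw
  have hε0 : ε ≠ 0 := by rcases hε with rfl | rfl <;> simp
  obtain ⟨y, hy⟩ : ∃ y : Fin n → F, y = (m : Matrix (Fin n) (Fin n) F) *ᵥ w := ⟨_, rfl⟩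
  have hy0 : (Pi.single i0 (1 : F) : Fin n → F) ⬝ᵥ y = 0 := by
    rw [hy, hmw, single_dotProduct, one_mul, Pi.smul_apply, Pi.add_apply, Pi.smul_apply,
      Pi.smul_apply, hw, Pi.single_eq_same, hz, smul_eq_mul, smul_eq_mul, smul_eq_mul, mul_one,
      neg_mul, inv_mul_cancel₀ (hui i0), add_neg_cancel, mul_zero]
  have hψ1w : (Pi.single i1 (1 : F) : Fin n → F) ⬝ᵥ w = 0 := by
    rw [hw]
    exact single_dot_single_ne (Ne.symm h01) 1 1
  obtain ⟨φ', hφ'⟩ : ∃ φ' : Fin n → F, φ' = (Pi.single i1 (1 : F) : Fin n → F) ᵥ*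
      ((m⁻¹ : GL (Fin n) F) : Matrix (Fin n) (Fin n) F) := ⟨_, rfl⟩
  have hτ : tv φ' y ∈ M := by
    have h1 := tv_conj m hψ1w
    rw [hφ', hy, ← h1]
    exact M.mul_mem (M.mul_mem hm (hM _ _ (rat_single F₀ i1 h1F) hwr hψ1w)) (M.inv_mem hm)
  have hφ'y : φ' ⬝ᵥ y = 0 := by
    rw [hφ', hy, ← Matrix.dotProduct_mulVec, Cfsg.Agent.Lib.Helper93.gl_inv_mulVec, hψ1w]
  have hφ'0 : φ' ≠ 0 := by
    intro h0
    have h1 : φ' ⬝ᵥ ((m : Matrix (Fin n) (Fin n) F) *ᵥ Pi.single i1 1) = 1 := by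
      rw [hφ', ← Matrix.dotProduct_mulVec, Cfsg.Agent.Lib.Helper93.gl_inv_mulVec,
        single_dotProduct, Pi.single_eq_same, one_mul]
    rw [h0, zero_dotProduct] at h1
    exact zero_ne_one h1
  obtain ⟨c, hc0, hcr⟩ := center_prop (by omega) hM hR hφ'y hφ'0 hτ (rat_single F₀ i0 h1F)
    (single_one_ne_zero i0) hy0
  obtain ⟨ψ2, hψ2, hψ20, hψ2y, hψ2w⟩ := exists_rat_perp2 F₀ (by omega) hcr hwr
  apply hgen ψ2 hψ2 hψ20
  have h1 : ψ2 ⬝ᵥ y = 0 := by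
    rw [dotProduct_smul, smul_eq_mul] at hψ2y
    rcases mul_eq_zero.mp hψ2y with h | h
    · exact absurd h hc0
    · exact h
  rw [hy, hmw, dotProduct_smul, dotProduct_add, dotProduct_smul, dotProduct_smul, hψ2w] at h1
  simp only [smul_eq_mul, mul_zero, zero_add] at h1
  rcases mul_eq_zero.mp h1 with h | h
  · exact absurd h hε0
  · rcases mul_eq_zero.mp h with h | h
    · exact absurd h hz0
    · exact h

end Cfsg.Agent.Lib.Helper94.Subf
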