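import Mathlib
import Cfsg.Agent.Lib.Helper94.SubBad

set_option autoImplicit false

/-! The subfield subgroup `GL_n(F₀) · Z ∩ SL_n(F)` is maximal in `SL_n(F)` when `F₀` is a
subfield of prime index (`n ≥ 7`). -/

namespace Cfsg.Agent.Lib.Helper94.Subf

open Matrix

variable {F : Type*} [Field F] [Fintype F] {n : ℕ}

theorem rat_tv_mem (F₀ : Subfield F) {ψ v : Fin n → F} (hψ : Rat F₀ ψ) (hv : Rat F₀ v)
    (hψv : ψ ⬝ᵥ v = 0) : tv ψ v ∈ Cfsg.Geo.subfieldSubgroup F₀ (1 : GL (Fin n) F) := by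
  apply Cfsg.Agent.Lib.Helper13.mem_subfieldSubgroup_of_maps F₀ 1 (tv ψ v) 1 one_ne_zero
  intro x hx
  rw [isRat_one_iff] at hx
  refine ⟨x + (ψ ⬝ᵥ x) • v, (isRat_one_iff F₀ _).mpr (hx.add (hv.smul (hψ.dot hx))), ?_⟩
  rw [tv_mulVec hψv, one_smul]

/-- the subfield subgroup with trivial change of basis is maximal in `SL_n(F)` -/
theorem subfield_max_one (F₀ : Subfield F) (hn : 7 ≤ n)
    (hmax : ∀ K : Subfield F, F₀ ≤ K → K = F₀ ∨ K = ⊤) (hne : F₀ ≠ ⊤) :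
    Cfsg.Geo.IsMaximalIn (Cfsg.Geo.specialLinear (Fin n) F)
      (Cfsg.Geo.subfieldSubgroup F₀ (1 : GL (Fin n) F) ⊓ Cfsg.Geo.specialLinear (Fin n) F) := by
  have h1F : (1 : F) ∈ F₀ := F₀.one_mem
  obtain ⟨i0, hi0⟩ : ∃ i0 : Fin n, i0 = ⟨0, by omega⟩ := ⟨_, rfl⟩
  obtain ⟨i1, hi1⟩ : ∃ i1 : Fin n, i1 = ⟨1, by omega⟩ := ⟨_, rfl⟩
  have h01 : i0 ≠ i1 := by rw [hi0, hi1]; intro h; simp [Fin.ext_iff] at h
  refine ⟨lt_of_le_of_ne inf_le_right ?_, ?_⟩
  · intro heq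
    obtain ⟨a, ha⟩ : ∃ a : F, a ∉ F₀ := by
      by_contra hcon
      push Not at hcon
      exact hne (eq_top_iff.mpr fun x _ => hcon x)
    have h0 : (a • (Pi.single i1 1 : Fin n → F)) ⬝ᵥ (Pi.single i0 1) = 0 := by
      rw [smul_dotProduct, single_dot_single_ne (Ne.symm h01), smul_zero]
    have hmem : tv (a • (Pi.single i1 1 : Fin n → F)) (Pi.single i0 1) ∈
        Cfsg.Geo.subfieldSubgroup F₀ (1 : GL (Fin n) F) := by
      have h := tv_mem_SL (a • (Pi.single i1 1 : Fin n → F)) (Pi.single i0 1)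
      rw [← heq] at h
      exact h.1
    obtain ⟨c, hc, hmaps⟩ :=
      Cfsg.Agent.Lib.Helper13.exists_scalar_of_mem_subfieldSubgroup F₀ 1 _ hmem
    obtain ⟨v', hv', e1⟩ := hmaps (Pi.single i0 1)
      ((isRat_one_iff F₀ _).mpr (rat_single F₀ i0 h1F))
    obtain ⟨v'', hv'', e2⟩ := hmaps (Pi.single i1 1)
      ((isRat_one_iff F₀ _).mpr (rat_single F₀ i1 h1F))
    rw [isRat_one_iff] at hv' hv''
    rw [tv_mulVec h0] at e1 e2
    rw [h0, zero_smul, add_zero] at e1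
    have h1 := congrFun e1 i0
    have h2 := congrFun e2 i0
    rw [Pi.single_eq_same, Pi.smul_apply, smul_eq_mul] at h1
    rw [Pi.add_apply, Pi.smul_apply, Pi.smul_apply, smul_dotProduct, single_dotProduct,
      Pi.single_eq_same, Pi.single_eq_same, Pi.single_eq_of_ne h01, smul_eq_mul, smul_eq_mul,
      smul_eq_mul, mul_one, mul_one, mul_one, zero_add] at h2
    have hc' : c ∈ F₀ := by
      have : c = (v' i0)⁻¹ := eq_inv_of_mul_eq_one_left h1.symm
      rw [this]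
      exact F₀.inv_mem (hv' i0)
    exact ha (by rw [h2]; exact F₀.mul_mem hc' (hv'' i0))
  · intro M hHM hMK
    have hM : HasRat F₀ M := fun ψ v hψ hv hψv =>
      hHM ⟨rat_tv_mem F₀ hψ hv hψv, tv_mem_SL ψ v⟩
    rcases par_cases (by omega) hmax hM with hall | hR
    · right
      exact le_antisymm hMK (sl_le_of_elem (by omega) M hall)
    · left
      apply le_antisymm _ hHM
      intro g hg
      refine ⟨?_, hMK hg⟩
      apply mem_subfield_of_maps F₀ (by omega) g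
      intro x hx
      by_cases hx0 : x = 0
      · exact ⟨0, 0, rat_zero F₀, by rw [hx0, Matrix.mulVec_zero, smul_zero]⟩
      by_cases hgood : ∃ ψ' : Fin n → F, Rat F₀ ψ' ∧ ψ' ≠ 0 ∧
          ψ' ⬝ᵥ ((g : Matrix (Fin n) (Fin n) F) *ᵥ x) = 0
      · obtain ⟨ψ', hψ', hψ'0, hψ'g⟩ := hgood
        obtain ⟨ψ, hψ, hψ0, hψx⟩ := exists_rat_perp1 F₀ (by omega) hx
        have hτ : tv (ψ ᵥ* ((g⁻¹ : GL (Fin n) F) : Matrix (Fin n) (Fin n) F))
            ((g : Matrix (Fin n) (Fin n) F) *ᵥ x) ∈ M := by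
          rw [← tv_conj g hψx]
          exact M.mul_mem (M.mul_mem hg (hM _ _ hψ hx hψx)) (M.inv_mem hg)
        have hφu : (ψ ᵥ* ((g⁻¹ : GL (Fin n) F) : Matrix (Fin n) (Fin n) F)) ⬝ᵥ
            ((g : Matrix (Fin n) (Fin n) F) *ᵥ x) = 0 := by
          rw [← Matrix.dotProduct_mulVec, Cfsg.Agent.Lib.Helper93.gl_inv_mulVec, hψx]
        have hφ0 : (ψ ᵥ* ((g⁻¹ : GL (Fin n) F) : Matrix (Fin n) (Fin n) F)) ≠ 0 := by
          intro h0
          apply hψ0
          have h3 : (ψ ᵥ* ((g⁻¹ : GL (Fin n) F) : Matrix (Fin n) (Fin n) F)) ᵥ*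
              (g : Matrix (Fin n) (Fin n) F) = ψ := by
            rw [Matrix.vecMul_vecMul, ← Units.val_mul, inv_mul_cancel, Units.val_one,
              Matrix.vecMul_one]
          rw [← h3, h0, Matrix.zero_vecMul]
        obtain ⟨c, hc0, hcr⟩ := center_prop (by omega) hM hR hφu hφ0 hτ hψ' hψ'0 hψ'g
        refine ⟨c⁻¹, c • ((g : Matrix (Fin n) (Fin n) F) *ᵥ x), hcr, ?_⟩
        rw [smul_smul, inv_mul_cancel₀ hc0, one_smul]
      · exfalso
        push Not at hgood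
        exact bad_false F₀ hn hmax hM hR g hg x hx hx0 (fun ψ hψ hψ0 => hgood ψ hψ hψ0)

/-- **subfield subgroups are maximal in `SL_n(F)`** (`n ≥ 7`, prime index) -/
theorem subfield_max (n : ℕ) (hn : 7 ≤ n) (F₀ : Subfield F) (r : ℕ) (hr : r.Prime)
    (hcard : Fintype.card F = Nat.card F₀ ^ r) (P : GL (Fin n) F) :
    Cfsg.Geo.IsMaximalIn (Cfsg.Geo.specialLinear (Fin n) F)
      (Cfsg.Geo.subfieldSubgroup F₀ P ⊓ Cfsg.Geo.specialLinear (Fin n) F) := by
  obtain ⟨hmax, hne⟩ := subfield_max_of_card F₀ r hr hcard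
  have h1 := isMaximalIn_map (MulAut.conj P) (subfield_max_one F₀ hn hmax hne)
  have hSL : (Cfsg.Geo.specialLinear (Fin n) F).map (MulAut.conj P).toMonoidHom =
      Cfsg.Geo.specialLinear (Fin n) F := by
    ext x
    rw [Subgroup.mem_map_equiv]
    unfold Cfsg.Geo.specialLinear
    rw [MonoidHom.mem_ker, MonoidHom.mem_ker, MulAut.conj_symm_apply, map_mul, map_mul, map_inv,
      mul_comm, ← mul_assoc, mul_inv_cancel, one_mul]
  have hone : ∀ S : Subgroup (GL (Fin n) F),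
      S.map (MulAut.conj (1 : GL (Fin n) F)).toMonoidHom = S := by
    intro S
    ext x
    rw [Subgroup.mem_map_equiv, map_one]
    rfl
  have hsub : (Cfsg.Geo.subfieldSubgroup F₀ (1 : GL (Fin n) F)).map (MulAut.conj P).toMonoidHom =
      Cfsg.Geo.subfieldSubgroup F₀ P := by
    unfold Cfsg.Geo.subfieldSubgroup
    rw [hone]
  rw [Subgroup.map_inf _ _ _ (MulAut.conj P).injective, hSL, hsub] at h1
  exact h1

end Cfsg.Agent.Lib.Helper94.Subf
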