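import Cfsg.Agent.Lib.Helper94.SLSymp

set_option autoImplicit false
set_option linter.unusedSectionVars false

namespace Cfsg.Agent.Lib.Helper94

open Cfsg Cfsg.Geo
open scoped MatrixGroups Matrix

variable {F : Type*} [Field F] {ι : Type} [Fintype ι] [DecidableEq ι]

section field

variable (σ : F ≃+* F) (hne : σ ≠ RingEquiv.refl F) (hinv : ∀ a : F, σ (σ a) = a)

include hne in
lemma exists_not_fixed : ∃ x : F, σ x ≠ x := by
  by_contra h
  push Not at h
  exact hne (RingEquiv.ext h)

include hne hinv in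
/-- A non-zero element with `σ d = -d`. -/
lemma exists_skew_elt : ∃ d : F, d ≠ 0 ∧ σ d = -d := by
  obtain ⟨x, hx⟩ := exists_not_fixed σ hne
  refine ⟨x - σ x, sub_ne_zero.mpr (Ne.symm hx), ?_⟩
  rw [map_sub, hinv]
  ring

include hne hinv in
/-- An element of trace one. -/
lemma exists_trace_one : ∃ θ : F, θ + σ θ = 1 := by
  obtain ⟨x, hx⟩ := exists_not_fixed σ hne
  have hd : x - σ x ≠ 0 := sub_ne_zero.mpr (Ne.symm hx)
  have hd' : σ x - x ≠ 0 := sub_ne_zero.mpr hx
  refine ⟨x / (x - σ x), ?_⟩
  rw [map_div₀, map_sub, hinv]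
  field_simp
  ring

include hne hinv in
/-- The trace is onto the fixed field. -/
lemma exists_trace_eq (e : F) (he : σ e = e) : ∃ c : F, c + σ c = e := by
  obtain ⟨θ, hθ⟩ := exists_trace_one σ hne hinv
  exact ⟨e * θ, by rw [map_mul, he, ← mul_add, hθ, mul_one]⟩

include hne hinv in
/-- The norm is onto the non-zero elements of the fixed field (for finite fields). -/
lemma exists_norm_eq [Finite F] (a : F) (ha : σ a = a) (ha0 : a ≠ 0) : ∃ l : F, l * σ l = a := by
  classical
  obtain ⟨d, hd0, hd⟩ := exists_skew_elt σ hne hinv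
  let σu : Fˣ →* Fˣ := Units.map (σ : F →* F)
  have hσu : ∀ u : Fˣ, ((σu u : Fˣ) : F) = σ (u : F) := fun u => rfl
  let N : Fˣ →* Fˣ := MonoidHom.id Fˣ * σu
  let ψ : Fˣ →* Fˣ := MonoidHom.id Fˣ / σu
  have hN : ∀ u : Fˣ, ((N u : Fˣ) : F) = (u : F) * σ (u : F) := fun u => rfl
  have hψ : ∀ u : Fˣ, ((ψ u : Fˣ) : F) = (u : F) / σ (u : F) := fun u => by
    show ((u / σu u : Fˣ) : F) = _
    rw [Units.val_div_eq_div_val, hσu]
  have h1 : N.ker = ψ.range := by
    ext l
    rw [MonoidHom.mem_ker, MonoidHom.mem_range]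
    constructor
    · intro hl
      have hl' : (l : F) * σ (l : F) = 1 := by
        have := congrArg Units.val hl
        rwa [hN, Units.val_one] at this
      by_cases hm : (l : F) = -1
      · refine ⟨Units.mk0 d hd0, Units.ext ?_⟩
        rw [hψ, Units.val_mk0, hd, hm]
        field_simp
      · have h1l : (1 : F) + l ≠ 0 := by
          intro h
          apply hm
          linear_combination h
        refine ⟨Units.mk0 (1 + (l : F)) h1l, Units.ext ?_⟩
        rw [hψ, Units.val_mk0, map_add, map_one]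
        have hl0 : (l : F) ≠ 0 := l.ne_zero
        have hσl : σ (l : F) = (l : F)⁻¹ := by
          field_simp
          linear_combination hl'
        rw [hσl]
        have h3 : (1 : F) + (l : F)⁻¹ = (1 + (l : F)) * (l : F)⁻¹ := by
          rw [add_mul, one_mul, mul_inv_cancel₀ hl0, add_comm]
        rw [h3, div_mul_eq_div_div, div_self h1l, one_div, inv_inv]
    · rintro ⟨m, rfl⟩
      apply Units.ext
      rw [hN, hψ, Units.val_one, map_div₀, hinv]
      have hm0 : (m : F) ≠ 0 := m.ne_zero
      have hσm0 : σ (m : F) ≠ 0 := fun h => hm0 (by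
        have := congrArg σ h
        rwa [hinv, map_zero] at this)
      field_simp
  have h2 : N.range ≤ ψ.ker := by
    rintro _ ⟨l, rfl⟩
    rw [MonoidHom.mem_ker]
    apply Units.ext
    rw [hψ, hN, Units.val_one, map_mul, hinv]
    have hl0 : (l : F) ≠ 0 := l.ne_zero
    have hσl0 : σ (l : F) ≠ 0 := fun h => hl0 (by
      have := congrArg σ h
      rwa [hinv, map_zero] at this)
    field_simp
  have h3 : N.range = ψ.ker := by
    apply Subgroup.eq_of_le_of_card_ge h2
    have e1 := Subgroup.card_mul_index N.ker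
    have e2 := Subgroup.card_mul_index ψ.ker
    rw [Subgroup.index_ker] at e1 e2
    rw [h1] at e1
    have hpos : 0 < Nat.card ψ.range := Nat.card_pos
    have e3 : Nat.card ψ.range * Nat.card N.range = Nat.card ψ.range * Nat.card ψ.ker := by
      rw [e1, ← e2, mul_comm]
    exact le_of_eq (Nat.eq_of_mul_eq_mul_left hpos e3).symm
  have h4 : Units.mk0 a ha0 ∈ ψ.ker := by
    rw [MonoidHom.mem_ker]
    apply Units.ext
    rw [hψ, Units.val_mk0, ha, Units.val_one, div_self ha0]
  rw [← h3] at h4
  obtain ⟨l, hl⟩ := h4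
  refine ⟨(l : F), ?_⟩
  have := congrArg Units.val hl
  rwa [hN, Units.val_mk0] at this

end field

section uform

variable (σ : F ≃+* F) (f : (ι → F) → (ι → F) → F) (hf : IsUnitaryForm σ f)

include hf in
lemma uf_add_right (v x y : ι → F) : f v (x + y) = f v x + f v y := by
  rw [hf.herm v (x + y), hf.add_left, map_add, ← hf.herm, ← hf.herm]

include hf in
lemma uf_smul_right (c : F) (v x : ι → F) : f v (c • x) = σ c * f v x := by
  rw [hf.herm v (c • x), hf.smul_left, map_mul, ← hf.herm]

include hf in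
lemma uf_zero_left (y : ι → F) : f 0 y = 0 := by
  have := hf.smul_left 0 0 y
  rwa [zero_smul, zero_mul] at this

include hf in
lemma uf_zero_right (x : ι → F) : f x 0 = 0 := by
  rw [hf.herm x 0, uf_zero_left σ f hf, map_zero]

include hf in
lemma uf_neg_left (x y : ι → F) : f (-x) y = - f x y := by
  have := hf.smul_left (-1) x y
  rwa [neg_one_smul, neg_one_mul] at this

include hf in
lemma uf_neg_right (x y : ι → F) : f x (-y) = - f x y := by
  rw [hf.herm x (-y), uf_neg_left σ f hf, map_neg, ← hf.herm]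

include hf in
lemma uf_sub_left (x x' y : ι → F) : f (x - x') y = f x y - f x' y := by
  rw [sub_eq_add_neg, hf.add_left, uf_neg_left σ f hf, sub_eq_add_neg]

include hf in
lemma uf_sub_right (x y y' : ι → F) : f x (y - y') = f x y - f x y' := by
  rw [sub_eq_add_neg, uf_add_right σ f hf, uf_neg_right σ f hf, sub_eq_add_neg]

include hf in
lemma uf_self_fixed (v : ι → F) : σ (f v v) = f v v := (hf.herm v v).symm

include hf in
lemma uf_symm_zero {v w : ι → F} (h : f v w = 0) : f w v = 0 := by
  rw [hf.herm w v, h, map_zero]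

include hf in
lemma uf_symm_ne {v w : ι → F} (h : f v w ≠ 0) : f w v ≠ 0 :=
  fun h' => h (uf_symm_zero σ f hf h')

/-- `x ↦ f x y` as a linear functional. -/
def uL (hf : IsUnitaryForm σ f) (y : ι → F) : Module.Dual F (ι → F) where
  toFun := fun x => f x y
  map_add' := fun a b => hf.add_left a b y
  map_smul' := fun c a => by simpa using hf.smul_left c a y

lemma uL_apply (y x : ι → F) : uL σ f hf y x = f x y := rfl

/-- Coordinatewise conjugation. -/
def conjV (σ : F ≃+* F) (y : ι → F) : ι → F := fun i => σ (y i)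

include hf in
lemma conjV_conjV (y : ι → F) : conjV σ (conjV σ y) = y := by
  funext i
  exact hf.involutive (y i)

lemma conjV_add (y y' : ι → F) : conjV σ (y + y') = conjV σ y + conjV σ y' := by
  funext i
  simp [conjV]

lemma conjV_smul (c : F) (y : ι → F) : conjV σ (c • y) = σ c • conjV σ y := by
  funext i
  simp [conjV]

lemma conjV_zero : conjV σ (0 : ι → F) = 0 := by
  funext i
  simp [conjV]

/-- The bilinear form `(x, y) ↦ f x (conj y)`. -/
noncomputable def uB (hf : IsUnitaryForm σ f) : LinearMap.BilinForm F (ι → F) :=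
  LinearMap.mk₂ F (fun x y => f x (conjV σ y)) (fun a b y => hf.add_left a b _)
    (fun c a y => by simpa using hf.smul_left c a (conjV σ y))
    (fun x a b => by rw [conjV_add, uf_add_right σ f hf])
    (fun c x a => by
      rw [conjV_smul, uf_smul_right σ f hf, hf.involutive]
      rfl)

lemma uB_apply (x y : ι → F) : uB σ f hf x y = f x (conjV σ y) := rfl

lemma uB_nondeg : (uB σ f hf).Nondegenerate := by
  constructor
  · intro x hx
    by_contra hne
    obtain ⟨-, ⟨z, hz⟩⟩ := hf.nondegenerate x hne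
    apply hz
    have := hx (conjV σ z)
    rwa [uB_apply, conjV_conjV σ f hf] at this
  · intro y hy
    by_contra hne
    have hne' : conjV σ y ≠ 0 := by
      intro h
      apply hne
      rw [← conjV_conjV σ f hf y, h, conjV_zero]
    obtain ⟨⟨z, hz⟩, -⟩ := hf.nondegenerate (conjV σ y) hne'
    exact hz (hy z)

include hf in
/-- Every functional is represented by the form. -/
lemma exists_uf_repr (φ : Module.Dual F (ι → F)) : ∃ y, ∀ x, f x y = φ x := by
  have hinj : Function.Injective ((uB σ f hf).flip : (ι → F) →ₗ[F] Module.Dual F (ι → F)) := by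
    rw [← LinearMap.ker_eq_bot, LinearMap.ker_eq_bot']
    intro y hy
    by_contra hne
    have hne' : conjV σ y ≠ 0 := by
      intro h
      apply hne
      rw [← conjV_conjV σ f hf y, h, conjV_zero]
    obtain ⟨⟨z, hz⟩, -⟩ := hf.nondegenerate (conjV σ y) hne'
    apply hz
    have := LinearMap.congr_fun hy z
    rwa [LinearMap.BilinForm.flip_apply, uB_apply, LinearMap.zero_apply] at this
  have hsurj := (LinearMap.injective_iff_surjective_of_finrank_eq_finrank
    (Subspace.dual_finrank_eq (K := F) (V := ι → F)).symm).mp hinj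
  obtain ⟨m, hm⟩ := hsurj φ
  refine ⟨conjV σ m, fun x => ?_⟩
  have := LinearMap.congr_fun hm x
  rwa [LinearMap.BilinForm.flip_apply, uB_apply] at this

include hf in
/-- If `y` is not a multiple of `w ≠ 0`, some vector perpendicular to `w` is not perpendicular
to `y`. -/
lemma exists_uperp_sep {w y : ι → F} (hw : w ≠ 0) (hy : ∀ c : F, y ≠ c • w) :
    ∃ u, f w u = 0 ∧ f y u ≠ 0 := by
  by_contra hcon
  push Not at hcon
  obtain ⟨-, ⟨a, ha⟩⟩ := hf.nondegenerate w hw
  apply hy (f y a / f w a)
  by_contra hne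
  have hne' : y - (f y a / f w a) • w ≠ 0 := sub_ne_zero.mpr hne
  obtain ⟨-, ⟨u, hu⟩⟩ := hf.nondegenerate _ hne'
  apply hu
  rw [uf_sub_left σ f hf, hf.smul_left]
  obtain ⟨l, hl⟩ : ∃ l : F, σ l = f w u / f w a := ⟨σ (f w u / f w a), hf.involutive _⟩
  have h1 := hcon (u - l • a)
    (by rw [uf_sub_right σ f hf, uf_smul_right σ f hf, hl, div_mul_cancel₀ _ ha, sub_self])
  rw [uf_sub_right σ f hf, uf_smul_right σ f hf, hl] at h1
  linear_combination h1

include hf in
lemma exists_uf_both {a b : ι → F} (ha : a ≠ 0) (hb : b ≠ 0) :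
    ∃ z, f a z ≠ 0 ∧ f b z ≠ 0 := by
  obtain ⟨-, ⟨z1, h1⟩⟩ := hf.nondegenerate a ha
  obtain ⟨-, ⟨z2, h2⟩⟩ := hf.nondegenerate b hb
  by_cases h3 : f b z1 = 0
  · by_cases h4 : f a z2 = 0
    · refine ⟨z1 + z2, ?_, ?_⟩
      · rw [uf_add_right σ f hf, h4, add_zero]
        exact h1
      · rw [uf_add_right σ f hf, h3, zero_add]
        exact h2
    · exact ⟨z2, h4, h2⟩
  · exact ⟨z1, h1, h3⟩

end uform

end Cfsg.Agent.Lib.Helper94
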