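import Cfsg.Agent.Lib.Helper94.UnitBase

set_option autoImplicit false
set_option linter.unusedSectionVars false

namespace Cfsg.Agent.Lib.Helper94

open Cfsg Cfsg.Geo
open scoped MatrixGroups Matrix

variable {F : Type*} [Field F] {ι : Type} [Fintype ι] [DecidableEq ι]

section iso

variable (σ : F ≃+* F) (f : (ι → F) → (ι → F) → F) (hf : IsUnitaryForm σ f)

include hf in
/-- A subspace all of whose vectors are isotropic is totally isotropic. -/
lemma uf_polarization (K : Submodule F (ι → F)) (h : ∀ x ∈ K, f x x = 0) :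
    ∀ x ∈ K, ∀ y ∈ K, f x y = 0 := by
  intro x hx y hy
  by_contra hβ
  obtain ⟨θ, hθ⟩ := exists_trace_one σ hf.ne_refl hf.involutive
  have h1 := h ((θ / f x y) • x + y) (K.add_mem (K.smul_mem _ hx) hy)
  have hc : θ / f x y * f x y = θ := div_mul_cancel₀ _ hβ
  have e : f ((θ / f x y) • x + y) ((θ / f x y) • x + y) = θ + σ θ := by
    rw [hf.add_left, uf_add_right σ f hf, uf_add_right σ f hf, hf.smul_left, hf.smul_left,
      uf_smul_right σ f hf, uf_smul_right σ f hf, h x hx, h y hy, hf.herm y x, ← map_mul, hc]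
    ring
  rw [e, hθ] at h1
  exact one_ne_zero h1

include hf in
/-- Perpendicular to few vectors there is a non-isotropic vector. -/
lemma exists_nonisotropic_perp [Finite F] (s : Finset (ι → F))
    (hs : 2 * s.card < Fintype.card ι) : ∃ p, (∀ u ∈ s, f p u = 0) ∧ f p p ≠ 0 := by
  classical
  by_contra hcon
  push Not at hcon
  obtain ⟨K, hK⟩ : ∃ K : Submodule F (ι → F),
      K = LinearMap.ker (LinearMap.pi (fun u : s => uL σ f hf u.1)) := ⟨_, rfl⟩
  have hmemK : ∀ x, x ∈ K ↔ ∀ u ∈ s, f x u = 0 := by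
    intro x
    rw [hK, LinearMap.mem_ker]
    constructor
    · intro h u hu
      exact congrFun h ⟨u, hu⟩
    · intro h
      funext u
      exact h u.1 u.2
  have hiso : ∀ x ∈ K, f x x = 0 := fun x hx => hcon x ((hmemK x).mp hx)
  have hti := uf_polarization σ f hf K hiso
  have hdim : Fintype.card ι ≤ Module.finrank F K + s.card := by
    have h1 := LinearMap.finrank_range_add_finrank_ker
      (LinearMap.pi (fun u : s => uL σ f hf u.1))
    rw [Module.finrank_fintype_fun_eq_card] at h1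
    have h2 : Module.finrank F (LinearMap.range (LinearMap.pi (fun u : s => uL σ f hf u.1)))
        ≤ s.card := by
      have := Submodule.finrank_le
        (LinearMap.range (LinearMap.pi (fun u : s => uL σ f hf u.1)))
      rw [Module.finrank_fintype_fun_eq_card, Fintype.card_coe] at this
      exact this
    rw [hK]
    omega
  have hmap : ∀ y : K, conjV σ y.1 ∈ (uB σ f hf).orthogonal K := by
    intro y
    rw [LinearMap.BilinForm.mem_orthogonal_iff]
    intro n hn
    show uB σ f hf n (conjV σ y.1) = 0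
    rw [uB_apply, conjV_conjV σ f hf]
    exact hti n hn y.1 y.2
  have hle : Nat.card K ≤ Nat.card ((uB σ f hf).orthogonal K) :=
    Nat.card_le_card_of_injective
      (fun y : K => (⟨conjV σ y.1, hmap y⟩ : (uB σ f hf).orthogonal K)) (by
        intro y y' h
        have h' : conjV σ y.1 = conjV σ y'.1 := congrArg Subtype.val h
        apply Subtype.ext
        rw [← conjV_conjV σ f hf y.1, h', conjV_conjV σ f hf])
  rw [Module.natCard_eq_pow_finrank (K := F) (V := K),
    Module.natCard_eq_pow_finrank (K := F) (V := (uB σ f hf).orthogonal K)] at hle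
  have h3 := (Nat.pow_le_pow_iff_right Finite.one_lt_card).mp hle
  rw [LinearMap.BilinForm.finrank_orthogonal (uB_nondeg σ f hf) K,
    Module.finrank_fintype_fun_eq_card] at h3
  omega

include hf in
/-- Perpendicular to few vectors there is a vector of any prescribed norm. -/
lemma exists_norm_perp [Finite F] (s : Finset (ι → F)) (hs : 2 * s.card < Fintype.card ι)
    (a : F) (ha : σ a = a) : ∃ p, (∀ u ∈ s, f p u = 0) ∧ f p p = a := by
  by_cases ha0 : a = 0
  · exact ⟨0, fun u _ => uf_zero_left σ f hf u, by rw [uf_zero_left σ f hf, ha0]⟩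
  obtain ⟨p, hp, hpp⟩ := exists_nonisotropic_perp σ f hf s hs
  have hfix : σ (a / f p p) = a / f p p := by
    rw [map_div₀, ha, uf_self_fixed σ f hf]
  obtain ⟨l, hl⟩ := exists_norm_eq σ hf.ne_refl hf.involutive (a / f p p) hfix
    (div_ne_zero ha0 hpp)
  refine ⟨l • p, fun u hu => by rw [hf.smul_left, hp u hu, mul_zero], ?_⟩
  rw [hf.smul_left, uf_smul_right σ f hf, ← mul_assoc, hl, div_mul_cancel₀ _ hpp]

include hf in
/-- A vector can be corrected to an isotropic one without changing its products with few given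
vectors. -/
lemma exists_isotropic_correction [Finite F] (s : Finset (ι → F))
    (hs : 2 * (s.card + 1) < Fintype.card ι) (x₀ : ι → F) :
    ∃ e, f e e = 0 ∧ (∀ u ∈ s, f e u = f x₀ u) ∧ (∀ u ∈ s, f u e = f u x₀) := by
  classical
  have hcard : 2 * (insert x₀ s).card < Fintype.card ι := by
    have := Finset.card_insert_le x₀ s
    omega
  have hfix : σ (-f x₀ x₀) = -f x₀ x₀ := by
    rw [map_neg, uf_self_fixed σ f hf]
  obtain ⟨p, hp, hpp⟩ := exists_norm_perp σ f hf (insert x₀ s) hcard (-f x₀ x₀) hfix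
  have hpx : f p x₀ = 0 := hp x₀ (Finset.mem_insert_self _ _)
  have hxp : f x₀ p = 0 := uf_symm_zero σ f hf hpx
  refine ⟨x₀ + p, ?_, ?_, ?_⟩
  · rw [hf.add_left, uf_add_right σ f hf, uf_add_right σ f hf, hxp, hpx, hpp]
    ring
  · intro u hu
    rw [hf.add_left, hp u (Finset.mem_insert_of_mem hu), add_zero]
  · intro u hu
    rw [uf_add_right σ f hf, uf_symm_zero σ f hf (hp u (Finset.mem_insert_of_mem hu)), add_zero]

include hf in
/-- A non-zero isotropic vector. -/
lemma exists_isotropic_ne_zero [Finite F] (hn : 5 ≤ Fintype.card ι) :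
    ∃ e : ι → F, f e e = 0 ∧ e ≠ 0 := by
  classical
  obtain ⟨p, -, hpp⟩ := exists_nonisotropic_perp σ f hf ∅ (by simp; omega)
  obtain ⟨e, he, h1, -⟩ := exists_isotropic_correction σ f hf {p} (by simp; omega) p
  refine ⟨e, he, ?_⟩
  rintro rfl
  have := h1 p (by simp)
  rw [uf_zero_left σ f hf] at this
  exact hpp this.symm

include hf in
/-- Two non-zero vectors have a common isotropic non-perpendicular vector. -/
lemma exists_isotropic_both [Finite F] (hn : 7 ≤ Fintype.card ι) {a b : ι → F} (ha : a ≠ 0)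
    (hb : b ≠ 0) : ∃ z, f z z = 0 ∧ f a z ≠ 0 ∧ f b z ≠ 0 := by
  classical
  obtain ⟨x₀, h1, h2⟩ := exists_uf_both σ f hf ha hb
  obtain ⟨e, he, -, h4⟩ := exists_isotropic_correction σ f hf {a, b}
    (by have := Finset.card_le_two (a := a) (b := b); omega) x₀
  refine ⟨e, he, ?_, ?_⟩
  · rw [h4 a (by simp)]
    exact h1
  · rw [h4 b (by simp)]
    exact h2

include hf in
/-- An isotropic vector lies in a triangle of pairwise non-perpendicular isotropic vectors. -/
lemma exists_isotropic_triangle [Finite F] (hn : 5 ≤ Fintype.card ι) {w : ι → F}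
    (hw : f w w = 0) (hw0 : w ≠ 0) :
    ∃ w₂ w₃, f w₂ w₂ = 0 ∧ f w₃ w₃ = 0 ∧ f w w₂ ≠ 0 ∧ f w₂ w₃ ≠ 0 ∧ f w w₃ ≠ 0 := by
  classical
  obtain ⟨-, ⟨x₀, hx₀⟩⟩ := hf.nondegenerate w hw0
  obtain ⟨w₂, hw₂, -, h2⟩ := exists_isotropic_correction σ f hf {w} (by simp; omega) x₀
  have hβ : f w w₂ ≠ 0 := by
    rw [h2 w (by simp)]
    exact hx₀
  obtain ⟨d, hd0, hd⟩ := exists_skew_elt σ hf.ne_refl hf.involutive
  obtain ⟨μ, hμ⟩ : ∃ μ : F, σ μ = d / f w w₂ := ⟨σ (d / f w w₂), hf.involutive _⟩
  have hμ' : μ = σ (d / f w w₂) := by rw [← hμ, hf.involutive]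
  have hw₂w : f w₂ w = σ (f w w₂) := hf.herm w₂ w
  refine ⟨w₂, w + μ • w₂, hw₂, ?_, hβ, ?_, ?_⟩
  · rw [hf.add_left, uf_add_right σ f hf, uf_add_right σ f hf, hf.smul_left, hf.smul_left,
      uf_smul_right σ f hf, uf_smul_right σ f hf, hw, hw₂, hw₂w, hμ, div_mul_cancel₀ _ hβ, hμ',
      ← map_mul, div_mul_cancel₀ _ hβ, hd]
    ring
  · rw [uf_add_right σ f hf, uf_smul_right σ f hf, hw₂, mul_zero, add_zero]
    exact uf_symm_ne σ f hf hβ
  · rw [uf_add_right σ f hf, uf_smul_right σ f hf, hw, zero_add, hμ, div_mul_cancel₀ _ hβ]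
    exact hd0

include hf in
/-- A vector perpendicular to few given vectors is a sum of two isotropic vectors perpendicular
to them. -/
lemma exists_isotropic_sum [Finite F] (s : Finset (ι → F))
    (hs : 2 * (s.card + 1) < Fintype.card ι) (y : ι → F) (hy : ∀ u ∈ s, f y u = 0) :
    ∃ z₁ z₂, f z₁ z₁ = 0 ∧ f z₂ z₂ = 0 ∧ (∀ u ∈ s, f z₁ u = 0) ∧ (∀ u ∈ s, f z₂ u = 0) ∧
      y = z₁ + z₂ := by
  classical
  have hcard : 2 * (insert y s).card < Fintype.card ι := by
    have := Finset.card_insert_le y s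
    omega
  have hfix : σ (-f y y) = -f y y := by
    rw [map_neg, uf_self_fixed σ f hf]
  obtain ⟨p, hp, hpp⟩ := exists_norm_perp σ f hf (insert y s) hcard (-f y y) hfix
  have hpy : f p y = 0 := hp y (Finset.mem_insert_self _ _)
  have hyp : f y p = 0 := uf_symm_zero σ f hf hpy
  obtain ⟨θ, hθ⟩ := exists_trace_one σ hf.ne_refl hf.involutive
  have hσθ : σ θ = 1 - θ := by linear_combination hθ
  refine ⟨θ • (y + p), (1 - θ) • y - θ • p, ?_, ?_, ?_, ?_, ?_⟩
  · rw [hf.smul_left, uf_smul_right σ f hf, hf.add_left, uf_add_right σ f hf,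
      uf_add_right σ f hf, hyp, hpy, hpp]
    ring
  · simp only [uf_sub_left σ f hf, uf_sub_right σ f hf, hf.smul_left, uf_smul_right σ f hf,
      hyp, hpy, hpp, map_sub, map_one, hσθ]
    ring
  · intro u hu
    rw [hf.smul_left, hf.add_left, hy u hu, hp u (Finset.mem_insert_of_mem hu)]
    ring
  · intro u hu
    rw [uf_sub_left σ f hf, hf.smul_left, hf.smul_left, hy u hu,
      hp u (Finset.mem_insert_of_mem hu)]
    ring
  · module

end iso

end Cfsg.Agent.Lib.Helper94
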