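-- helper94: unitary subfield subgroups (odd prime index): field facts, rational vectors,
-- Siegel elements of isotropic pairs, coordinate vectors.
import Mathlib
import Cfsg.Prelude.Def_GeometricClasses
import Cfsg.Agent.Lib.Helper13.SUOrthMax
import Cfsg.Agent.Lib.Helper94.SubGood
import Cfsg.Agent.Lib.Helper13.HermBasis

set_option autoImplicit false
set_option linter.unusedSectionVars false
set_option linter.unusedVariables false

namespace Cfsg.Agent.Lib.Helper94.Usf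

open Matrix Cfsg.Agent.Lib.Helper45 Cfsg.Agent.Lib.Helper44 Cfsg.Agent.Lib.Helper13

variable {F : Type*} [Field F] [Fintype F] {q n : ℕ}

/-! ### field facts -/

/-- the fixed field of the `q`-power map -/
def fixQ (hF : Fintype.card F = q ^ 2) : Subfield F where
  carrier := {x | x ^ q = x}
  mul_mem' := by
    intro a b ha hb
    have ha' : a ^ q = a := ha
    have hb' : b ^ q = b := hb
    show (a * b) ^ q = a * b
    rw [mul_pow, ha', hb']
  one_mem' := one_pow q
  add_mem' := by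
    intro a b ha hb
    have ha' : a ^ q = a := ha
    have hb' : b ^ q = b := hb
    show (a + b) ^ q = a + b
    rw [conj_add hF, ha', hb']
  zero_mem' := conj_zero hF
  neg_mem' := by
    intro a ha
    have ha' : a ^ q = a := ha
    show (-a) ^ q = -a
    rw [conj_neg hF, ha']
  inv_mem' := by
    intro a ha
    have ha' : a ^ q = a := ha
    show (a⁻¹) ^ q = a⁻¹
    rw [inv_pow, ha']

theorem exists_conj_ne (hF : Fintype.card F = q ^ 2) : ∃ x : F, x ^ q ≠ x := by
  by_contra hcon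
  push Not at hcon
  apply sigmaQ_ne_id hF
  ext x
  exact hcon x

theorem card_le_two_mul_fix (hF : Fintype.card F = q ^ 2) (K : Subfield F)
    (hK : ∀ x : F, x ^ q = x → x ∈ K) :
    Fintype.card F ≤ 2 * (Nat.card K * Nat.card K) := by
  classical
  let f : F → F × F := fun x => (x + x ^ q, x ^ (q + 1))
  let S : Finset F := Finset.univ.filter (fun d : F => d ∈ K)
  have hS : S.card = Nat.card K := by
    rw [Nat.card_eq_fintype_card, Fintype.card_subtype]
  have himg : (Finset.univ.image f) ⊆ S ×ˢ S := by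
    intro y hy
    obtain ⟨x, -, rfl⟩ := Finset.mem_image.mp hy
    rw [Finset.mem_product]
    refine ⟨Finset.mem_filter.mpr ⟨Finset.mem_univ _, hK _ ?_⟩,
      Finset.mem_filter.mpr ⟨Finset.mem_univ _, hK _ ?_⟩⟩
    · show (x + x ^ q) ^ q = x + x ^ q
      rw [conj_add hF, conj_conj hF, add_comm]
    · exact norm_fixed hF x
  have hfib : ∀ a ∈ Finset.univ.image f,
      ((Finset.univ : Finset F).filter (fun x => f x = a)).card ≤ 2 := by
    intro a ha
    obtain ⟨x₀, -, rfl⟩ := Finset.mem_image.mp ha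
    have hsub : (Finset.univ.filter (fun x => f x = f x₀)) ⊆ {x₀, x₀ ^ q} := by
      intro y hy
      have hy' : f y = f x₀ := (Finset.mem_filter.mp hy).2
      have h1 : y + y ^ q = x₀ + x₀ ^ q := congrArg Prod.fst hy'
      have h2 : y ^ (q + 1) = x₀ ^ (q + 1) := congrArg Prod.snd hy'
      have h3 : (y - x₀) * (y - x₀ ^ q) = 0 := by
        have e1 : y ^ (q + 1) = y * y ^ q := by rw [pow_succ, mul_comm]
        have e2 : x₀ ^ (q + 1) = x₀ * x₀ ^ q := by rw [pow_succ, mul_comm]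
        rw [e1, e2] at h2
        linear_combination y * h1 - h2
      rcases mul_eq_zero.mp h3 with h | h
      · rw [Finset.mem_insert]; left; exact sub_eq_zero.mp h
      · rw [Finset.mem_insert, Finset.mem_singleton]; right; exact sub_eq_zero.mp h
    exact (Finset.card_le_card hsub).trans Finset.card_le_two
  have h1 := Finset.card_le_mul_card_image (Finset.univ : Finset F) 2 hfib
  have h2 : (Finset.univ.image f).card ≤ S.card * S.card := by
    rw [← Finset.card_product]; exact Finset.card_le_card himg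
  rw [hS] at h2
  calc Fintype.card F = (Finset.univ : Finset F).card := (Finset.card_univ).symm
    _ ≤ 2 * (Finset.univ.image f).card := h1
    _ ≤ 2 * (Nat.card K * Nat.card K) := Nat.mul_le_mul_left 2 h2

/-- a subfield of odd prime index is not fixed by the `q`-power map -/
theorem exists_not_fixed_mem (hF : Fintype.card F = q ^ 2) (F₀ : Subfield F) (r : ℕ)
    (hr : r.Prime) (hro : Odd r) (hcard : Fintype.card F = Nat.card F₀ ^ r) :
    ∃ d ∈ F₀, d ^ q ≠ d := by
  by_contra hcon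
  push Not at hcon
  obtain ⟨hmax, -⟩ := Subf.subfield_max_of_card F₀ r hr hcard
  have hle : F₀ ≤ fixQ hF := fun d hd => hcon d hd
  rcases hmax (fixQ hF) hle with h | h
  · have h1 := card_le_two_mul_fix hF F₀ (fun x hx => by
      have : x ∈ fixQ hF := hx
      rwa [h] at this)
    rw [hcard] at h1
    have hr3 : 3 ≤ r := by
      have := hr.two_le
      rcases hro with ⟨k, hk⟩
      omega
    have : Fintype F₀ := Fintype.ofFinite _
    have h2 : 2 ≤ Nat.card F₀ := by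
      rw [Nat.card_eq_fintype_card]; exact Fintype.one_lt_card
    obtain ⟨N, hN⟩ : ∃ N, N = Nat.card F₀ := ⟨_, rfl⟩
    rw [← hN] at h1 h2 hcard
    have h3 : N ^ 3 ≤ N ^ r := Nat.pow_le_pow_right (by omega) hr3
    have h4 : N ≤ 2 := by
      by_contra h5
      push Not at h5
      have h6 : 3 * (N * N) ≤ N ^ 3 := by
        have : N ^ 3 = N * (N * N) := by ring
        rw [this]; exact Nat.mul_le_mul_right _ h5
      have hpos : 0 < N * N := by positivity
      linarith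
    have h5 : N = 2 := le_antisymm h4 h2
    rw [h5] at h1 hcard
    have hr3' : r = 3 := by
      by_contra hne
      have h7 : 4 ≤ r := by omega
      have h8 : 2 ^ 4 ≤ 2 ^ r := Nat.pow_le_pow_right (by norm_num) h7
      norm_num at h1 h8
      omega
    rw [hr3', hF] at hcard
    have h9 : q ≤ 2 ∨ 3 ≤ q := by omega
    rcases h9 with h6 | h6
    · have h10 : q ^ 2 ≤ 2 ^ 2 := Nat.pow_le_pow_left h6 2
      norm_num at h10 hcard
      omega
    · have h10 : 3 ^ 2 ≤ q ^ 2 := Nat.pow_le_pow_left h6 2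
      norm_num at h10 hcard
      omega
  · obtain ⟨x, hx⟩ := exists_conj_ne hF
    apply hx
    have : x ∈ fixQ hF := by rw [h]; exact Subfield.mem_top x
    exact this

/-- the data of the problem -/
structure UD (q n : ℕ) (F₀ : Subfield F) : Prop where
  hF : Fintype.card F = q ^ 2
  hn : 13 ≤ n
  hmax : ∀ K : Subfield F, F₀ ≤ K → K = F₀ ∨ K = ⊤
  hne : F₀ ≠ ⊤
  hd : ∃ d ∈ F₀, d ^ q ≠ d

variable {F₀ : Subfield F}

theorem UD.q_ne (D : UD (F := F) q n F₀) : q ≠ 0 := by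
  have := two_le_q D.hF; omega

theorem UD.exists_skew (D : UD (F := F) q n F₀) : ∃ θ ∈ F₀, θ ≠ 0 ∧ θ ^ q = -θ := by
  obtain ⟨d, hd, hdq⟩ := D.hd
  exact ⟨d - d ^ q, F₀.sub_mem hd (pow_mem hd q), sub_ne_zero.mpr (Ne.symm hdq), by
    rw [conj_sub D.hF, conj_conj D.hF]; ring⟩

/-- the `q`-power map on the subfield -/
noncomputable def sigma0 (hF : Fintype.card F = q ^ 2) (F₀ : Subfield F) : F₀ →+* F₀ where
  toFun x := x ^ q
  map_one' := one_pow q
  map_mul' x y := mul_pow x y q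
  map_zero' := zero_pow (by have := two_le_q hF; omega)
  map_add' x y := by
    apply Subtype.ext
    show ((x : F) + (y : F)) ^ q = (x : F) ^ q + (y : F) ^ q
    exact conj_add hF x y

theorem UD.exists_norm (D : UD (F := F) q n F₀) : ∃ ε ∈ F₀, ε ^ (q + 1) = -1 := by
  obtain ⟨d, hd, hdq⟩ := D.hd
  have hσ : sigma0 D.hF F₀ ≠ RingHom.id F₀ := by
    intro h
    apply hdq
    have := congrArg (fun f : F₀ →+* F₀ => ((f ⟨d, hd⟩ : F₀) : F)) h
    exact this
  have hσ2 : ∀ a : F₀, sigma0 D.hF F₀ (sigma0 D.hF F₀ a) = a := by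
    intro a
    apply Subtype.ext
    show (((a : F)) ^ q) ^ q = a
    exact conj_conj D.hF a
  have hm1 : sigma0 D.hF F₀ (-1) = -1 := by
    apply Subtype.ext
    show ((-1 : F)) ^ q = -1
    rw [conj_neg D.hF, one_pow]
  obtain ⟨c, hc⟩ := norm_surj_involution (sigma0 D.hF F₀) hσ hσ2 (-1)
    (neg_ne_zero.mpr one_ne_zero) hm1
  refine ⟨c, c.2, ?_⟩
  have := congrArg (fun x : F₀ => (x : F)) hc
  have h2 : (c : F) * (c : F) ^ q = -1 := this
  rw [pow_succ, mul_comm]
  exact h2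

theorem norm_one_div (hF : Fintype.card F = q ^ 2) {x : F} (hx : x ≠ 0) :
    (x / x ^ q) ^ (q + 1) = 1 := by
  have h1 : (x ^ q) ^ (q + 1) = x ^ (q + 1) := by
    rw [← pow_mul, mul_comm, pow_mul, norm_fixed hF]
  rw [div_pow, h1]
  exact div_self (pow_ne_zero _ hx)

/-- three distinct rational elements of norm `-1` -/
theorem UD.exists_three (D : UD (F := F) q n F₀) :
    ∃ ε₁ ε₂ ε₃ : F, ε₁ ∈ F₀ ∧ ε₂ ∈ F₀ ∧ ε₃ ∈ F₀ ∧ ε₁ ^ (q + 1) = -1 ∧ ε₂ ^ (q + 1) = -1 ∧
      ε₃ ^ (q + 1) = -1 ∧ ε₁ ≠ ε₂ ∧ ε₁ ≠ ε₃ ∧ ε₂ ≠ ε₃ := by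
  obtain ⟨d, hd, hdq⟩ := D.hd
  obtain ⟨ε, hε, hεn⟩ := D.exists_norm
  have hF := D.hF
  have hε0 : ε ≠ 0 := by
    rintro rfl
    rw [zero_pow (by omega)] at hεn
    exact (neg_ne_zero.mpr one_ne_zero) hεn.symm
  have hd0 : d ≠ 0 := by
    rintro rfl
    exact hdq (conj_zero hF)
  have hd1 : d + 1 ≠ 0 := by
    intro h
    have : d = -1 := by linear_combination h
    apply hdq
    rw [this, conj_neg hF, one_pow]
  have hdq0 : d ^ q ≠ 0 := pow_ne_zero _ hd0
  have hd1q : (d + 1) ^ q = d ^ q + 1 := by rw [conj_add hF, one_pow]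
  have hd1q0 : d ^ q + 1 ≠ 0 := by rw [← hd1q]; exact pow_ne_zero _ hd1
  refine ⟨ε, ε * (d / d ^ q), ε * ((d + 1) / (d + 1) ^ q), hε,
    F₀.mul_mem hε (F₀.div_mem hd (pow_mem hd q)),
    F₀.mul_mem hε (F₀.div_mem (F₀.add_mem hd F₀.one_mem) (pow_mem (F₀.add_mem hd F₀.one_mem) q)),
    hεn, ?_, ?_, ?_, ?_, ?_⟩
  · rw [mul_pow, hεn, norm_one_div hF hd0, mul_one]
  · rw [mul_pow, hεn, norm_one_div hF hd1, mul_one]
  · intro h
    apply hdq
    have h1 : d / d ^ q = 1 := by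
      have := mul_left_cancel₀ hε0 (show ε * 1 = ε * (d / d ^ q) by rw [mul_one]; exact h)
      exact this.symm
    rw [div_eq_one_iff_eq hdq0] at h1
    exact h1.symm
  · intro h
    apply hdq
    have h1 : (d + 1) / (d + 1) ^ q = 1 := by
      have := mul_left_cancel₀ hε0 (show ε * 1 = ε * ((d + 1) / (d + 1) ^ q) by
        rw [mul_one]; exact h)
      exact this.symm
    rw [hd1q, div_eq_one_iff_eq hd1q0] at h1
    linear_combination -h1
  · intro h
    apply hdq
    have h1 := mul_left_cancel₀ hε0 h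
    rw [hd1q, div_eq_div_iff hdq0 hd1q0] at h1
    linear_combination -h1

/-! ### rational vectors -/

/-- rational vectors -/
def Rv (F₀ : Subfield F) (v : Fin n → F) : Prop := ∀ i, v i ∈ F₀

theorem Rv.add {u v : Fin n → F} (hu : Rv F₀ u) (hv : Rv F₀ v) : Rv F₀ (u + v) :=
  fun i => F₀.add_mem (hu i) (hv i)

theorem Rv.sub {u v : Fin n → F} (hu : Rv F₀ u) (hv : Rv F₀ v) : Rv F₀ (u - v) :=
  fun i => F₀.sub_mem (hu i) (hv i)

theorem Rv.smul {c : F} {v : Fin n → F} (hc : c ∈ F₀) (hv : Rv F₀ v) : Rv F₀ (c • v) :=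
  fun i => F₀.mul_mem hc (hv i)

theorem rv_zero : Rv F₀ (0 : Fin n → F) := fun _ => F₀.zero_mem

theorem Rv.herm {u v : Fin n → F} (hu : Rv F₀ u) (hv : Rv F₀ v) :
    Cfsg.hermForm n F q u v ∈ F₀ := by
  rw [herm_def]
  exact F₀.sum_mem fun i _ => F₀.mul_mem (hu i) (pow_mem (hv i) q)

/-- the subfield subgroup of `SU` for the standard rational structure -/
abbrev NN (q n : ℕ) (F₀ : Subfield F) : Subgroup (GL (Fin n) F) :=
  Cfsg.Geo.subfieldSubgroup F₀ (1 : GL (Fin n) F) ⊓ suGL n F q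

theorem inN_of_rat {A : Matrix (Fin n) (Fin n) F} (hdet : A.det = 1)
    (hiso : IsHermIso n F q A) (hA : ∀ v, Rv F₀ v → Rv F₀ (A *ᵥ v)) :
    InM (NN q n F₀) A := by
  refine ⟨glOfDet A hdet, Subgroup.mem_inf.mpr ⟨?_, glOfDet_mem_suGL A hdet hiso⟩, rfl⟩
  apply mem_subfieldSubgroup_of_maps F₀ 1 _ 1 one_ne_zero
  rintro v ⟨u, hu, rfl⟩
  refine ⟨A *ᵥ u, ⟨A *ᵥ u, hA u hu, ?_⟩, ?_⟩
  · rw [Units.val_one, Matrix.one_mulVec]
  · rw [glOfDet_val, Units.val_one, Matrix.one_mulVec, one_smul]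

theorem inM_one (M : Subgroup (GL (Fin n) F)) : InM M (1 : Matrix (Fin n) (Fin n) F) :=
  ⟨1, M.one_mem, rfl⟩

theorem inM_mono {M M' : Subgroup (GL (Fin n) F)} (h : M ≤ M') {A : Matrix (Fin n) (Fin n) F}
    (hA : InM M A) : InM M' A := by
  obtain ⟨E, hE, rfl⟩ := hA
  exact ⟨E, h hE, rfl⟩

theorem inN_utransv (hF : Fintype.card F = q ^ 2) {v : Fin n → F} {c : F} (hv : Rv F₀ v)
    (hvv : Cfsg.hermForm n F q v v = 0) (hc : c ∈ F₀) (hcq : c ^ q = -c) :
    InM (NN q n F₀) (Cfsg.unitaryTransvection n q v c) := by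
  apply inN_of_rat (det_utransv v c hvv) (isHermIso_utransv hF v c hvv hcq)
  intro x hx
  rw [utransv_mulVec]
  exact hx.add (Rv.smul (F₀.mul_mem hc (hx.herm hv)) hv)

/-! ### Siegel elements of an orthogonal isotropic pair -/

/-- the Siegel element `x ↦ x + c h(x,u) w - c^q h(x,w) u` -/
def Sg (q : ℕ) (u w : Fin n → F) (c : F) : Matrix (Fin n) (Fin n) F := siegel q u (c • w) 0

theorem Sg_mulVec {u w : Fin n → F} (c : F) (hu : Cfsg.hermForm n F q u u = 0)
    (x : Fin n → F) :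
    Sg q u w c *ᵥ x = x + (c * Cfsg.hermForm n F q x u) • w -
      (c ^ q * Cfsg.hermForm n F q x w) • u := by
  unfold Sg
  rw [siegel_mulVec u _ 0 hu, herm_smul_right]
  module

theorem Sg_iso (hF : Fintype.card F = q ^ 2) {u w : Fin n → F} (c : F)
    (hu : Cfsg.hermForm n F q u u = 0) (hw : Cfsg.hermForm n F q w w = 0)
    (hwu : Cfsg.hermForm n F q w u = 0) : IsHermIso n F q (Sg q u w c) := by
  unfold Sg
  apply isHermIso_siegel hF u (c • w) 0 hu
  · rw [herm_smul_left, hwu, mul_zero]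
  · rw [herm_smul_left, herm_smul_right, hw, conj_zero hF]
    ring

theorem Sg_det (hF : Fintype.card F = q ^ 2) {u w : Fin n → F} (c : F)
    (hu : Cfsg.hermForm n F q u u = 0) (hwu : Cfsg.hermForm n F q w u = 0) :
    (Sg q u w c).det = 1 := by
  unfold Sg
  apply det_siegel u (c • w) 0 hu
  · rw [herm_smul_left, hwu, mul_zero]
  · rw [herm_smul_right, herm_swap_zero hF hwu, mul_zero]

theorem inN_Sg (hF : Fintype.card F = q ^ 2) {u w : Fin n → F} {c : F} (hu : Rv F₀ u)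
    (hw : Rv F₀ w) (huu : Cfsg.hermForm n F q u u = 0) (hww : Cfsg.hermForm n F q w w = 0)
    (hwu : Cfsg.hermForm n F q w u = 0) (hc : c ∈ F₀) : InM (NN q n F₀) (Sg q u w c) := by
  apply inN_of_rat (Sg_det hF c huu hwu) (Sg_iso hF c huu hww hwu)
  intro x hx
  rw [Sg_mulVec c huu]
  exact (hx.add (Rv.smul (F₀.mul_mem hc (hx.herm hu)) hw)).sub
    (Rv.smul (F₀.mul_mem (pow_mem hc q) (hx.herm hw)) hu)

theorem Sg_add (hF : Fintype.card F = q ^ 2) {u w : Fin n → F} (c c' : F)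
    (hu : Cfsg.hermForm n F q u u = 0) (hw : Cfsg.hermForm n F q w w = 0)
    (hwu : Cfsg.hermForm n F q w u = 0) : Sg q u w c * Sg q u w c' = Sg q u w (c + c') := by
  have huw := herm_swap_zero hF hwu
  rw [Matrix.ext_iff_mulVec]
  intro x
  rw [← Matrix.mulVec_mulVec, Sg_mulVec c' hu, Sg_mulVec c hu, Sg_mulVec (c + c') hu]
  simp only [herm_add_left, herm_sub_left, herm_smul_left, hu, hw, hwu, huw, mul_zero, add_zero,
    sub_zero]
  rw [conj_add hF]
  module

theorem Sg_zero (hF : Fintype.card F = q ^ 2) {u w : Fin n → F}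
    (hu : Cfsg.hermForm n F q u u = 0) : Sg q u w 0 = 1 := by
  unfold Sg
  rw [zero_smul, siegel_zero hF u 0 hu, utransv_zero]

theorem inM_Sg_neg (hF : Fintype.card F = q ^ 2) {M : Subgroup (GL (Fin n) F)}
    {u w : Fin n → F} {c : F} (hu : Cfsg.hermForm n F q u u = 0)
    (hw : Cfsg.hermForm n F q w w = 0) (hwu : Cfsg.hermForm n F q w u = 0)
    (h : InM M (Sg q u w c)) : InM M (Sg q u w (-c)) :=
  InM.of_mul_eq h (inM_one M) (by rw [Sg_add hF c (-c) hu hw hwu, add_neg_cancel, Sg_zero hF hu])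

theorem Sg_swap (hF : Fintype.card F = q ^ 2) {u w : Fin n → F} (c : F)
    (hu : Cfsg.hermForm n F q u u = 0) (hw : Cfsg.hermForm n F q w w = 0) :
    Sg q u w c = Sg q w u (-(c ^ q)) := by
  rw [Matrix.ext_iff_mulVec]
  intro x
  rw [Sg_mulVec c hu, Sg_mulVec _ hw, conj_neg hF, conj_conj hF]
  module

theorem Sg_smul_left (hF : Fintype.card F = q ^ 2) {u w : Fin n → F} (κ c : F)
    (hu : Cfsg.hermForm n F q u u = 0) : Sg q (κ • u) w c = Sg q u w (κ ^ q * c) := by
  have hu' : Cfsg.hermForm n F q (κ • u) (κ • u) = 0 := by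
    rw [herm_smul_left, herm_smul_right, hu, mul_zero, mul_zero]
  rw [Matrix.ext_iff_mulVec]
  intro x
  rw [Sg_mulVec c hu', Sg_mulVec _ hu, herm_smul_right, mul_pow, conj_conj hF]
  module

theorem Sg_add_left (hF : Fintype.card F = q ^ 2) {u v w : Fin n → F} (c : F)
    (hu : Cfsg.hermForm n F q u u = 0) (hv : Cfsg.hermForm n F q v v = 0)
    (huv : Cfsg.hermForm n F q u v = 0) (hw : Cfsg.hermForm n F q w w = 0)
    (hwu : Cfsg.hermForm n F q w u = 0) (hwv : Cfsg.hermForm n F q w v = 0) :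
    Sg q (u + v) w c = Sg q u w c * Sg q v w c := by
  have hvu := herm_swap_zero hF huv
  have huw := herm_swap_zero hF hwu
  have hvw := herm_swap_zero hF hwv
  have huv' : Cfsg.hermForm n F q (u + v) (u + v) = 0 := by
    simp only [herm_add_left, herm_add_right hF, hu, hv, huv, hvu, add_zero]
  rw [Matrix.ext_iff_mulVec]
  intro x
  rw [← Matrix.mulVec_mulVec, Sg_mulVec c huv', Sg_mulVec c hv, Sg_mulVec c hu]
  simp only [herm_add_left, herm_sub_left, herm_smul_left, herm_add_right hF, hu, hv, huv, hvu,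
    hw, hwu, hwv, huw, hvw, mul_zero, add_zero, sub_zero]
  module

/-- conjugating `Sg v' w d` by `Sg u v c` -/
theorem Sg_conj_mul (hF : Fintype.card F = q ^ 2) {u w v' : Fin n → F} (c d κ₀ : F)
    (hu : Cfsg.hermForm n F q u u = 0) (hw : Cfsg.hermForm n F q w w = 0)
    (hv' : Cfsg.hermForm n F q v' v' = 0) (hwu : Cfsg.hermForm n F q w u = 0)
    (hv'u : Cfsg.hermForm n F q v' u = 0) (hwv' : Cfsg.hermForm n F q w v' = 0) :
    siegel q (v' - (c ^ q * κ₀) • u) (d • w) 0 =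
      Sg q v' w d * Sg q u w (-(c * κ₀ ^ q * d)) := by
  have huw := herm_swap_zero hF hwu
  have huv' := herm_swap_zero hF hv'u
  have hv'w := herm_swap_zero hF hwv'
  have h1 : Cfsg.hermForm n F q (v' - (c ^ q * κ₀) • u) (v' - (c ^ q * κ₀) • u) = 0 := by
    simp only [herm_sub_left, herm_sub_right hF, herm_smul_left, herm_smul_right, hu, hv', hv'u,
      huv', mul_zero, sub_zero]
  rw [Matrix.ext_iff_mulVec]
  intro x
  rw [← Matrix.mulVec_mulVec, siegel_mulVec _ _ 0 h1, Sg_mulVec _ hu, Sg_mulVec _ hv']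
  simp only [herm_add_left, herm_sub_left, herm_smul_left, herm_sub_right hF, herm_smul_right,
    hu, hw, hv', hwu, hv'u, hwv', huw, huv', hv'w, mul_zero, add_zero, sub_zero, zero_mul,
    mul_pow, conj_neg hF, conj_conj hF]
  module

/-- conjugating `Sg v' u d` by `Sg u v c` -/
theorem Sg_conj_self (hF : Fintype.card F = q ^ 2) {u v' : Fin n → F} (c d κ₀ : F)
    (hu : Cfsg.hermForm n F q u u = 0) (hv' : Cfsg.hermForm n F q v' v' = 0)
    (hv'u : Cfsg.hermForm n F q v' u = 0) :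
    siegel q (v' - (c ^ q * κ₀) • u) (d • u) 0 =
      Cfsg.unitaryTransvection n q u ((c * κ₀ ^ q * d) ^ q - c * κ₀ ^ q * d) * Sg q v' u d := by
  have huv' := herm_swap_zero hF hv'u
  have h1 : Cfsg.hermForm n F q (v' - (c ^ q * κ₀) • u) (v' - (c ^ q * κ₀) • u) = 0 := by
    simp only [herm_sub_left, herm_sub_right hF, herm_smul_left, herm_smul_right, hu, hv', hv'u,
      huv', mul_zero, sub_zero]
  rw [Matrix.ext_iff_mulVec]
  intro x
  rw [← Matrix.mulVec_mulVec, siegel_mulVec _ _ 0 h1, utransv_mulVec, Sg_mulVec _ hv']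
  simp only [herm_add_left, herm_sub_left, herm_smul_left, herm_sub_right hF, herm_smul_right,
    hu, hv', hv'u, huv', mul_zero, add_zero, sub_zero, zero_mul, mul_pow, conj_conj hF]
  module

/-! ### the second difference of transvections -/

/-- `x ↦ x + b h(x,p) r + b h(x,r) p` -/
def Gm (q : ℕ) (b : F) (p r : Fin n → F) : Matrix (Fin n) (Fin n) F :=
  1 + b • hermRank1 q r p + b • hermRank1 q p r

theorem Gm_mulVec (b : F) (p r x : Fin n → F) :
    Gm q b p r *ᵥ x = x + (b * Cfsg.hermForm n F q x p) • r +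
      (b * Cfsg.hermForm n F q x r) • p := by
  unfold Gm
  rw [Matrix.add_mulVec, Matrix.add_mulVec, Matrix.one_mulVec, Matrix.smul_mulVec,
    Matrix.smul_mulVec, hermRank1_mulVec, hermRank1_mulVec, smul_smul, smul_smul]

theorem sd_identity (hF : Fintype.card F = q ^ 2) {δ p r : Fin n → F} (b : F)
    (hδ : Cfsg.hermForm n F q δ δ = 0) (hp : Cfsg.hermForm n F q p p = 0)
    (hr : Cfsg.hermForm n F q r r = 0) (hδp : Cfsg.hermForm n F q δ p = 0)
    (hδr : Cfsg.hermForm n F q δ r = 0) (hpr : Cfsg.hermForm n F q p r = 0) :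
    Cfsg.unitaryTransvection n q (δ + p + r) b * Cfsg.unitaryTransvection n q δ b =
      Cfsg.unitaryTransvection n q (δ + p) b *
        (Cfsg.unitaryTransvection n q (δ + r) b * Gm q b p r) := by
  have hpδ := herm_swap_zero hF hδp
  have hrδ := herm_swap_zero hF hδr
  have hrp := herm_swap_zero hF hpr
  rw [Matrix.ext_iff_mulVec]
  intro x
  simp only [← Matrix.mulVec_mulVec, utransv_mulVec, Gm_mulVec, herm_add_left,
    herm_add_right hF, herm_smul_left, hδ, hp, hr, hδp, hδr, hpr, hpδ, hrδ, hrp, mul_zero,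
    add_zero, zero_add]
  module

theorem Gm_eq_Sg (hF : Fintype.card F = q ^ 2) {v v₂ : Fin n → F} (b p₀ r₀ : F)
    (hb : b ^ q = -b) (hv : Cfsg.hermForm n F q v v = 0) :
    Gm q b (p₀ • v) (r₀ • v₂) = Sg q v v₂ (b * p₀ ^ q * r₀) := by
  rw [Matrix.ext_iff_mulVec]
  intro x
  rw [Gm_mulVec, Sg_mulVec _ hv, herm_smul_right, herm_smul_right]
  simp only [mul_pow, conj_conj hF, hb]
  module

/-- the second difference of a transvection in `M` along two rational moves -/
theorem inM_Gm (hF : Fintype.card F = q ^ 2) {M : Subgroup (GL (Fin n) F)}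
    {δ p r : Fin n → F} {b : F} {Y₁ Y₂ : Matrix (Fin n) (Fin n) F}
    (hU : InM M (Cfsg.unitaryTransvection n q δ b)) (hY₁ : InM M Y₁) (hY₂ : InM M Y₂)
    (hi₁ : IsHermIso n F q Y₁) (hi₂ : IsHermIso n F q Y₂)
    (h1 : Y₁ *ᵥ δ = δ + p) (h2 : Y₂ *ᵥ δ = δ + r) (h3 : Y₂ *ᵥ p = p)
    (hδ : Cfsg.hermForm n F q δ δ = 0) (hp : Cfsg.hermForm n F q p p = 0)
    (hr : Cfsg.hermForm n F q r r = 0) (hδp : Cfsg.hermForm n F q δ p = 0)
    (hδr : Cfsg.hermForm n F q δ r = 0) (hpr : Cfsg.hermForm n F q p r = 0) :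
    InM M (Gm q b p r) := by
  have hA : InM M (Cfsg.unitaryTransvection n q (δ + p) b) := by
    have := InM.conj_utransv hY₁ hi₁ hU
    rwa [h1] at this
  have hB : InM M (Cfsg.unitaryTransvection n q (δ + r) b) := by
    have := InM.conj_utransv hY₂ hi₂ hU
    rwa [h2] at this
  have hC : InM M (Cfsg.unitaryTransvection n q (δ + p + r) b) := by
    have := InM.conj_utransv hY₂ hi₂ hA
    rw [Matrix.mulVec_add, h2, h3] at this
    have e : δ + r + p = δ + p + r := by abel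
    rwa [e] at this
  have h4 := InM.of_mul_eq hA (hC.mul hU) (sd_identity hF b hδ hp hr hδp hδr hpr).symm
  exact InM.of_mul_eq hB h4 rfl

/-! ### coordinate vectors -/

/-- the vector `e_i + ε e_a` -/
def cv (i a : Fin n) (ε : F) : Fin n → F := Pi.single i 1 + ε • Pi.single a 1

theorem cv_apply (i a j : Fin n) (ε : F) :
    cv i a ε j = (if j = i then 1 else 0) + ε * (if j = a then 1 else 0) := by
  simp [cv, Pi.single_apply]

theorem herm_cv_right (hF : Fintype.card F = q ^ 2) (x : Fin n → F) (i a : Fin n) (ε : F) :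
    Cfsg.hermForm n F q x (cv i a ε) = x i + ε ^ q * x a := by
  have hq : q ≠ 0 := by have := two_le_q hF; omega
  unfold cv
  rw [herm_add_right hF, herm_smul_right, herm_single_right hq, herm_single_right hq]

theorem herm_cv_same (hF : Fintype.card F = q ^ 2) {i a : Fin n} (hia : i ≠ a) (ε ε' : F) :
    Cfsg.hermForm n F q (cv i a ε) (cv i a ε') = 1 + ε * ε' ^ q := by
  rw [herm_cv_right hF, cv_apply, cv_apply]
  simp [hia, hia.symm]
  ring

theorem herm_cv_disj (hF : Fintype.card F = q ^ 2) {i a j b : Fin n} (h1 : i ≠ j) (h2 : i ≠ b)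
    (h3 : a ≠ j) (h4 : a ≠ b) (ε ε' : F) :
    Cfsg.hermForm n F q (cv i a ε) (cv j b ε') = 0 := by
  rw [herm_cv_right hF, cv_apply, cv_apply]
  simp [h1.symm, h2.symm, h3.symm, h4.symm]

theorem cv_rat {i a : Fin n} {ε : F} (hε : ε ∈ F₀) : Rv F₀ (cv i a ε) := by
  intro j
  rw [cv_apply]
  refine F₀.add_mem ?_ (F₀.mul_mem hε ?_) <;> split_ifs <;>
    first | exact F₀.one_mem | exact F₀.zero_mem

/-- `u` is a rational isotropic coordinate vector of the plane `{i, a}` -/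
def IsC (q : ℕ) (F₀ : Subfield F) (i a : Fin n) (u : Fin n → F) : Prop :=
  i ≠ a ∧ ∃ ε ∈ F₀, ε ^ (q + 1) = -1 ∧ u = cv i a ε

theorem IsC.rat {i a : Fin n} {u : Fin n → F} (h : IsC q F₀ i a u) : Rv F₀ u := by
  obtain ⟨-, ε, hε, -, rfl⟩ := h
  exact cv_rat hε

theorem IsC.iso (hF : Fintype.card F = q ^ 2) {i a : Fin n} {u : Fin n → F}
    (h : IsC q F₀ i a u) : Cfsg.hermForm n F q u u = 0 := by
  obtain ⟨hia, ε, hε, hn, rfl⟩ := h
  rw [herm_cv_same hF hia, ← pow_succ', hn, add_neg_cancel]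

theorem IsC.orth (hF : Fintype.card F = q ^ 2) {i a j b : Fin n} {u w : Fin n → F}
    (hu : IsC q F₀ i a u) (hw : IsC q F₀ j b w) (h1 : i ≠ j) (h2 : i ≠ b) (h3 : a ≠ j)
    (h4 : a ≠ b) : Cfsg.hermForm n F q u w = 0 := by
  obtain ⟨-, ε, -, -, rfl⟩ := hu
  obtain ⟨-, ε', -, -, rfl⟩ := hw
  exact herm_cv_disj hF h1 h2 h3 h4 ε ε'

theorem UD.exists_isC (D : UD (F := F) q n F₀) {i a : Fin n} (hia : i ≠ a) :
    ∃ u, IsC q F₀ i a u := by
  obtain ⟨ε, hε, hn⟩ := D.exists_norm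
  exact ⟨cv i a ε, hia, ε, hε, hn, rfl⟩

/-- a mate of a coordinate vector in the same plane -/
theorem UD.exists_mate (D : UD (F := F) q n F₀) {i a : Fin n} {u : Fin n → F}
    (hu : IsC q F₀ i a u) :
    ∃ u', IsC q F₀ i a u' ∧ Cfsg.hermForm n F q u' u ≠ 0 ∧ Cfsg.hermForm n F q u' u ∈ F₀ := by
  obtain ⟨hia, ε, hε, hn, rfl⟩ := hu
  obtain ⟨ε₁, ε₂, ε₃, h1, h2, h3, n1, n2, n3, d12, d13, d23⟩ := D.exists_three
  have key : ∀ ε' : F, ε' ∈ F₀ → ε' ^ (q + 1) = -1 → ε' ≠ ε →
      ∃ u', IsC q F₀ i a u' ∧ Cfsg.hermForm n F q u' (cv i a ε) ≠ 0 ∧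
        Cfsg.hermForm n F q u' (cv i a ε) ∈ F₀ := by
    intro ε' hε' hn' hne
    refine ⟨cv i a ε', ⟨hia, ε', hε', hn', rfl⟩, ?_, (cv_rat hε').herm (cv_rat hε)⟩
    rw [herm_cv_same D.hF hia]
    intro h0
    apply hne
    have hεq : ε ^ q ≠ 0 := by
      intro h
      rw [pow_succ, h, zero_mul] at hn
      exact (neg_ne_zero.mpr one_ne_zero) hn.symm
    have e : ε' * ε ^ q = ε * ε ^ q := by
      have : ε * ε ^ q = -1 := by rw [← hn, pow_succ, mul_comm]
      rw [this]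
      linear_combination h0
    exact mul_right_cancel₀ hεq e
  by_cases h : ε₁ = ε
  · exact key ε₂ h2 n2 (fun h' => d12 (h.trans h'.symm))
  · exact key ε₁ h1 n1 h

/-- a plane avoiding a short list of indices -/
theorem exists_plane (hn : 13 ≤ n) (l : List (Fin n)) (hl : l.length ≤ 10) :
    ∃ i a : Fin n, i ≠ a ∧ i ∉ l ∧ a ∉ l := by
  classical
  have h1 : 1 < (l.toFinsetᶜ).card := by
    rw [Finset.card_compl, Fintype.card_fin]
    have := List.toFinset_card_le l
    omega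
  obtain ⟨i, hi, a, ha, hia⟩ := Finset.one_lt_card.mp h1
  refine ⟨i, a, hia, ?_, ?_⟩
  · rw [Finset.mem_compl, List.mem_toFinset] at hi; exact hi
  · rw [Finset.mem_compl, List.mem_toFinset] at ha; exact ha

end Cfsg.Agent.Lib.Helper94.Usf
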