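-- helper94: unitary subfield subgroups (odd prime index): the coefficient field of an overgroup.
import Mathlib
import Cfsg.Prelude.Def_GeometricClasses
import Cfsg.Agent.Lib.Helper94.UsBase

set_option autoImplicit false
set_option linter.unusedSectionVars false
set_option linter.unusedVariables false

namespace Cfsg.Agent.Lib.Helper94.Usf

open Matrix Cfsg.Agent.Lib.Helper45 Cfsg.Agent.Lib.Helper44 Cfsg.Agent.Lib.Helper13

variable {F : Type*} [Field F] [Fintype F] {q n : ℕ} {F₀ : Subfield F}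

/-- disjoint planes -/
def Dj (i a j b : Fin n) : Prop := i ≠ j ∧ i ≠ b ∧ a ≠ j ∧ a ≠ b

theorem Dj.symm {i a j b : Fin n} (h : Dj i a j b) : Dj j b i a :=
  ⟨h.1.symm, h.2.2.1.symm, h.2.1.symm, h.2.2.2.symm⟩

theorem Dj.orth (hF : Fintype.card F = q ^ 2) {i a j b : Fin n} {u w : Fin n → F}
    (h : Dj i a j b) (hu : IsC q F₀ i a u) (hw : IsC q F₀ j b w) :
    Cfsg.hermForm n F q u w = 0 := IsC.orth hF hu hw h.1 h.2.1 h.2.2.1 h.2.2.2

theorem Dj.orth' (hF : Fintype.card F = q ^ 2) {i a j b : Fin n} {u w : Fin n → F}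
    (h : Dj i a j b) (hu : IsC q F₀ i a u) (hw : IsC q F₀ j b w) :
    Cfsg.hermForm n F q w u = 0 := herm_swap_zero hF (h.orth hF hu hw)

theorem exists_plane5 (hn : 13 ≤ n) (i₁ a₁ i₂ a₂ i₃ a₃ i₄ a₄ i₅ a₅ : Fin n) :
    ∃ k l : Fin n, k ≠ l ∧ Dj i₁ a₁ k l ∧ Dj i₂ a₂ k l ∧ Dj i₃ a₃ k l ∧ Dj i₄ a₄ k l ∧
      Dj i₅ a₅ k l := by
  obtain ⟨k, l, hkl, hk, hl⟩ := exists_plane hn [i₁, a₁, i₂, a₂, i₃, a₃, i₄, a₄, i₅, a₅]
    (by simp)
  simp only [List.mem_cons, List.not_mem_nil, or_false, not_or] at hk hl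
  obtain ⟨h1, h2, h3, h4, h5, h6, h7, h8, h9, h10⟩ := hk
  obtain ⟨g1, g2, g3, g4, g5, g6, g7, g8, g9, g10⟩ := hl
  exact ⟨k, l, hkl, ⟨Ne.symm h1, Ne.symm g1, Ne.symm h2, Ne.symm g2⟩,
    ⟨Ne.symm h3, Ne.symm g3, Ne.symm h4, Ne.symm g4⟩,
    ⟨Ne.symm h5, Ne.symm g5, Ne.symm h6, Ne.symm g6⟩,
    ⟨Ne.symm h7, Ne.symm g7, Ne.symm h8, Ne.symm g8⟩,
    ⟨Ne.symm h9, Ne.symm g9, Ne.symm h10, Ne.symm g10⟩⟩

/-- the product rule for the coefficients of Siegel elements -/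
theorem KP_mul (hF : Fintype.card F = q ^ 2) {M : Subgroup (GL (Fin n) F)}
    {u v v' w : Fin n → F} {c d : F}
    (hu : Cfsg.hermForm n F q u u = 0) (hv : Cfsg.hermForm n F q v v = 0)
    (hv' : Cfsg.hermForm n F q v' v' = 0) (hw : Cfsg.hermForm n F q w w = 0)
    (hvu : Cfsg.hermForm n F q v u = 0) (hwu : Cfsg.hermForm n F q w u = 0)
    (hv'u : Cfsg.hermForm n F q v' u = 0) (hwv' : Cfsg.hermForm n F q w v' = 0)
    (hwv : Cfsg.hermForm n F q w v = 0)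
    (h1 : InM M (Sg q u v c)) (h2 : InM M (Sg q v' w d)) :
    InM M (Sg q u w (-(c * Cfsg.hermForm n F q v' v ^ q * d))) := by
  have hK : IsHermIso n F q (Sg q u v c) := Sg_iso hF c hu hv hvu
  have h3 : InM M (siegel q (Sg q u v c *ᵥ v') (Sg q u v c *ᵥ (d • w)) 0) :=
    InM.conj_siegel h1 hK h2 hv'
  have e1 : Sg q u v c *ᵥ v' = v' - (c ^ q * Cfsg.hermForm n F q v' v) • u := by
    rw [Sg_mulVec c hu, hv'u, mul_zero, zero_smul, add_zero]
  have e2 : Sg q u v c *ᵥ (d • w) = d • w := by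
    rw [Sg_mulVec c hu, herm_smul_left, herm_smul_left, hwu, hwv, mul_zero, mul_zero, mul_zero,
      zero_smul, zero_smul, add_zero, sub_zero]
  rw [e1, e2, Sg_conj_mul hF c d _ hu hw hv' hwu hv'u hwv'] at h3
  exact InM.of_mul_eq h2 h3 rfl

/-- changing the second vector to a third plane -/
theorem hop2 (D : UD (F := F) q n F₀) {M : Subgroup (GL (Fin n) F)} (hM : NN q n F₀ ≤ M)
    {i a j b k l : Fin n} {u v w : Fin n → F} {c : F}
    (hu : IsC q F₀ i a u) (hv : IsC q F₀ j b v) (hw : IsC q F₀ k l w)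
    (h1 : Dj i a j b) (h2 : Dj i a k l) (h3 : Dj j b k l)
    (h : InM M (Sg q u v c)) {lam : F} (hlam : lam ∈ F₀) : InM M (Sg q u w (c * lam)) := by
  have hF := D.hF
  obtain ⟨v', hv', hκ0, hκ⟩ := D.exists_mate hv
  have hκq : Cfsg.hermForm n F q v' v ^ q ≠ 0 := pow_ne_zero _ hκ0
  have hd : -(lam / Cfsg.hermForm n F q v' v ^ q) ∈ F₀ :=
    F₀.neg_mem (F₀.div_mem hlam (pow_mem hκ q))
  have h4 : InM M (Sg q v' w (-(lam / Cfsg.hermForm n F q v' v ^ q))) :=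
    inM_mono hM (inN_Sg hF hv'.rat hw.rat (hv'.iso hF) (hw.iso hF) (h3.orth' hF hv' hw) hd)
  have h5 := KP_mul hF (hu.iso hF) (hv.iso hF) (hv'.iso hF) (hw.iso hF) (h1.orth' hF hu hv)
    (h2.orth' hF hu hw) (h1.orth' hF hu hv') (h3.orth' hF hv' hw) (h3.orth' hF hv hw) h h4
  have e : -(c * Cfsg.hermForm n F q v' v ^ q * -(lam / Cfsg.hermForm n F q v' v ^ q))
      = c * lam := by
    field_simp
  rwa [e] at h5

/-- changing the first vector to a third plane -/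
theorem hop1 (D : UD (F := F) q n F₀) {M : Subgroup (GL (Fin n) F)} (hM : NN q n F₀ ≤ M)
    {i a j b k l : Fin n} {u v w : Fin n → F} {c : F}
    (hu : IsC q F₀ i a u) (hv : IsC q F₀ j b v) (hw : IsC q F₀ k l w)
    (h1 : Dj i a j b) (h2 : Dj i a k l) (h3 : Dj j b k l)
    (h : InM M (Sg q u v c)) : InM M (Sg q w v c) := by
  have hF := D.hF
  rw [Sg_swap hF c (hu.iso hF) (hv.iso hF)] at h
  have h4 := hop2 D hM hv hu hw h1.symm h3 h2 h F₀.one_mem
  rw [mul_one, Sg_swap hF _ (hv.iso hF) (hw.iso hF), conj_neg hF, conj_conj hF, neg_neg] at h4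
  exact h4

/-- the coefficient set does not depend on the pair of planes -/
theorem KP_indep (D : UD (F := F) q n F₀) {M : Subgroup (GL (Fin n) F)} (hM : NN q n F₀ ≤ M)
    {i a j b i' a' j' b' : Fin n} {u w u' w' : Fin n → F} {c : F}
    (hu : IsC q F₀ i a u) (hw : IsC q F₀ j b w) (h1 : Dj i a j b)
    (hu' : IsC q F₀ i' a' u') (hw' : IsC q F₀ j' b' w') (h1' : Dj i' a' j' b')
    (h : InM M (Sg q u w c)) : InM M (Sg q u' w' c) := by
  obtain ⟨k₁, l₁, hkl₁, d1, d2, d3, d4, -⟩ := exists_plane5 D.hn i a j b i' a' j' b' i a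
  obtain ⟨k₂, l₂, hkl₂, e1, e2, e3, e4, e5⟩ := exists_plane5 D.hn i a j b i' a' j' b' k₁ l₁
  obtain ⟨x, hx⟩ := D.exists_isC hkl₁
  obtain ⟨y, hy⟩ := D.exists_isC hkl₂
  have s1 := hop2 D hM hu hw hy h1 e1 e2 h F₀.one_mem
  rw [mul_one] at s1
  have s2 := hop1 D hM hu hy hx e1 d1 e5.symm s1
  have s3 := hop2 D hM hx hy hw' e5 d4.symm e4.symm s2 F₀.one_mem
  rw [mul_one] at s3
  exact hop1 D hM hx hw' hu' d4.symm d3.symm h1'.symm s3

/-- the coefficient set of an overgroup -/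
def KK (q : ℕ) (F₀ : Subfield F) (M : Subgroup (GL (Fin n) F)) : Set F :=
  {c | ∀ (i a j b : Fin n) (u w : Fin n → F), IsC q F₀ i a u → IsC q F₀ j b w → Dj i a j b →
    InM M (Sg q u w c)}

theorem mem_KK_of (D : UD (F := F) q n F₀) {M : Subgroup (GL (Fin n) F)} (hM : NN q n F₀ ≤ M)
    {i a j b : Fin n} {u w : Fin n → F} {c : F}
    (hu : IsC q F₀ i a u) (hw : IsC q F₀ j b w) (h1 : Dj i a j b)
    (h : InM M (Sg q u w c)) : c ∈ KK q F₀ M :=
  fun i' a' j' b' u' w' hu' hw' h1' => KP_indep D hM hu hw h1 hu' hw' h1' h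

theorem KK_rat (D : UD (F := F) q n F₀) {M : Subgroup (GL (Fin n) F)} (hM : NN q n F₀ ≤ M)
    {c : F} (hc : c ∈ F₀) : c ∈ KK q F₀ M :=
  fun i a j b u w hu hw h1 => inM_mono hM (inN_Sg D.hF hu.rat hw.rat (hu.iso D.hF)
    (hw.iso D.hF) (h1.orth' D.hF hu hw) hc)

theorem KK_add (D : UD (F := F) q n F₀) {M : Subgroup (GL (Fin n) F)}
    {c c' : F} (hc : c ∈ KK q F₀ M) (hc' : c' ∈ KK q F₀ M) : c + c' ∈ KK q F₀ M := by
  intro i a j b u w hu hw h1
  have := (hc i a j b u w hu hw h1).mul (hc' i a j b u w hu hw h1)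
  rwa [Sg_add D.hF c c' (hu.iso D.hF) (hw.iso D.hF) (h1.orth' D.hF hu hw)] at this

theorem KK_neg (D : UD (F := F) q n F₀) {M : Subgroup (GL (Fin n) F)}
    {c : F} (hc : c ∈ KK q F₀ M) : -c ∈ KK q F₀ M :=
  fun i a j b u w hu hw h1 => inM_Sg_neg D.hF (hu.iso D.hF) (hw.iso D.hF)
    (h1.orth' D.hF hu hw) (hc i a j b u w hu hw h1)

theorem KK_mul (D : UD (F := F) q n F₀) {M : Subgroup (GL (Fin n) F)} (hM : NN q n F₀ ≤ M)
    {c d : F} (hc : c ∈ KK q F₀ M) (hd : d ∈ KK q F₀ M) : c * d ∈ KK q F₀ M := by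
  intro i a j b u w hu hw h1
  have hF := D.hF
  obtain ⟨k, l, hkl, d1, d2, -⟩ := exists_plane5 D.hn i a j b i a i a i a
  obtain ⟨m, o, hmo, e1, e2, e3, -⟩ := exists_plane5 D.hn i a j b k l i a i a
  obtain ⟨v, hv⟩ := D.exists_isC hkl
  obtain ⟨x, hx⟩ := D.exists_isC hmo
  obtain ⟨v', hv', hκ0, hκ⟩ := D.exists_mate hv
  have hκq : Cfsg.hermForm n F q v' v ^ q ≠ 0 := pow_ne_zero _ hκ0
  have s1 := hd k l m o v' x hv' hx e3
  have s2 := hop2 D hM hv' hx hw e3 d2.symm e2.symm s1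
    (F₀.neg_mem (F₀.inv_mem (pow_mem hκ q)))
  have s3 := KP_mul hF (hu.iso hF) (hv.iso hF) (hv'.iso hF) (hw.iso hF) (d1.orth' hF hu hv)
    (h1.orth' hF hu hw) (d1.orth' hF hu hv') (d2.symm.orth' hF hv' hw)
    (d2.symm.orth' hF hv hw) (hc i a k l u v hu hv d1) s2
  have e : -(c * Cfsg.hermForm n F q v' v ^ q * (d * -(Cfsg.hermForm n F q v' v ^ q)⁻¹))
      = c * d := by
    field_simp
  rwa [e] at s3

/-- the coefficient field of an overgroup -/
def KKf (D : UD (F := F) q n F₀) {M : Subgroup (GL (Fin n) F)} (hM : NN q n F₀ ≤ M) :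
    Subfield F where
  carrier := KK q F₀ M
  mul_mem' := fun ha hb => KK_mul D hM ha hb
  one_mem' := KK_rat D hM F₀.one_mem
  add_mem' := fun ha hb => KK_add D ha hb
  zero_mem' := KK_rat D hM F₀.zero_mem
  neg_mem' := fun ha => KK_neg D ha
  inv_mem' := by
    intro x hx
    by_cases h0 : x = 0
    · rw [h0, _root_.inv_zero]; exact KK_rat D hM F₀.zero_mem
    · have hpow : ∀ k : ℕ, x ^ k ∈ KK q F₀ M := by
        intro k
        induction k with
        | zero => rw [pow_zero]; exact KK_rat D hM F₀.one_mem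
        | succ k ih => rw [pow_succ]; exact KK_mul D hM ih hx
      have h1 : x ^ (Fintype.card F - 1) = 1 := FiniteField.pow_card_sub_one_eq_one x h0
      have h2 : 2 ≤ Fintype.card F := Fintype.one_lt_card
      have h3 : x * x ^ (Fintype.card F - 2) = 1 := by
        rw [← pow_succ']
        have : Fintype.card F - 2 + 1 = Fintype.card F - 1 := by omega
        rw [this, h1]
      rw [inv_eq_of_mul_eq_one_right h3]
      exact hpow _

theorem mem_KKf (D : UD (F := F) q n F₀) {M : Subgroup (GL (Fin n) F)} (hM : NN q n F₀ ≤ M)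
    (c : F) : c ∈ KKf D hM ↔ c ∈ KK q F₀ M := Iff.rfl

/-- the dichotomy: the coefficient set is everything, or is the subfield -/
theorem KK_dichotomy (D : UD (F := F) q n F₀) {M : Subgroup (GL (Fin n) F)}
    (hM : NN q n F₀ ≤ M) : (∀ c : F, c ∈ KK q F₀ M) ∨ (∀ c : F, c ∈ KK q F₀ M → c ∈ F₀) := by
  have hle : F₀ ≤ KKf D hM := fun c hc => KK_rat D hM hc
  rcases D.hmax (KKf D hM) hle with h | h
  · right
    intro c hc
    have : c ∈ KKf D hM := hc
    rwa [h] at this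
  · left
    intro c
    have : c ∈ KKf D hM := by rw [h]; exact Subfield.mem_top c
    exact this

end Cfsg.Agent.Lib.Helper94.Usf
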