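-- helper94: unitary subfield subgroups (odd prime index): an overgroup whose coefficient field
-- is the whole field contains `SU`.
import Mathlib
import Cfsg.Prelude.Def_GeometricClasses
import Cfsg.Agent.Lib.Helper94.UsK

set_option autoImplicit false
set_option linter.unusedSectionVars false
set_option linter.unusedVariables false

namespace Cfsg.Agent.Lib.Helper94.Usf

open Matrix Cfsg.Agent.Lib.Helper45 Cfsg.Agent.Lib.Helper44 Cfsg.Agent.Lib.Helper13

variable {F : Type*} [Field F] [Fintype F] {q n : ℕ} {F₀ : Subfield F}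

/-- all transvections at a coordinate vector -/
theorem ctr_of_top (D : UD (F := F) q n F₀) {M : Subgroup (GL (Fin n) F)}
    (hK : ∀ c : F, c ∈ KK q F₀ M) {i a : Fin n} {u : Fin n → F} (hu : IsC q F₀ i a u) :
    IsCtr q M u := by
  have hF := D.hF
  apply isCtr_of_inM (hu.iso hF)
  intro b hb
  obtain ⟨k, l, hkl, d1, -⟩ := exists_plane5 D.hn i a i a i a i a i a
  obtain ⟨v, hv⟩ := D.exists_isC hkl
  obtain ⟨v', hv', hκ0, -⟩ := D.exists_mate hv
  obtain ⟨s, hs⟩ := exists_skew_repr hF b hb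
  have hκq : Cfsg.hermForm n F q v' v ^ q ≠ 0 := pow_ne_zero _ hκ0
  obtain ⟨c, hc⟩ : ∃ c : F, c = -s / Cfsg.hermForm n F q v' v ^ q := ⟨_, rfl⟩
  have h1 : InM M (Sg q u v c) := hK c i a k l u v hu hv d1
  have h2 : InM M (Sg q v' u 1) := hK 1 k l i a v' u hv' hu d1.symm
  have huu := hu.iso hF
  have hvu : Cfsg.hermForm n F q v u = 0 := d1.orth' hF hu hv
  have huv : Cfsg.hermForm n F q u v = 0 := d1.orth hF hu hv
  have hv'u : Cfsg.hermForm n F q v' u = 0 := d1.orth' hF hu hv'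
  have hK' : IsHermIso n F q (Sg q u v c) := Sg_iso hF c huu (hv.iso hF) hvu
  have h3 : InM M (siegel q (Sg q u v c *ᵥ v') (Sg q u v c *ᵥ ((1 : F) • u)) 0) :=
    InM.conj_siegel h1 hK' h2 (hv'.iso hF)
  have e1 : Sg q u v c *ᵥ v' = v' - (c ^ q * Cfsg.hermForm n F q v' v) • u := by
    rw [Sg_mulVec c huu, hv'u, mul_zero, zero_smul, add_zero]
  have e2 : Sg q u v c *ᵥ ((1 : F) • u) = (1 : F) • u := by
    rw [Sg_mulVec c huu, herm_smul_left, herm_smul_left, huu, huv, mul_zero, mul_zero, mul_zero,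
      zero_smul, zero_smul, add_zero, sub_zero]
  rw [e1, e2, Sg_conj_self hF c 1 _ huu (hv'.iso hF) hv'u] at h3
  have e3 : (c * Cfsg.hermForm n F q v' v ^ q * 1) ^ q -
      c * Cfsg.hermForm n F q v' v ^ q * 1 = b := by
    have : c * Cfsg.hermForm n F q v' v ^ q * 1 = -s := by rw [hc]; field_simp
    rw [this, conj_neg hF, ← hs]; ring
  rw [e3] at h3
  exact InM.of_mul_eq' h2 h3 rfl

/-- the vectors `w ⊥ u` all of whose Siegel elements at `u` lie in `M` -/
def WW (q : ℕ) (M : Subgroup (GL (Fin n) F)) (u w : Fin n → F) : Prop :=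
  Cfsg.hermForm n F q w u = 0 ∧
    ∀ c : F, c + c ^ q + Cfsg.hermForm n F q w w = 0 → InM M (siegel q u w c)

theorem WW_add (hF : Fintype.card F = q ^ 2) {M : Subgroup (GL (Fin n) F)}
    {u w₁ w₂ : Fin n → F} (hu : IsCtr q M u) (h1 : WW q M u w₁) (h2 : WW q M u w₂) :
    WW q M u (w₁ + w₂) := by
  have huu := hu.1
  refine ⟨by rw [herm_add_left, h1.1, h2.1, add_zero], fun c hc => ?_⟩
  have fix : ∀ w : Fin n → F, (-(Cfsg.hermForm n F q w w)) ^ q = -(Cfsg.hermForm n F q w w) := by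
    intro w; rw [conj_neg hF, herm_conj hF]
  obtain ⟨c₁, hc₁⟩ := exists_trace_eq hF _ (fix w₁)
  obtain ⟨c₂, hc₂⟩ := exists_trace_eq hF _ (fix w₂)
  have v₁ : c₁ + c₁ ^ q + Cfsg.hermForm n F q w₁ w₁ = 0 := by rw [hc₁]; ring
  have v₂ : c₂ + c₂ ^ q + Cfsg.hermForm n F q w₂ w₂ = 0 := by rw [hc₂]; ring
  have hm := (h1.2 c₁ v₁).mul (h2.2 c₂ v₂)
  rw [siegel_mul hF u w₁ w₂ c₁ c₂ huu h2.1 (herm_swap_zero hF h1.1)] at hm
  have v₃ := siegel_valid_add hF w₁ w₂ c₁ c₂ v₁ v₂
  obtain ⟨c', hc'⟩ : ∃ c', c' = c₁ + c₂ - Cfsg.hermForm n F q w₂ w₁ := ⟨_, rfl⟩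
  rw [← hc'] at hm v₃
  have he : (c - c') ^ q = -(c - c') := by
    rw [conj_sub hF]; linear_combination hc - v₃
  have hm2 := hm.mul (hu.inM (c - c') he)
  rw [siegel_mul_utransv hF u (w₁ + w₂) c' (c - c') huu (by
    rw [herm_add_right hF, herm_swap_zero hF h1.1, herm_swap_zero hF h2.1, add_zero])] at hm2
  have : c' + (c - c') = c := by ring
  rwa [this] at hm2

theorem WW_smul_self (hF : Fintype.card F = q ^ 2) {M : Subgroup (GL (Fin n) F)}
    {u : Fin n → F} (hu : IsCtr q M u) (lam : F) : WW q M u (lam • u) := by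
  have huu := hu.1
  refine ⟨by rw [herm_smul_left, huu, mul_zero], fun c hc => ?_⟩
  rw [siegel_smul_self u lam c huu]
  apply hu.inM
  rw [herm_smul_left, herm_smul_right, huu, mul_zero, mul_zero, add_zero] at hc
  rw [conj_add hF, conj_sub hF, conj_conj hF]
  linear_combination hc

theorem WW_zero (hF : Fintype.card F = q ^ 2) {M : Subgroup (GL (Fin n) F)}
    {u : Fin n → F} (hu : IsCtr q M u) : WW q M u 0 := by
  have := WW_smul_self hF hu 0
  rwa [zero_smul] at this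

theorem WW_smul_C (D : UD (F := F) q n F₀) {M : Subgroup (GL (Fin n) F)}
    (hK : ∀ c : F, c ∈ KK q F₀ M) {i a j b : Fin n} {u z : Fin n → F}
    (hu : IsC q F₀ i a u) (hz : IsC q F₀ j b z) (h1 : Dj i a j b) (hctr : IsCtr q M u)
    (lam : F) : WW q M u (lam • z) := by
  have hF := D.hF
  have huu := hu.iso hF
  have hzu := h1.orth' hF hu hz
  refine ⟨by rw [herm_smul_left, hzu, mul_zero], fun c hc => ?_⟩
  rw [herm_smul_left, herm_smul_right, hz.iso hF, mul_zero, mul_zero, add_zero] at hc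
  have hc' : c ^ q = -c := by linear_combination hc
  have h2 := (hK lam i a j b u z hu hz h1).mul (hctr.inM c hc')
  unfold Sg at h2
  rw [siegel_mul_utransv hF u (lam • z) 0 c huu (by
    rw [herm_smul_right, h1.orth hF hu hz, mul_zero]), zero_add] at h2
  exact h2

theorem WW_single (D : UD (F := F) q n F₀) {M : Subgroup (GL (Fin n) F)}
    (hK : ∀ c : F, c ∈ KK q F₀ M) {i a : Fin n} {u : Fin n → F}
    (hu : IsC q F₀ i a u) (hctr : IsCtr q M u) {l : Fin n} (hli : l ≠ i) (hla : l ≠ a)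
    (lam : F) : WW q M u (lam • (Pi.single l 1 : Fin n → F)) := by
  have hF := D.hF
  obtain ⟨k, l₂, hkl, d1, d2, -⟩ := exists_plane5 D.hn i a l l i a i a i a
  have hlk : l ≠ k := d2.1
  have hd : Dj i a l k := ⟨hli.symm, d1.1, hla.symm, d1.2.2.1⟩
  obtain ⟨ε₁, ε₂, ε₃, h1, h2, h3, n1, n2, n3, d12, d13, d23⟩ := D.exists_three
  have hz₁ : IsC q F₀ l k (cv l k ε₁) := ⟨hlk, ε₁, h1, n1, rfl⟩
  have hz₂ : IsC q F₀ l k (cv l k ε₂) := ⟨hlk, ε₂, h2, n2, rfl⟩
  have hne : ε₁ - ε₂ ≠ 0 := sub_ne_zero.mpr d12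
  have e : lam • (Pi.single l 1 : Fin n → F) =
      (-(lam * ε₂) / (ε₁ - ε₂)) • cv l k ε₁ + ((lam * ε₁) / (ε₁ - ε₂)) • cv l k ε₂ := by
    funext j
    simp only [Pi.add_apply, Pi.smul_apply, smul_eq_mul, cv_apply, Pi.single_apply]
    by_cases hj : j = l
    · subst hj
      simp only [if_true, if_neg hlk, mul_zero, add_zero, mul_one]
      field_simp
      ring
    · by_cases hj2 : j = k
      · subst hj2
        simp only [if_neg hj, if_true, mul_zero, zero_add, mul_one]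
        field_simp
        ring
      · simp only [if_neg hj, if_neg hj2, mul_zero, add_zero]
  rw [e]
  exact WW_add hF hctr (WW_smul_C D hK hu hz₁ hd hctr _) (WW_smul_C D hK hu hz₂ hd hctr _)

theorem WW_supp (D : UD (F := F) q n F₀) {M : Subgroup (GL (Fin n) F)}
    (hK : ∀ c : F, c ∈ KK q F₀ M) {i a : Fin n} {u : Fin n → F}
    (hu : IsC q F₀ i a u) (hctr : IsCtr q M u) (w : Fin n → F) (hi : w i = 0) (ha : w a = 0) :
    WW q M u w := by
  have hF := D.hF
  have e : w = ∑ l, (w l) • (Pi.single l 1 : Fin n → F) := by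
    funext j
    simp [Finset.sum_apply, Pi.single_apply]
  rw [e]
  apply Finset.sum_induction _ (WW q M u) (fun x y hx hy => WW_add hF hctr hx hy)
    (WW_zero hF hctr)
  intro l _
  by_cases hli : l = i
  · rw [hli, hi, zero_smul]; exact WW_zero hF hctr
  · by_cases hla : l = a
    · rw [hla, ha, zero_smul]; exact WW_zero hF hctr
    · exact WW_single D hK hu hctr hli hla _

theorem WW_all (D : UD (F := F) q n F₀) {M : Subgroup (GL (Fin n) F)}
    (hK : ∀ c : F, c ∈ KK q F₀ M) {i a : Fin n} {u : Fin n → F}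
    (hu : IsC q F₀ i a u) (hctr : IsCtr q M u) (w : Fin n → F)
    (hwu : Cfsg.hermForm n F q w u = 0) : WW q M u w := by
  have hF := D.hF
  have hu' := hu
  obtain ⟨hia, ε, hε, hn, rfl⟩ := hu
  have e : w = (w + (ε ^ q * w a) • cv i a ε) + (-(ε ^ q * w a)) • cv i a ε := by module
  rw [e]
  refine WW_add hF hctr (WW_supp D hK hu' hctr _ ?_ ?_) (WW_smul_self hF hctr _)
  · rw [herm_cv_right hF] at hwu
    simp only [Pi.add_apply, Pi.smul_apply, smul_eq_mul, cv_apply, if_true, if_neg hia, mul_zero,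
      add_zero, mul_one]
    exact hwu
  · simp only [Pi.add_apply, Pi.smul_apply, smul_eq_mul, cv_apply, if_neg hia.symm, if_true,
      zero_add, mul_one]
    have : ε ^ q * ε = -1 := by rw [← pow_succ, hn]
    linear_combination (w a) * this

/-- an overgroup whose coefficient set is the whole field contains `SU` -/
theorem suGL_le_of_top (D : UD (F := F) q n F₀) {M : Subgroup (GL (Fin n) F)}
    (hK : ∀ c : F, c ∈ KK q F₀ M) : suGL n F q ≤ M := by
  have hF := D.hF
  obtain ⟨i, a, hia, -⟩ := exists_plane D.hn [] (by simp)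
  obtain ⟨u, hu⟩ := D.exists_isC hia
  obtain ⟨u', hu', hne, -⟩ := D.exists_mate hu
  apply suGL_le_of_ctr hF (Or.inl (by have := D.hn; omega)) M
  intro z hz
  exact ctr_all_of_siegel hF M u' u (ctr_of_top D hK hu') (ctr_of_top D hK hu) hne
    (fun w c hwu hc g hg => ((WW_all D hK hu (ctr_of_top D hK hu) w hwu).2 c hc).mem g hg) z hz

end Cfsg.Agent.Lib.Helper94.Usf
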