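-- helper94: unitary subfield subgroups (odd prime index): the action of `SL₂` on a hyperbolic
-- plane, a dihedral lemma in characteristic two, Dickson's theorem for a subfield.
import Mathlib
import Cfsg.Prelude.Def_GeometricClasses
import Cfsg.Agent.Lib.Helper94.UsBase
import Cfsg.Agent.Lib.Helper89.DicksonGen

set_option autoImplicit false
set_option linter.unusedSectionVars false
set_option linter.unusedVariables false

namespace Cfsg.Agent.Lib.Helper94.Usf

open Matrix Cfsg.Agent.Lib.Helper45 Cfsg.Agent.Lib.Helper44 Cfsg.Agent.Lib.Helper13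
open Cfsg.Agent.Lib.Helper5.SL2

variable {F : Type*} [Field F] [Fintype F] {q n : ℕ}

/-- the `n × 2` matrix with columns `e, e'` -/
def embI (e e' : Fin n → F) : Matrix (Fin n) (Fin 2) F :=
  Matrix.of fun i j => if j = 0 then e i else e' i

/-- the `2 × n` matrix of the coordinates with respect to a hyperbolic pair -/
def embP (q : ℕ) (e e' : Fin n → F) (κ : F) : Matrix (Fin 2) (Fin n) F :=
  Matrix.of fun j i => if j = 0 then (e' i) ^ q / κ else (e i) ^ q / κ ^ q

theorem embP_mul_embI (hF : Fintype.card F = q ^ 2) {e e' : Fin n → F} {κ : F}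
    (he : Cfsg.hermForm n F q e e = 0) (he' : Cfsg.hermForm n F q e' e' = 0)
    (hκ : Cfsg.hermForm n F q e e' = κ) (hκ0 : κ ≠ 0) : embP q e e' κ * embI e e' = 1 := by
  have hκq : κ ^ q ≠ 0 := pow_ne_zero _ hκ0
  have hκ' : Cfsg.hermForm n F q e' e = κ ^ q := by rw [← hκ, herm_conj hF]
  have key : ∀ (x y : Fin n → F) (c : F), ∑ i, y i ^ q / c * x i = Cfsg.hermForm n F q x y / c := by
    intro x y c
    rw [herm_def, Finset.sum_div]
    apply Finset.sum_congr rfl
    intro i _
    ring
  ext j k
  fin_cases j <;> fin_cases k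
  · simp only [Matrix.mul_apply, embP, embI, Matrix.of_apply, Fin.zero_eta, if_true,
      Matrix.one_apply_eq]
    rw [key, hκ, div_self hκ0]
  · simp only [Matrix.mul_apply, embP, embI, Matrix.of_apply, Fin.zero_eta, Fin.mk_one, if_true,
      one_ne_zero, if_false]
    rw [key, he', zero_div]
    rfl
  · simp only [Matrix.mul_apply, embP, embI, Matrix.of_apply, Fin.zero_eta, Fin.mk_one, if_true,
      one_ne_zero, if_false]
    rw [key, he, zero_div]
    rfl
  · simp only [Matrix.mul_apply, embP, embI, Matrix.of_apply, Fin.mk_one, one_ne_zero, if_false,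
      Matrix.one_apply_eq]
    rw [key, hκ', div_self hκq]

/-- the action of a `2 × 2` matrix on the plane `⟨e, e'⟩`, extended by the identity -/
def psiM (q : ℕ) (e e' : Fin n → F) (κ : F) (A : Matrix (Fin 2) (Fin 2) F) :
    Matrix (Fin n) (Fin n) F :=
  1 + embI e e' * (A - 1) * embP q e e' κ

theorem psiM_one (e e' : Fin n → F) (κ : F) : psiM q e e' κ 1 = 1 := by
  unfold psiM
  rw [sub_self, Matrix.mul_zero, Matrix.zero_mul, add_zero]

theorem psiM_mul {e e' : Fin n → F} {κ : F} (h : embP q e e' κ * embI e e' = 1)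
    (A B : Matrix (Fin 2) (Fin 2) F) :
    psiM q e e' κ (A * B) = psiM q e e' κ A * psiM q e e' κ B := by
  unfold psiM
  have e1 : (1 + embI e e' * (A - 1) * embP q e e' κ) *
      (1 + embI e e' * (B - 1) * embP q e e' κ) =
      1 + embI e e' * ((A - 1) + (B - 1) +
        (A - 1) * (embP q e e' κ * embI e e') * (B - 1)) * embP q e e' κ := by
    simp only [Matrix.mul_add, Matrix.add_mul, Matrix.mul_one, Matrix.one_mul, Matrix.mul_assoc]
    abel
  rw [e1, h]
  congr 2
  noncomm_ring

theorem psiM_uSL (e e' : Fin n → F) (κ x : F) :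
    psiM q e e' κ (uSL x).1 = Cfsg.unitaryTransvection n q e (x / κ ^ q) := by
  ext i j
  simp only [psiM, Cfsg.unitaryTransvection, Matrix.add_apply, Matrix.mul_apply,
    Fin.sum_univ_two, embI, embP, uSL_coe, Matrix.of_apply, Matrix.sub_apply,
    Matrix.smul_apply, Matrix.vecMulVec_apply, smul_eq_mul]
  simp
  ring

theorem psiM_lSL (e e' : Fin n → F) (κ y : F) :
    psiM q e e' κ (lSL y).1 = Cfsg.unitaryTransvection n q e' (y / κ) := by
  ext i j
  simp only [psiM, Cfsg.unitaryTransvection, Matrix.add_apply, Matrix.mul_apply,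
    Fin.sum_univ_two, embI, embP, lSL_coe, Matrix.of_apply, Matrix.sub_apply,
    Matrix.smul_apply, Matrix.vecMulVec_apply, smul_eq_mul]
  simp
  ring

theorem sl_val_mul (A B : SpecialLinearGroup (Fin 2) F) : (A * B).1 = A.1 * B.1 := rfl

theorem sl_val_one : (1 : SpecialLinearGroup (Fin 2) F).1 = 1 := rfl

/-- the subgroup of `SL₂` whose action on the hyperbolic plane lies in `M` -/
def Spsi (q : ℕ) (M : Subgroup (GL (Fin n) F)) (e e' : Fin n → F) (κ : F)
    (h : embP q e e' κ * embI e e' = 1) : Subgroup (SpecialLinearGroup (Fin 2) F) where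
  carrier := {A | InM M (psiM q e e' κ A.1)}
  mul_mem' := fun {A B} hA hB => by
    show InM M (psiM q e e' κ (A * B).1)
    rw [sl_val_mul, psiM_mul h]
    exact InM.mul hA hB
  one_mem' := by
    show InM M (psiM q e e' κ (1 : SpecialLinearGroup (Fin 2) F).1)
    rw [sl_val_one, psiM_one]
    exact inM_one M
  inv_mem' := fun {A} hA => by
    show InM M (psiM q e e' κ (A⁻¹).1)
    have h1 : psiM q e e' κ A.1 * psiM q e e' κ (A⁻¹).1 = 1 := by
      rw [← psiM_mul h, ← sl_val_mul, mul_inv_cancel, sl_val_one, psiM_one]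
    exact InM.of_mul_eq hA (inM_one M) h1

theorem mem_Spsi {M : Subgroup (GL (Fin n) F)} {e e' : Fin n → F} {κ : F}
    (h : embP q e e' κ * embI e e' = 1) (A : SpecialLinearGroup (Fin 2) F) :
    A ∈ Spsi q M e e' κ h ↔ InM M (psiM q e e' κ A.1) := Iff.rfl

/-! ### Dickson's theorem through a subfield -/

theorem map_uSL {K : Type*} [Field K] (f : K →+* F) (x : K) :
    SpecialLinearGroup.map f (uSL x) = uSL (f x) := by
  apply Subtype.ext
  ext i j
  fin_cases i <;> fin_cases j <;> simp [uSL_coe, SpecialLinearGroup.map_apply_coe]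

theorem map_lSL {K : Type*} [Field K] (f : K →+* F) (x : K) :
    SpecialLinearGroup.map f (lSL x) = lSL (f x) := by
  apply Subtype.ext
  ext i j
  fin_cases i <;> fin_cases j <;> simp [lSL_coe, SpecialLinearGroup.map_apply_coe]

/-- a subgroup of `SL₂` containing `[1 1; 0 1]` and `[1 0; λ 1]` contains `[1 λ; 0 1]`,
unless the characteristic is three and `λ² = -1` -/
theorem dickson_transfer (h2 : (2 : F) ≠ 0) (S : Subgroup (SpecialLinearGroup (Fin 2) F))
    (h1 : uSL 1 ∈ S) (lam : F) (hlam : lam ≠ 0) (hl : lSL lam ∈ S)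
    (hex : ¬ ((3 : F) = 0 ∧ lam ^ 2 = -1)) : uSL lam ∈ S := by
  obtain ⟨K₁, hK₁⟩ : ∃ K₁ : Subfield F, K₁ = Subfield.closure ({lam} : Set F) := ⟨_, rfl⟩
  have hmem : lam ∈ K₁ := by rw [hK₁]; exact Subfield.subset_closure (Set.mem_singleton lam)
  have : Fintype K₁ := Fintype.ofFinite K₁
  obtain ⟨f, hf⟩ : ∃ f : K₁ →+* F, f = K₁.subtype := ⟨_, rfl⟩
  have hfx : ∀ x : K₁, f x = (x : F) := by intro x; rw [hf]; rfl
  obtain ⟨lam', hlam'⟩ : ∃ lam' : K₁, lam' = ⟨lam, hmem⟩ := ⟨_, rfl⟩
  have hfl : f lam' = lam := by rw [hfx, hlam']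
  have hinj : Function.Injective f := f.injective
  have h2' : (2 : K₁) ≠ 0 := by
    intro h
    apply h2
    have := congrArg f h
    rw [map_ofNat, map_zero] at this
    exact this
  have hgen : Subfield.closure ({lam'} : Set K₁) = ⊤ := by
    rw [eq_top_iff]
    intro x _
    have hle : Subfield.closure ({lam} : Set F) ≤
        (Subfield.closure ({lam'} : Set K₁)).map f := by
      apply Subfield.closure_le.mpr
      intro y hy
      rw [Set.mem_singleton_iff] at hy
      subst hy
      exact ⟨lam', Subfield.subset_closure (Set.mem_singleton lam'), hfl⟩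
    have hx : (x : F) ∈ Subfield.closure ({lam} : Set F) := by rw [← hK₁]; exact x.2
    obtain ⟨y, hy, hyx⟩ := hle hx
    have : y = x := hinj (by rw [hyx, hfx])
    rwa [← this]
  have hex' : ¬ ((3 : K₁) = 0 ∧ lam' ^ 2 = -1) := by
    rintro ⟨h3, hsq⟩
    apply hex
    constructor
    · have := congrArg f h3
      rw [map_ofNat, map_zero] at this
      exact this
    · have := congrArg f hsq
      rw [map_pow, hfl, map_neg, map_one] at this
      exact this
  have hlam0 : lam' ≠ 0 := by
    intro h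
    apply hlam
    rw [← hfl, h, map_zero]
  have htop := Cfsg.Agent.Lib.Helper89.dickson_gen_top h2'
    (S.comap (SpecialLinearGroup.map f))
    (by rw [Subgroup.mem_comap, map_uSL, map_one]; exact h1) lam' hlam0
    (by rw [Subgroup.mem_comap, map_lSL, hfl]; exact hl) hgen hex'
  have : uSL lam' ∈ S.comap (SpecialLinearGroup.map f) := by rw [htop]; exact Subgroup.mem_top _
  rw [Subgroup.mem_comap, map_uSL, hfl] at this
  exact this

/-! ### a dihedral lemma in characteristic two -/

theorem sl2_invol_comm (h2 : (2 : F) = 0) (A B : SpecialLinearGroup (Fin 2) F)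
    (htr : A.1 0 0 + A.1 1 1 ≠ 0) (hBB : B * B = 1) (hAB : A * B = B * A) : B = 1 := by
  have hB := congrArg (fun X : SpecialLinearGroup (Fin 2) F => X.1) hBB
  have hC := congrArg (fun X : SpecialLinearGroup (Fin 2) F => X.1) hAB
  simp only [sl_val_mul, sl_val_one] at hB hC
  have b00 := congrFun (congrFun hB 0) 0
  have b11 := congrFun (congrFun hB 1) 1
  have c01 := congrFun (congrFun hC 0) 1
  have c10 := congrFun (congrFun hC 1) 0
  simp only [Matrix.mul_apply, Fin.sum_univ_two, Matrix.one_apply_eq] at b00 b11 c01 c10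
  have hdet := det_eq B
  generalize hx : B.1 0 0 = x at b00 b11 c01 c10 hdet
  generalize hy : B.1 0 1 = y at b00 b11 c01 c10 hdet
  generalize hz : B.1 1 0 = z at b00 b11 c01 c10 hdet
  generalize hw : B.1 1 1 = w at b00 b11 c01 c10 hdet
  have hxw : (x + w) ^ 2 = 0 := by linear_combination b00 + b11 + 2 * hdet + 2 * h2
  have hxw' : x + w = 0 := by simpa using hxw
  have hwx : w = x := by linear_combination hxw' - x * h2
  rw [hwx] at c01 c10 b11
  have hy0 : y = 0 := by
    have : (A.1 0 0 + A.1 1 1) * y = 0 := by linear_combination c01 + y * A.1 1 1 * h2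
    rcases mul_eq_zero.mp this with h | h
    · exact absurd h htr
    · exact h
  have hz0 : z = 0 := by
    have : (A.1 0 0 + A.1 1 1) * z = 0 := by linear_combination c10 + z * A.1 0 0 * h2
    rcases mul_eq_zero.mp this with h | h
    · exact absurd h htr
    · exact h
  have hx1 : (x + 1) ^ 2 = 0 := by
    rw [hy0] at b00
    linear_combination b00 + (x + 1) * h2
  have hx1' : x + 1 = 0 := by simpa using hx1
  have hx1'' : x = 1 := by linear_combination hx1' - h2
  apply Subtype.ext
  ext i j
  fin_cases i <;> fin_cases j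
  · show B.1 0 0 = (1 : Matrix (Fin 2) (Fin 2) F) 0 0
    rw [hx, hx1'']; simp
  · show B.1 0 1 = (1 : Matrix (Fin 2) (Fin 2) F) 0 1
    rw [hy, hy0]; simp
  · show B.1 1 0 = (1 : Matrix (Fin 2) (Fin 2) F) 1 0
    rw [hz, hz0]; simp
  · show B.1 1 1 = (1 : Matrix (Fin 2) (Fin 2) F) 1 1
    rw [hw, hwx, hx1'']; simp

/-- in characteristic two an element of `SL₂` of nonzero trace is a power of its square -/
theorem sl2_mem_zpowers_sq (h2 : (2 : F) = 0) (A : SpecialLinearGroup (Fin 2) F)
    (htr : A.1 0 0 + A.1 1 1 ≠ 0) : A ∈ Subgroup.zpowers (A * A) := by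
  have hpos : 0 < orderOf A := orderOf_pos A
  rcases Nat.even_or_odd' (orderOf A) with ⟨m, hm | hm⟩
  · exfalso
    have hB : A ^ m * A ^ m = 1 := by
      rw [← pow_add, ← two_mul, ← hm, pow_orderOf_eq_one]
    have hc : A * A ^ m = A ^ m * A := by rw [← pow_succ', ← pow_succ]
    have h1 := sl2_invol_comm h2 A (A ^ m) htr hB hc
    have := orderOf_dvd_of_pow_eq_one h1
    have hle := Nat.le_of_dvd (by omega) this
    omega
  · have h1 : A ^ (2 * m + 1) = 1 := by rw [← hm, pow_orderOf_eq_one]
    have h3 : (A * A) ^ (m + 1) = A := by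
      rw [← pow_two, ← pow_mul]
      have : 2 * (m + 1) = 2 * m + 1 + 1 := by ring
      rw [this, pow_succ, h1, one_mul]
    rw [← h3]
    exact Subgroup.pow_mem _ (by rw [h3]; exact Subgroup.mem_zpowers _) _

end Cfsg.Agent.Lib.Helper94.Usf
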