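-- helper94: unitary subfield subgroups (odd prime index): an overgroup whose coefficient field
-- is the subfield; the ratio lemma for the images of rational isotropic vectors.
import Mathlib
import Cfsg.Prelude.Def_GeometricClasses
import Cfsg.Agent.Lib.Helper94.UsK
import Cfsg.Agent.Lib.Helper94.UsSL2

set_option autoImplicit false
set_option linter.unusedSectionVars false
set_option linter.unusedVariables false

namespace Cfsg.Agent.Lib.Helper94.Usf

open Matrix Cfsg.Agent.Lib.Helper45 Cfsg.Agent.Lib.Helper44 Cfsg.Agent.Lib.Helper13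
open Cfsg.Agent.Lib.Helper5.SL2 Cfsg.Agent.Lib.Helper89

variable {F : Type*} [Field F] [Fintype F] {q n : ℕ} {F₀ : Subfield F}

/-- a transvection of `M` at a coordinate vector has a rational coefficient -/
theorem skew_rat (D : UD (F := F) q n F₀) {M : Subgroup (GL (Fin n) F)} (hM : NN q n F₀ ≤ M)
    (hK : ∀ c : F, c ∈ KK q F₀ M → c ∈ F₀) {i a : Fin n} {u : Fin n → F}
    (hu : IsC q F₀ i a u) {b : F} (hb : b ^ q = -b)
    (h : InM M (Cfsg.unitaryTransvection n q u b)) : b ∈ F₀ := by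
  have hF := D.hF
  obtain ⟨k, l, hkl, d1, -⟩ := exists_plane5 D.hn i a i a i a i a i a
  obtain ⟨m, o, hmo, e1, e2, -⟩ := exists_plane5 D.hn i a k l i a i a i a
  obtain ⟨v, hv⟩ := D.exists_isC hkl
  obtain ⟨v₂, hv₂⟩ := D.exists_isC hmo
  obtain ⟨u', hu', hκ0', hκ'⟩ := D.exists_mate hu
  obtain ⟨κ, hκdef⟩ : ∃ κ, κ = Cfsg.hermForm n F q u u' := ⟨_, rfl⟩
  have hκ0 : κ ≠ 0 := by rw [hκdef]; exact herm_swap_ne hF hκ0'
  have hκ : κ ∈ F₀ := by rw [hκdef]; exact hu.rat.herm hu'.rat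
  have huu := hu.iso hF
  have hu'u' := hu'.iso hF
  have hvv := hv.iso hF
  have hv₂v₂ := hv₂.iso hF
  have huv : Cfsg.hermForm n F q u v = 0 := d1.orth hF hu hv
  have huv₂ : Cfsg.hermForm n F q u v₂ = 0 := e1.orth hF hu hv₂
  have hvu' : Cfsg.hermForm n F q v u' = 0 := d1.orth' hF hu' hv
  have hv₂u' : Cfsg.hermForm n F q v₂ u' = 0 := e1.orth' hF hu' hv₂
  have hvv₂ : Cfsg.hermForm n F q v v₂ = 0 := e2.orth hF hv hv₂
  have hY₁ : InM M (Sg q u' v 1) :=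
    inM_mono hM (inN_Sg hF hu'.rat hv.rat hu'u' hvv hvu' F₀.one_mem)
  have hY₂ : InM M (Sg q u' v₂ 1) :=
    inM_mono hM (inN_Sg hF hu'.rat hv₂.rat hu'u' hv₂v₂ hv₂u' F₀.one_mem)
  have hi₁ := Sg_iso hF (1 : F) hu'u' hvv hvu'
  have hi₂ := Sg_iso hF (1 : F) hu'u' hv₂v₂ hv₂u'
  have a1 : Sg q u' v 1 *ᵥ u = u + κ • v := by
    rw [Sg_mulVec 1 hu'u', huv, mul_zero, zero_smul, sub_zero, one_mul, hκdef]
  have a2 : Sg q u' v₂ 1 *ᵥ u = u + κ • v₂ := by
    rw [Sg_mulVec 1 hu'u', huv₂, mul_zero, zero_smul, sub_zero, one_mul, hκdef]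
  have a3 : Sg q u' v₂ 1 *ᵥ (κ • v) = κ • v := by
    rw [Sg_mulVec 1 hu'u', herm_smul_left, herm_smul_left, hvu', hvv₂, mul_zero, mul_zero,
      mul_zero, zero_smul, zero_smul, add_zero, sub_zero]
  have hG := inM_Gm hF h hY₁ hY₂ hi₁ hi₂ a1 a2 a3 huu
    (by rw [herm_smul_left, herm_smul_right, hvv, mul_zero, mul_zero])
    (by rw [herm_smul_left, herm_smul_right, hv₂v₂, mul_zero, mul_zero])
    (by rw [herm_smul_right, huv, mul_zero])
    (by rw [herm_smul_right, huv₂, mul_zero])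
    (by rw [herm_smul_left, herm_smul_right, hvv₂, mul_zero, mul_zero])
  rw [Gm_eq_Sg hF b κ κ hb hvv] at hG
  have hmem := hK _ (mem_KK_of D hM hv hv₂ e2 hG)
  have hκq : κ ^ q ≠ 0 := pow_ne_zero _ hκ0
  have : b = b * κ ^ q * κ / (κ ^ q * κ) := by field_simp
  rw [this]
  exact F₀.div_mem hmem (F₀.mul_mem (pow_mem hκ q) hκ)

/-- the properties of the image of a rational coordinate vector under an element of `M` -/
structure GoodV (q : ℕ) (F₀ : Subfield F) (M : Subgroup (GL (Fin n) F)) (û : Fin n → F) :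
    Prop where
  iso : Cfsg.hermForm n F q û û = 0
  mem : ∀ a : F, a ∈ F₀ → a ^ q = -a → InM M (Cfsg.unitaryTransvection n q û a)
  rat : ∀ b : F, b ^ q = -b → InM M (Cfsg.unitaryTransvection n q û b) → b ∈ F₀

theorem goodV_of_mem (D : UD (F := F) q n F₀) {M : Subgroup (GL (Fin n) F)}
    (hM : NN q n F₀ ≤ M) (hMS : M ≤ suGL n F q)
    (hK : ∀ c : F, c ∈ KK q F₀ M → c ∈ F₀) {g : GL (Fin n) F} (hg : g ∈ M) {i a : Fin n}
    {u : Fin n → F} (hu : IsC q F₀ i a u) :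
    GoodV q F₀ M ((g : Matrix (Fin n) (Fin n) F) *ᵥ u) := by
  have hF := D.hF
  have hgi : IsHermIso n F q (g : Matrix (Fin n) (Fin n) F) := ((mem_suGL_iff g).mp (hMS hg)).1
  have hgi' : IsHermIso n F q ((g⁻¹ : GL (Fin n) F) : Matrix (Fin n) (Fin n) F) :=
    ((mem_suGL_iff g⁻¹).mp (hMS (M.inv_mem hg))).1
  refine ⟨by rw [hgi, hu.iso hF], fun a ha haq => ?_, fun b hb h => ?_⟩
  · exact InM.conj_utransv (InM.of_mem hg) hgi
      (inM_mono hM (inN_utransv hF hu.rat (hu.iso hF) ha haq))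
  · have := InM.conj_utransv (InM.of_mem (M.inv_mem hg)) hgi' h
    rw [gl_inv_mulVec] at this
    exact skew_rat D hM hK hu hb this

/-- the dihedral trick in characteristic two -/
theorem dihedral_trick (hF : Fintype.card F = q ^ 2) (h2 : (2 : F) = 0)
    {M : Subgroup (GL (Fin n) F)} {û : Fin n → F} {a : F} {J : Matrix (Fin n) (Fin n) F}
    (hû : Cfsg.hermForm n F q û û = 0) (ha : a ≠ 0)
    (ht : InM M (Cfsg.unitaryTransvection n q û a)) (hJ : InM M J) (hJi : IsHermIso n F q J)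
    (hJ2 : J * J = 1) (hκ : Cfsg.hermForm n F q û (J *ᵥ û) ≠ 0) :
    InM M (Cfsg.unitaryTransvection n q (J *ᵥ û - û)
      (Cfsg.hermForm n F q û (J *ᵥ û))⁻¹) := by
  obtain ⟨κ, hκdef⟩ : ∃ κ, κ = Cfsg.hermForm n F q û (J *ᵥ û) := ⟨_, rfl⟩
  rw [← hκdef] at hκ ⊢
  obtain ⟨δ, hδdef⟩ : ∃ δ, δ = J *ᵥ û - û := ⟨_, rfl⟩
  rw [← hδdef]
  have hJû : J *ᵥ û = û + δ := by rw [hδdef]; abel
  have hκq : κ ^ q = κ := by
    rw [hκdef, herm_conj hF]
    have := hJi (J *ᵥ û) û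
    rw [Matrix.mulVec_mulVec, hJ2, Matrix.one_mulVec] at this
    exact this.symm
  have hneg : ∀ x : F, -x = x := by intro x; linear_combination -x * h2
  have hûδ : Cfsg.hermForm n F q û δ = κ := by
    rw [hδdef, herm_sub_right hF, hû, sub_zero, hκdef]
  have hδû : Cfsg.hermForm n F q δ û = κ := by
    rw [← herm_conj hF, hûδ, hκq]
  have hδδ : Cfsg.hermForm n F q δ δ = 0 := by
    have h1 : Cfsg.hermForm n F q (J *ᵥ û) (J *ᵥ û) = 0 := by rw [hJi, hû]
    rw [hJû, herm_add_left, herm_add_right hF, herm_add_right hF, hû, hûδ, hδû] at h1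
    linear_combination h1 - κ * h2
  have hP := embP_mul_embI hF hû hδδ hûδ hκ
  obtain ⟨x, hx⟩ : ∃ x, x = a * κ ^ q := ⟨_, rfl⟩
  have hκq0 : κ ^ q ≠ 0 := pow_ne_zero _ hκ
  have hx0 : x ≠ 0 := by rw [hx]; exact mul_ne_zero ha hκq0
  have e_t : psiM q û δ κ (uSL x).1 = Cfsg.unitaryTransvection n q û a := by
    rw [psiM_uSL, hx, mul_div_assoc, div_self hκq0, mul_one]
  have e_j : psiM q û δ κ (lSL 1).1 = Cfsg.unitaryTransvection n q δ κ⁻¹ := by
    rw [psiM_lSL, one_div]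
  have hji : IsHermIso n F q (Cfsg.unitaryTransvection n q δ κ⁻¹) :=
    isHermIso_utransv hF δ κ⁻¹ hδδ (by rw [inv_pow, hκq, hneg])
  have hjû : Cfsg.unitaryTransvection n q δ κ⁻¹ *ᵥ û = J *ᵥ û := by
    rw [utransv_mulVec, hûδ, inv_mul_cancel₀ hκ, one_smul, hJû]
  have hjj : Cfsg.unitaryTransvection n q δ κ⁻¹ * Cfsg.unitaryTransvection n q δ κ⁻¹ = 1 := by
    rw [utransv_mul δ _ _ hδδ]
    have : κ⁻¹ + κ⁻¹ = 0 := by linear_combination κ⁻¹ * h2
    rw [this, utransv_zero]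
  have e_c : Cfsg.unitaryTransvection n q (J *ᵥ û) a =
      psiM q û δ κ ((lSL 1 * uSL x * lSL 1 : SpecialLinearGroup (Fin 2) F)).1 := by
    rw [sl_val_mul, sl_val_mul, psiM_mul hP, psiM_mul hP, e_t, e_j, utransv_conj hji û a, hjû,
      Matrix.mul_assoc, hjj, Matrix.mul_one]
  have hc : InM M (Cfsg.unitaryTransvection n q (J *ᵥ û) a) := InM.conj_utransv hJ hJi ht
  have hAA : (uSL x * lSL 1) * (uSL x * lSL 1) ∈ Spsi q M û δ κ hP := by
    rw [mem_Spsi]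
    have : ((uSL x * lSL 1) * (uSL x * lSL 1) : SpecialLinearGroup (Fin 2) F) =
        uSL x * (lSL 1 * uSL x * lSL 1) := by simp only [mul_assoc]
    rw [this, sl_val_mul, psiM_mul hP, e_t, ← e_c]
    exact ht.mul hc
  have e00 : (uSL x * lSL (1 : F)).1 0 0 = 1 + x := by
    rw [sl_val_mul, Matrix.mul_apply, Fin.sum_univ_two, uSL_00, uSL_01, lSL_00, lSL_10]; ring
  have e11 : (uSL x * lSL (1 : F)).1 1 1 = 1 := by
    rw [sl_val_mul, Matrix.mul_apply, Fin.sum_univ_two, uSL_10, uSL_11, lSL_01, lSL_11]; ring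
  have htr : (uSL x * lSL (1 : F)).1 0 0 + (uSL x * lSL (1 : F)).1 1 1 ≠ 0 := by
    rw [e00, e11]
    intro h
    apply hx0
    linear_combination h - h2
  have hA : uSL x * lSL 1 ∈ Spsi q M û δ κ hP :=
    (Subgroup.zpowers_le.mpr hAA) (sl2_mem_zpowers_sq h2 _ htr)
  rw [mem_Spsi, sl_val_mul, psiM_mul hP, e_t, e_j] at hA
  exact InM.of_mul_eq ht hA rfl

theorem q_odd (hF : Fintype.card F = q ^ 2) (h2 : (2 : F) ≠ 0) : Odd q := by
  obtain ⟨p, k, hp, hchar, hq⟩ := q_prime_pow hF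
  rcases hp.eq_two_or_odd' with h | h
  · exfalso
    subst h
    have := hchar
    apply h2
    have := CharP.cast_eq_zero F 2
    simpa using this
  · rw [hq]; exact h.pow

/-- odd characteristic: the norm of `h(û, v)` is rational for rational isotropic `v` -/
theorem norm_rat (D : UD (F := F) q n F₀) (h2 : (2 : F) ≠ 0) {M : Subgroup (GL (Fin n) F)}
    (hM : NN q n F₀ ≤ M) {û : Fin n → F} (G : GoodV q F₀ M û) {v : Fin n → F}
    (hv : Rv F₀ v) (hvv : Cfsg.hermForm n F q v v = 0) :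
    (Cfsg.hermForm n F q û v) ^ (q + 1) ∈ F₀ := by
  have hF := D.hF
  obtain ⟨μ, hμ⟩ : ∃ μ, μ = Cfsg.hermForm n F q û v := ⟨_, rfl⟩
  rw [← hμ]
  by_cases hμ0 : μ = 0
  · rw [hμ0, zero_pow (by omega)]; exact F₀.zero_mem
  obtain ⟨θ, hθ, hθ0, hθq⟩ := D.exists_skew
  obtain ⟨κ, hκ⟩ : ∃ κ : F, κ = -θ⁻¹ := ⟨_, rfl⟩
  have hκ0 : κ ≠ 0 := by rw [hκ]; exact neg_ne_zero.mpr (inv_ne_zero hθ0)
  have hκq : κ ^ q = θ⁻¹ := by rw [hκ, conj_neg hF, inv_pow, hθq, inv_neg, neg_neg]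
  obtain ⟨c, hc⟩ : ∃ c : F, c = (κ / μ) ^ q := ⟨_, rfl⟩
  have hcq : c ^ q = κ / μ := by rw [hc, conj_conj hF]
  have he' : Cfsg.hermForm n F q (c • v) (c • v) = 0 := by
    rw [herm_smul_left, herm_smul_right, hvv, mul_zero, mul_zero]
  have hee' : Cfsg.hermForm n F q û (c • v) = κ := by
    rw [herm_smul_right, ← hμ, hcq]; field_simp
  have hP := embP_mul_embI hF G.iso he' hee' hκ0
  obtain ⟨lam, hlam⟩ : ∃ lam : F, lam = θ ^ 2 * μ ^ (q + 1) := ⟨_, rfl⟩
  have hlam0 : lam ≠ 0 := by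
    rw [hlam]; exact mul_ne_zero (pow_ne_zero _ hθ0) (pow_ne_zero _ hμ0)
  have hlamq : lam ^ q = lam := by
    rw [hlam, mul_pow, norm_fixed hF, ← pow_mul, mul_comm 2 q, pow_mul, hθq]; ring
  have h1 : uSL 1 ∈ Spsi q M û (c • v) κ hP := by
    rw [mem_Spsi, psiM_uSL, hκq, one_div, inv_inv]
    exact G.mem θ hθ hθq
  have hcn : c ^ (q + 1) = κ ^ (q + 1) / μ ^ (q + 1) := by
    rw [hc, ← pow_mul, mul_comm q (q + 1), pow_mul, norm_fixed hF, div_pow]
  have hκn : κ ^ (q + 1) = -(θ⁻¹) ^ 2 := by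
    rw [pow_succ κ q, hκq, hκ]; ring
  have hl : lSL lam ∈ Spsi q M û (c • v) κ hP := by
    rw [mem_Spsi, psiM_lSL, utransv_smul]
    have e : c ^ (q + 1) * (lam / κ) = θ := by
      rw [hcn, hκn, hlam, hκ]; field_simp
    rw [e]
    exact inM_mono hM (inN_utransv hF hv hvv hθ hθq)
  have hlamF : lam ∈ F₀ := by
    by_cases hex : (3 : F) = 0 ∧ lam ^ 2 = -1
    · obtain ⟨ε, hε, hεn⟩ := D.exists_norm
      obtain ⟨m, hm⟩ := q_odd hF h2
      have hi : (ε ^ (m + 1)) ^ 2 = -1 := by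
        rw [← pow_mul, ← hεn]; congr 1; omega
      have : (lam - ε ^ (m + 1)) * (lam + ε ^ (m + 1)) = 0 := by
        linear_combination hex.2 - hi
      rcases mul_eq_zero.mp this with h | h
      · have : lam = ε ^ (m + 1) := by linear_combination h
        rw [this]; exact pow_mem hε _
      · have : lam = -ε ^ (m + 1) := by linear_combination h
        rw [this]; exact F₀.neg_mem (pow_mem hε _)
    · have h3 := dickson_transfer h2 _ h1 lam hlam0 hl hex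
      rw [mem_Spsi, psiM_uSL, hκq, div_inv_eq_mul] at h3
      have h4 := G.rat (lam * θ) (by rw [mul_pow, hlamq, hθq]; ring) h3
      have : lam = lam * θ / θ := by field_simp
      rw [this]; exact F₀.div_mem h4 hθ
  have : μ ^ (q + 1) = lam / θ ^ 2 := by rw [hlam]; field_simp
  rw [this]
  exact F₀.div_mem hlamF (pow_mem hθ 2)

/-- odd characteristic: the ratio lemma -/
theorem ratio_odd (D : UD (F := F) q n F₀) (h2 : (2 : F) ≠ 0) {M : Subgroup (GL (Fin n) F)}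
    (hM : NN q n F₀ ≤ M) {û : Fin n → F} (G : GoodV q F₀ M û) {x y : Fin n → F}
    (hx : Rv F₀ x) (hy : Rv F₀ y) (hxx : Cfsg.hermForm n F q x x = 0)
    (hyy : Cfsg.hermForm n F q y y = 0) (hxy : Cfsg.hermForm n F q x y = 0)
    (hβ0 : Cfsg.hermForm n F q û y ≠ 0) :
    Cfsg.hermForm n F q û x / Cfsg.hermForm n F q û y ∈ F₀ := by
  have hF := D.hF
  have hyx := herm_swap_zero hF hxy
  have hNa := norm_rat D h2 hM G hx hxx
  have hNb := norm_rat D h2 hM G hy hyy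
  have key : ∀ c : F, c ∈ F₀ →
      (Cfsg.hermForm n F q û x + c ^ q * Cfsg.hermForm n F q û y) ^ (q + 1) ∈ F₀ := by
    intro c hc
    have hv : Rv F₀ (x + c • y) := hx.add (Rv.smul hc hy)
    have hvv : Cfsg.hermForm n F q (x + c • y) (x + c • y) = 0 := by
      simp only [herm_add_left, herm_add_right hF, herm_smul_left, herm_smul_right, hxx, hyy,
        hxy, hyx, mul_zero, add_zero]
    have h1 := norm_rat D h2 hM G hv hvv
    rwa [herm_add_right hF, herm_smul_right] at h1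
  generalize hα : Cfsg.hermForm n F q û x = α at hNa key ⊢
  generalize hβ : Cfsg.hermForm n F q û y = β at hβ0 hNb key ⊢
  have key2 : ∀ c : F, c ∈ F₀ → c * (α * β ^ q) + c ^ q * (α ^ q * β) ∈ F₀ := by
    intro c hc
    have h1 := key c hc
    have e : (α + c ^ q * β) ^ (q + 1) = α ^ (q + 1) +
        (c * (α * β ^ q) + c ^ q * (α ^ q * β)) + c ^ (q + 1) * β ^ (q + 1) := by
      rw [pow_succ (α + c ^ q * β) q, conj_add hF, mul_pow, conj_conj hF]
      ring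
    rw [e] at h1
    have h3 := F₀.sub_mem (F₀.sub_mem h1 hNa) (F₀.mul_mem (pow_mem hc (q + 1)) hNb)
    have e2 : α ^ (q + 1) + (c * (α * β ^ q) + c ^ q * (α ^ q * β)) +
        c ^ (q + 1) * β ^ (q + 1) - α ^ (q + 1) - c ^ (q + 1) * β ^ (q + 1) =
        c * (α * β ^ q) + c ^ q * (α ^ q * β) := by ring
    rwa [e2] at h3
  obtain ⟨d, hd, hdq⟩ := D.hd
  have s1 := key2 1 F₀.one_mem
  have s2 := key2 d hd
  have hne : d - d ^ q ≠ 0 := sub_ne_zero.mpr (Ne.symm hdq)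
  have hZ : α * β ^ q ∈ F₀ := by
    have e : α * β ^ q = (d * (α * β ^ q) + d ^ q * (α ^ q * β) -
        d ^ q * (1 * (α * β ^ q) + 1 ^ q * (α ^ q * β))) / (d - d ^ q) := by
      field_simp
      ring
    rw [e]
    exact F₀.div_mem (F₀.sub_mem s2 (F₀.mul_mem (pow_mem hd q) s1))
      (F₀.sub_mem hd (pow_mem hd q))
  have e : α / β = α * β ^ q / β ^ (q + 1) := by
    rw [pow_succ]; field_simp
  rw [e]
  exact F₀.div_mem hZ hNb

end Cfsg.Agent.Lib.Helper94.Usf
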