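-- helper94: unitary subfield subgroups (odd prime index): an overgroup whose coefficient field
-- is the subfield is the subfield subgroup.
import Mathlib
import Cfsg.Prelude.Def_GeometricClasses
import Cfsg.Agent.Lib.Helper94.UsB1

set_option autoImplicit false
set_option linter.unusedSectionVars false
set_option linter.unusedVariables false

namespace Cfsg.Agent.Lib.Helper94.Usf

open Matrix Cfsg.Agent.Lib.Helper45 Cfsg.Agent.Lib.Helper44 Cfsg.Agent.Lib.Helper13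
open Cfsg.Agent.Lib.Helper5.SL2 Cfsg.Agent.Lib.Helper89

variable {F : Type*} [Field F] [Fintype F] {q n : ℕ} {F₀ : Subfield F}

/-- characteristic two: the ratio lemma -/
theorem ratio_even (D : UD (F := F) q n F₀) (h2 : (2 : F) = 0) {M : Subgroup (GL (Fin n) F)}
    (hM : NN q n F₀ ≤ M) (hK : ∀ c : F, c ∈ KK q F₀ M → c ∈ F₀) {û : Fin n → F}
    (G : GoodV q F₀ M û) {i a j b : Fin n} {x y : Fin n → F} (hx : IsC q F₀ i a x)
    (hy : IsC q F₀ j b y) (hd : Dj i a j b) (hα0 : Cfsg.hermForm n F q û x ≠ 0)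
    (hβ0 : Cfsg.hermForm n F q û y ≠ 0) :
    Cfsg.hermForm n F q û x / Cfsg.hermForm n F q û y ∈ F₀ := by
  have hF := D.hF
  have hxx := hx.iso hF
  have hyy := hy.iso hF
  have hxy : Cfsg.hermForm n F q x y = 0 := hd.orth hF hx hy
  have hyx : Cfsg.hermForm n F q y x = 0 := hd.orth' hF hx hy
  obtain ⟨α, hα⟩ : ∃ α, α = Cfsg.hermForm n F q û x := ⟨_, rfl⟩
  obtain ⟨β, hβ⟩ : ∃ β, β = Cfsg.hermForm n F q û y := ⟨_, rfl⟩
  rw [← hα] at hα0 ⊢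
  rw [← hβ] at hβ0 ⊢
  obtain ⟨c, hc, hc0, hcZ⟩ : ∃ c ∈ F₀, c ≠ 0 ∧ (c * (α * β ^ q)) ^ q ≠ c * (α * β ^ q) := by
    by_cases hZ : (α * β ^ q) ^ q = α * β ^ q
    · obtain ⟨d, hd, hdq⟩ := D.hd
      have hd0 : d ≠ 0 := by rintro rfl; exact hdq (conj_zero hF)
      refine ⟨d, hd, hd0, ?_⟩
      rw [mul_pow, hZ]
      intro h
      exact hdq (mul_right_cancel₀ (mul_ne_zero hα0 (pow_ne_zero _ hβ0)) h)
    · exact ⟨1, F₀.one_mem, one_ne_zero, by rwa [one_mul]⟩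
  have hJ : InM M (Sg q x y c) := inM_mono hM (inN_Sg hF hx.rat hy.rat hxx hyy hyx hc)
  have hJi := Sg_iso hF c hxx hyy hyx
  have hJ2 : Sg q x y c * Sg q x y c = 1 := by
    rw [Sg_add hF c c hxx hyy hyx]
    have : c + c = 0 := by linear_combination c * h2
    rw [this, Sg_zero hF hxx]
  have hJû : Sg q x y c *ᵥ û = û + (c * α) • y - (c ^ q * β) • x := by
    rw [Sg_mulVec c hxx, ← hα, ← hβ]
  obtain ⟨θ, hθ, hθ0, hθq⟩ := D.exists_skew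
  obtain ⟨κ, hκdef⟩ : ∃ κ, κ = Cfsg.hermForm n F q û (Sg q x y c *ᵥ û) := ⟨_, rfl⟩
  have hκv : κ = (c * (α * β ^ q)) ^ q - c * (α * β ^ q) := by
    rw [hκdef, hJû, herm_sub_right hF, herm_add_right hF, herm_smul_right, herm_smul_right,
      G.iso, ← hα, ← hβ]
    simp only [mul_pow, conj_conj hF]
    ring
  have hκ0 : κ ≠ 0 := by rw [hκv]; exact sub_ne_zero.mpr hcZ
  have hκq : κ ^ q = -κ := by rw [hκv, conj_sub hF, conj_conj hF]; ring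
  have hT := dihedral_trick hF h2 G.iso hθ0 (G.mem θ hθ hθq) hJ hJi hJ2
    (by rw [← hκdef]; exact hκ0)
  rw [← hκdef] at hT
  obtain ⟨c₁, hc₁⟩ : ∃ c₁ : F, c₁ = c * α := ⟨_, rfl⟩
  obtain ⟨c₂, hc₂⟩ : ∃ c₂ : F, c₂ = -(c ^ q * β) := ⟨_, rfl⟩
  have hδ : Sg q x y c *ᵥ û - û = c₁ • y + c₂ • x := by rw [hJû, hc₁, hc₂]; module
  rw [hδ] at hT
  have hc₂0 : c₂ ≠ 0 := by
    rw [hc₂]; exact neg_ne_zero.mpr (mul_ne_zero (pow_ne_zero _ hc0) hβ0)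
  obtain ⟨k, l, hkl, d1, d2, -⟩ := exists_plane5 D.hn i a j b i a i a i a
  obtain ⟨m, o, hmo, e1, e2, e3, -⟩ := exists_plane5 D.hn i a j b k l i a i a
  obtain ⟨v, hv⟩ := D.exists_isC hkl
  obtain ⟨v₂, hv₂⟩ := D.exists_isC hmo
  obtain ⟨x', hx', hξ0', -⟩ := D.exists_mate hx
  obtain ⟨y', hy', hη0', -⟩ := D.exists_mate hy
  obtain ⟨ξ, hξ⟩ : ∃ ξ, ξ = Cfsg.hermForm n F q x x' := ⟨_, rfl⟩
  obtain ⟨η, hη⟩ : ∃ η, η = Cfsg.hermForm n F q y y' := ⟨_, rfl⟩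
  have hξ0 : ξ ≠ 0 := by rw [hξ]; exact herm_swap_ne hF hξ0'
  have hη0 : η ≠ 0 := by rw [hη]; exact herm_swap_ne hF hη0'
  have hξF : ξ ∈ F₀ := by rw [hξ]; exact hx.rat.herm hx'.rat
  have hηF : η ∈ F₀ := by rw [hη]; exact hy.rat.herm hy'.rat
  have hx'x' := hx'.iso hF
  have hy'y' := hy'.iso hF
  have hvv := hv.iso hF
  have hv₂v₂ := hv₂.iso hF
  have hyx' : Cfsg.hermForm n F q y x' = 0 := hd.orth' hF hx' hy
  have hxy' : Cfsg.hermForm n F q x y' = 0 := hd.orth hF hx hy'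
  have hxv : Cfsg.hermForm n F q x v = 0 := d1.orth hF hx hv
  have hyv : Cfsg.hermForm n F q y v = 0 := d2.orth hF hy hv
  have hxv₂ : Cfsg.hermForm n F q x v₂ = 0 := e1.orth hF hx hv₂
  have hyv₂ : Cfsg.hermForm n F q y v₂ = 0 := e2.orth hF hy hv₂
  have hvx' : Cfsg.hermForm n F q v x' = 0 := d1.orth' hF hx' hv
  have hvy' : Cfsg.hermForm n F q v y' = 0 := d2.orth' hF hy' hv
  have hv₂x' : Cfsg.hermForm n F q v₂ x' = 0 := e1.orth' hF hx' hv₂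
  have hv₂y' : Cfsg.hermForm n F q v₂ y' = 0 := e2.orth' hF hy' hv₂
  have hvv₂ : Cfsg.hermForm n F q v v₂ = 0 := e3.orth hF hv hv₂
  have hY₁ : InM M (Sg q x' v 1) :=
    inM_mono hM (inN_Sg hF hx'.rat hv.rat hx'x' hvv hvx' F₀.one_mem)
  have hY₂ : InM M (Sg q y' v₂ 1) :=
    inM_mono hM (inN_Sg hF hy'.rat hv₂.rat hy'y' hv₂v₂ hv₂y' F₀.one_mem)
  have hY₃ : InM M (Sg q x' v₂ 1) :=
    inM_mono hM (inN_Sg hF hx'.rat hv₂.rat hx'x' hv₂v₂ hv₂x' F₀.one_mem)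
  have hi₁ := Sg_iso hF (1 : F) hx'x' hvv hvx'
  have hi₂ := Sg_iso hF (1 : F) hy'y' hv₂v₂ hv₂y'
  have hi₃ := Sg_iso hF (1 : F) hx'x' hv₂v₂ hv₂x'
  have a1 : Sg q x' v 1 *ᵥ (c₁ • y + c₂ • x) = (c₁ • y + c₂ • x) + (c₂ * ξ) • v := by
    rw [Sg_mulVec 1 hx'x']
    simp only [herm_add_left, herm_smul_left, hyx', hyv, hxv, ← hξ, mul_zero, zero_add,
      add_zero, one_mul, zero_smul, sub_zero]
  have a2 : Sg q y' v₂ 1 *ᵥ (c₁ • y + c₂ • x) = (c₁ • y + c₂ • x) + (c₁ * η) • v₂ := by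
    rw [Sg_mulVec 1 hy'y']
    simp only [herm_add_left, herm_smul_left, hxy', hyv₂, hxv₂, ← hη, mul_zero, zero_add,
      add_zero, one_mul, zero_smul, sub_zero]
  have a3 : Sg q y' v₂ 1 *ᵥ ((c₂ * ξ) • v) = (c₂ * ξ) • v := by
    rw [Sg_mulVec 1 hy'y']
    simp only [herm_smul_left, hvy', hvv₂, mul_zero, zero_smul, add_zero, sub_zero]
  have a2' : Sg q x' v₂ 1 *ᵥ (c₁ • y + c₂ • x) = (c₁ • y + c₂ • x) + (c₂ * ξ) • v₂ := by
    rw [Sg_mulVec 1 hx'x']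
    simp only [herm_add_left, herm_smul_left, hyx', hyv₂, hxv₂, ← hξ, mul_zero, zero_add,
      add_zero, one_mul, zero_smul, sub_zero]
  have a3' : Sg q x' v₂ 1 *ᵥ ((c₂ * ξ) • v) = (c₂ * ξ) • v := by
    rw [Sg_mulVec 1 hx'x']
    simp only [herm_smul_left, hvx', hvv₂, mul_zero, zero_smul, add_zero, sub_zero]
  have hδδ : Cfsg.hermForm n F q (c₁ • y + c₂ • x) (c₁ • y + c₂ • x) = 0 := by
    simp only [herm_add_left, herm_add_right hF, herm_smul_left, herm_smul_right, hxx, hyy, hxy,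
      hyx, mul_zero, add_zero]
  have hp : Cfsg.hermForm n F q ((c₂ * ξ) • v) ((c₂ * ξ) • v) = 0 := by
    rw [herm_smul_left, herm_smul_right, hvv, mul_zero, mul_zero]
  have hr : Cfsg.hermForm n F q ((c₁ * η) • v₂) ((c₁ * η) • v₂) = 0 := by
    rw [herm_smul_left, herm_smul_right, hv₂v₂, mul_zero, mul_zero]
  have hr' : Cfsg.hermForm n F q ((c₂ * ξ) • v₂) ((c₂ * ξ) • v₂) = 0 := by
    rw [herm_smul_left, herm_smul_right, hv₂v₂, mul_zero, mul_zero]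
  have hδp : Cfsg.hermForm n F q (c₁ • y + c₂ • x) ((c₂ * ξ) • v) = 0 := by
    simp only [herm_add_left, herm_smul_left, herm_smul_right, hxv, hyv, mul_zero, add_zero]
  have hδr : Cfsg.hermForm n F q (c₁ • y + c₂ • x) ((c₁ * η) • v₂) = 0 := by
    simp only [herm_add_left, herm_smul_left, herm_smul_right, hxv₂, hyv₂, mul_zero, add_zero]
  have hδr' : Cfsg.hermForm n F q (c₁ • y + c₂ • x) ((c₂ * ξ) • v₂) = 0 := by
    simp only [herm_add_left, herm_smul_left, herm_smul_right, hxv₂, hyv₂, mul_zero, add_zero]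
  have hpr : Cfsg.hermForm n F q ((c₂ * ξ) • v) ((c₁ * η) • v₂) = 0 := by
    rw [herm_smul_left, herm_smul_right, hvv₂, mul_zero, mul_zero]
  have hpr' : Cfsg.hermForm n F q ((c₂ * ξ) • v) ((c₂ * ξ) • v₂) = 0 := by
    rw [herm_smul_left, herm_smul_right, hvv₂, mul_zero, mul_zero]
  have hb : (κ⁻¹) ^ q = -κ⁻¹ := by rw [inv_pow, hκq, inv_neg]
  have G₁ := inM_Gm hF hT hY₁ hY₂ hi₁ hi₂ a1 a2 a3 hδδ hp hr hδp hδr hpr
  have G₂ := inM_Gm hF hT hY₁ hY₃ hi₁ hi₃ a1 a2' a3' hδδ hp hr' hδp hδr' hpr'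
  rw [Gm_eq_Sg hF κ⁻¹ (c₂ * ξ) (c₁ * η) hb hvv] at G₁
  rw [Gm_eq_Sg hF κ⁻¹ (c₂ * ξ) (c₂ * ξ) hb hvv] at G₂
  have t₁ := hK _ (mem_KK_of D hM hv hv₂ e3 G₁)
  have t₂ := hK _ (mem_KK_of D hM hv hv₂ e3 G₂)
  have e : α / β = -((κ⁻¹ * (c₂ * ξ) ^ q * (c₁ * η)) / (κ⁻¹ * (c₂ * ξ) ^ q * (c₂ * ξ)) *
      (ξ / η) * (c ^ q / c)) := by
    have hcq0 : c ^ q ≠ 0 := pow_ne_zero _ hc0
    have h1 : (c₂ * ξ) ^ q ≠ 0 := pow_ne_zero _ (mul_ne_zero hc₂0 hξ0)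
    have h3 : κ⁻¹ ≠ 0 := inv_ne_zero hκ0
    rw [mul_div_mul_left _ _ (mul_ne_zero h3 h1), hc₁, hc₂]
    field_simp
  rw [e]
  exact F₀.neg_mem (F₀.mul_mem (F₀.mul_mem (F₀.div_mem t₁ t₂) (F₀.div_mem hξF hηF))
    (F₀.div_mem (pow_mem hc q) hc))

/-- the ratio lemma for coordinate vectors -/
theorem ratio_C (D : UD (F := F) q n F₀) {M : Subgroup (GL (Fin n) F)}
    (hM : NN q n F₀ ≤ M) (hK : ∀ c : F, c ∈ KK q F₀ M → c ∈ F₀) {û : Fin n → F}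
    (G : GoodV q F₀ M û) {i a j b : Fin n} {x y : Fin n → F} (hx : IsC q F₀ i a x)
    (hy : IsC q F₀ j b y) (hd : Dj i a j b) (hα0 : Cfsg.hermForm n F q û x ≠ 0)
    (hβ0 : Cfsg.hermForm n F q û y ≠ 0) :
    Cfsg.hermForm n F q û x / Cfsg.hermForm n F q û y ∈ F₀ := by
  by_cases h2 : (2 : F) = 0
  · exact ratio_even D h2 hM hK G hx hy hd hα0 hβ0
  · exact ratio_odd D h2 hM G hx.rat hy.rat (hx.iso D.hF) (hy.iso D.hF) (hd.orth D.hF hx hy) hβ0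

end Cfsg.Agent.Lib.Helper94.Usf
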