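-- helper94: unitary subfield subgroups (odd prime index): from the ratio lemma to membership in
-- the subfield subgroup.
import Mathlib
import Cfsg.Prelude.Def_GeometricClasses
import Cfsg.Agent.Lib.Helper94.UsB2

set_option autoImplicit false
set_option linter.unusedSectionVars false
set_option linter.unusedVariables false

namespace Cfsg.Agent.Lib.Helper94.Usf

open Matrix Cfsg.Agent.Lib.Helper45 Cfsg.Agent.Lib.Helper44 Cfsg.Agent.Lib.Helper13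

variable {F : Type*} [Field F] [Fintype F] {q n : ℕ} {F₀ : Subfield F}

theorem conj_inj (hF : Fintype.card F = q ^ 2) {x y : F} (h : x ^ q = y ^ q) : x = y := by
  have := congrArg (fun z => z ^ q) h
  simpa only [conj_conj hF] using this

/-- a plane on which `û` does not vanish carries a coordinate vector not orthogonal to `û` -/
theorem exists_val (D : UD (F := F) q n F₀) {û : Fin n → F} {j b : Fin n} (hjb : j ≠ b)
    (hj : û j ≠ 0) : ∃ y, IsC q F₀ j b y ∧ Cfsg.hermForm n F q û y ≠ 0 := by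
  have hF := D.hF
  obtain ⟨ε₁, ε₂, ε₃, h1, h2, h3, n1, n2, n3, d12, d13, d23⟩ := D.exists_three
  by_contra hcon
  push Not at hcon
  have e1 := hcon (cv j b ε₁) ⟨hjb, ε₁, h1, n1, rfl⟩
  have e2 := hcon (cv j b ε₂) ⟨hjb, ε₂, h2, n2, rfl⟩
  rw [herm_cv_right hF] at e1 e2
  have hne : ε₁ ^ q - ε₂ ^ q ≠ 0 := sub_ne_zero.mpr (fun h => d12 (conj_inj hF h))
  have hb : û b = 0 := by
    have : (ε₁ ^ q - ε₂ ^ q) * û b = 0 := by linear_combination e1 - e2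
    rcases mul_eq_zero.mp this with h | h
    · exact absurd h hne
    · exact h
  apply hj
  rw [hb, mul_zero, add_zero] at e1
  exact e1

/-- the coordinates on a plane are rational multiples of a value on a disjoint plane -/
theorem quad (D : UD (F := F) q n F₀) {û : Fin n → F}
    (hR : ∀ (i a j b : Fin n) (x y : Fin n → F), IsC q F₀ i a x → IsC q F₀ j b y → Dj i a j b →
      Cfsg.hermForm n F q û x ≠ 0 → Cfsg.hermForm n F q û y ≠ 0 →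
      Cfsg.hermForm n F q û x / Cfsg.hermForm n F q û y ∈ F₀)
    {i a j b : Fin n} (hia : i ≠ a) (hd : Dj i a j b) {y : Fin n → F} (hy : IsC q F₀ j b y)
    (hy0 : Cfsg.hermForm n F q û y ≠ 0) :
    û i / Cfsg.hermForm n F q û y ∈ F₀ ∧ û a / Cfsg.hermForm n F q û y ∈ F₀ := by
  have hF := D.hF
  obtain ⟨ε₁, ε₂, ε₃, h1, h2, h3, n1, n2, n3, d12, d13, d23⟩ := D.exists_three
  generalize hRdef : Cfsg.hermForm n F q û y = R at hy0 ⊢
  have key : ∀ ε : F, ε ∈ F₀ → ε ^ (q + 1) = -1 → (û i + ε ^ q * û a) / R ∈ F₀ := by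
    intro ε hε hn
    have hx : IsC q F₀ i a (cv i a ε) := ⟨hia, ε, hε, hn, rfl⟩
    by_cases h0 : Cfsg.hermForm n F q û (cv i a ε) = 0
    · rw [herm_cv_right hF] at h0
      rw [h0, zero_div]
      exact F₀.zero_mem
    · have := hR i a j b _ y hx hy hd h0 (by rw [hRdef]; exact hy0)
      rwa [herm_cv_right hF, hRdef] at this
  have k1 := key ε₁ h1 n1
  have k2 := key ε₂ h2 n2
  have hne : ε₁ ^ q - ε₂ ^ q ≠ 0 := sub_ne_zero.mpr (fun h => d12 (conj_inj hF h))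
  have ha : û a / R ∈ F₀ := by
    have e : û a / R = ((û i + ε₁ ^ q * û a) / R - (û i + ε₂ ^ q * û a) / R) /
        (ε₁ ^ q - ε₂ ^ q) := by
      field_simp
      ring
    rw [e]
    exact F₀.div_mem (F₀.sub_mem k1 k2) (F₀.sub_mem (pow_mem h1 q) (pow_mem h2 q))
  refine ⟨?_, ha⟩
  have e : û i / R = (û i + ε₁ ^ q * û a) / R - ε₁ ^ q * (û a / R) := by
    field_simp
    ring
  rw [e]
  exact F₀.sub_mem k1 (F₀.mul_mem (pow_mem h1 q) ha)

/-- the ratio lemma gives rational ratios of the coordinates -/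
theorem coord_ratio (D : UD (F := F) q n F₀) {û : Fin n → F}
    (hR : ∀ (i a j b : Fin n) (x y : Fin n → F), IsC q F₀ i a x → IsC q F₀ j b y → Dj i a j b →
      Cfsg.hermForm n F q û x ≠ 0 → Cfsg.hermForm n F q û y ≠ 0 →
      Cfsg.hermForm n F q û x / Cfsg.hermForm n F q û y ∈ F₀)
    (i j : Fin n) (hj : û j ≠ 0) : û i / û j ∈ F₀ := by
  by_cases hi : û i = 0
  · rw [hi, zero_div]; exact F₀.zero_mem
  by_cases hij : i = j
  · rw [hij, div_self hj]; exact F₀.one_mem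
  obtain ⟨k, l, hkl, d, -⟩ := exists_plane5 D.hn i j i j i j i j i j
  have hd : Dj i k j l := ⟨hij, d.2.1, (d.2.2.1).symm, hkl⟩
  obtain ⟨y₀, hy₀, hR0⟩ := exists_val D d.2.2.2 hj
  obtain ⟨x₀, hx₀, hR0'⟩ := exists_val D d.1 hi
  have s1 := (quad D hR d.1 hd hy₀ hR0).1
  have s2 := (quad D hR d.2.2.2 hd.symm hx₀ hR0').1
  have s3 := hR i k j l x₀ y₀ hx₀ hy₀ hd hR0' hR0
  have e : û i / û j = (û i / Cfsg.hermForm n F q û y₀) /
      ((Cfsg.hermForm n F q û x₀ / Cfsg.hermForm n F q û y₀) *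
        (û j / Cfsg.hermForm n F q û x₀)) := by
    field_simp
  rw [e]
  exact F₀.div_mem s1 (F₀.mul_mem s3 s2)

/-- a nonzero multiple of a rational vector -/
def Prat (F₀ : Subfield F) (v : Fin n → F) : Prop :=
  ∃ c : F, c ≠ 0 ∧ ∃ w : Fin n → F, Rv F₀ w ∧ v = c • w

theorem prat_of_ratio {û : Fin n → F} (h0 : û ≠ 0) (h : ∀ i j, û j ≠ 0 → û i / û j ∈ F₀) :
    Prat F₀ û := by
  obtain ⟨j, hj⟩ : ∃ j, û j ≠ 0 := by
    by_contra hcon
    push Not at hcon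
    exact h0 (funext hcon)
  refine ⟨û j, hj, fun i => û i / û j, fun i => h i j hj, ?_⟩
  funext i
  simp only [Pi.smul_apply, smul_eq_mul]
  field_simp

theorem prat_combine {w₁ w₂ w₃ : Fin n → F} (h1 : Rv F₀ w₁) (h2 : Rv F₀ w₂) (h3 : Rv F₀ w₃)
    {c₁ c₂ c₃ : F} (hc₃ : c₃ ≠ 0) (hw₁ : w₁ ≠ 0) (hind : ∀ t : F, w₂ ≠ t • w₁)
    (he : c₁ • w₁ + c₂ • w₂ = c₃ • w₃) : c₁ / c₃ ∈ F₀ ∧ c₂ / c₃ ∈ F₀ := by
  obtain ⟨s, hs⟩ : ∃ s, w₁ s ≠ 0 := by
    by_contra hcon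
    push Not at hcon
    exact hw₁ (funext hcon)
  obtain ⟨t, ht⟩ : ∃ t, w₁ s * w₂ t - w₁ t * w₂ s ≠ 0 := by
    by_contra hcon
    push Not at hcon
    apply hind (w₂ s / w₁ s)
    funext t
    have := hcon t
    simp only [Pi.smul_apply, smul_eq_mul]
    rw [div_mul_eq_mul_div, eq_div_iff hs]
    linear_combination this
  have es := congrFun he s
  have et := congrFun he t
  simp only [Pi.add_apply, Pi.smul_apply, smul_eq_mul] at es et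
  have hm : w₁ s * w₂ t - w₁ t * w₂ s ∈ F₀ :=
    F₀.sub_mem (F₀.mul_mem (h1 s) (h2 t)) (F₀.mul_mem (h1 t) (h2 s))
  constructor
  · have : c₁ / c₃ = (w₃ s * w₂ t - w₃ t * w₂ s) / (w₁ s * w₂ t - w₁ t * w₂ s) := by
      rw [div_eq_div_iff hc₃ ht]
      linear_combination (w₂ t) * es - (w₂ s) * et
    rw [this]
    exact F₀.div_mem (F₀.sub_mem (F₀.mul_mem (h3 s) (h2 t)) (F₀.mul_mem (h3 t) (h2 s))) hm
  · have : c₂ / c₃ = (w₁ s * w₃ t - w₁ t * w₃ s) / (w₁ s * w₂ t - w₁ t * w₂ s) := by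
      rw [div_eq_div_iff hc₃ ht]
      linear_combination (w₁ s) * et - (w₁ t) * es
    rw [this]
    exact F₀.div_mem (F₀.sub_mem (F₀.mul_mem (h1 s) (h3 t)) (F₀.mul_mem (h1 t) (h3 s))) hm

theorem cv_ne_zero {i a : Fin n} (hia : i ≠ a) (ε : F) : cv i a ε ≠ 0 := by
  intro h
  have := congrFun h i
  rw [cv_apply] at this
  simp [hia] at this

/-- two columns of a plane are multiples of rational vectors with a common factor -/
theorem cols_plane (D : UD (F := F) q n F₀) (g : GL (Fin n) F) {i a : Fin n} (hia : i ≠ a)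
    (hP : ∀ ε : F, ε ∈ F₀ → ε ^ (q + 1) = -1 →
      Prat F₀ ((g : Matrix (Fin n) (Fin n) F) *ᵥ cv i a ε)) :
    ∃ c : F, c ≠ 0 ∧
      (∃ w, Rv F₀ w ∧ (g : Matrix (Fin n) (Fin n) F) *ᵥ Pi.single i 1 = c • w) ∧
      (∃ w, Rv F₀ w ∧ (g : Matrix (Fin n) (Fin n) F) *ᵥ Pi.single a 1 = c • w) := by
  obtain ⟨ε₁, ε₂, ε₃, h1, h2, h3, n1, n2, n3, d12, d13, d23⟩ := D.exists_three
  obtain ⟨c₁, hc₁, w₁, hw₁, e₁⟩ := hP ε₁ h1 n1
  obtain ⟨c₂, hc₂, w₂, hw₂, e₂⟩ := hP ε₂ h2 n2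
  obtain ⟨c₃, hc₃, w₃, hw₃, e₃⟩ := hP ε₃ h3 n3
  have h12 : ε₁ - ε₂ ≠ 0 := sub_ne_zero.mpr d12
  have h13 : ε₁ - ε₃ ≠ 0 := sub_ne_zero.mpr d13
  have h32 : ε₃ - ε₂ ≠ 0 := sub_ne_zero.mpr (Ne.symm d23)
  -- the linear relation between the three vectors
  have v3 : (ε₁ - ε₂) • cv i a ε₃ = (ε₃ - ε₂) • cv i a ε₁ + (ε₁ - ε₃) • cv i a ε₂ := by
    unfold cv; module
  have va : (ε₁ - ε₂) • (Pi.single a 1 : Fin n → F) = cv i a ε₁ - cv i a ε₂ := by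
    unfold cv; module
  have vi : (ε₁ - ε₂) • (Pi.single i 1 : Fin n → F) = ε₁ • cv i a ε₂ - ε₂ • cv i a ε₁ := by
    unfold cv; module
  have g3 := congrArg (fun z => (g : Matrix (Fin n) (Fin n) F) *ᵥ z) v3
  have ga := congrArg (fun z => (g : Matrix (Fin n) (Fin n) F) *ᵥ z) va
  have gi := congrArg (fun z => (g : Matrix (Fin n) (Fin n) F) *ᵥ z) vi
  simp only [Matrix.mulVec_add, Matrix.mulVec_sub, Matrix.mulVec_smul, e₁, e₂, e₃] at g3 ga gi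
  have hw₁0 : w₁ ≠ 0 := by
    rintro rfl
    rw [smul_zero] at e₁
    exact cv_ne_zero hia ε₁ (gl_mulVec_injective g (e₁.trans (Matrix.mulVec_zero _).symm))
  have he : c₁ • ((ε₃ - ε₂) • w₁) + c₂ • ((ε₁ - ε₃) • w₂) = ((ε₁ - ε₂) * c₃) • w₃ := by
    rw [← smul_smul, g3]
    module
  have hw₁' : (ε₃ - ε₂) • w₁ ≠ 0 := smul_ne_zero h32 hw₁0
  have hind : ∀ t : F, (ε₁ - ε₃) • w₂ ≠ t • ((ε₃ - ε₂) • w₁) := by
    intro t heq
    have hw₂e : w₂ = ((ε₁ - ε₃)⁻¹ * (t * (ε₃ - ε₂))) • w₁ := by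
      calc w₂ = (ε₁ - ε₃)⁻¹ • ((ε₁ - ε₃) • w₂) := by
            rw [smul_smul, inv_mul_cancel₀ h13, one_smul]
        _ = ((ε₁ - ε₃)⁻¹ * (t * (ε₃ - ε₂))) • w₁ := by rw [heq, smul_smul, smul_smul, mul_assoc]
    obtain ⟨s, hs⟩ : ∃ s : F, s = c₂ * ((ε₁ - ε₃)⁻¹ * (t * (ε₃ - ε₂))) * c₁⁻¹ := ⟨_, rfl⟩
    have h5 : (g : Matrix (Fin n) (Fin n) F) *ᵥ cv i a ε₂ =
        (g : Matrix (Fin n) (Fin n) F) *ᵥ (s • cv i a ε₁) := by
      rw [Matrix.mulVec_smul, e₁, e₂, hw₂e, smul_smul, smul_smul, hs]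
      congr 1
      field_simp
    have h6 := gl_mulVec_injective g h5
    have hi := congrFun h6 i
    have ha := congrFun h6 a
    simp only [Pi.smul_apply, smul_eq_mul, cv_apply, if_true, if_neg hia, if_neg hia.symm,
      mul_zero, add_zero, zero_add, mul_one] at hi ha
    apply d12
    rw [ha, ← hi, one_mul]
  obtain ⟨r1, r2⟩ := prat_combine (Rv.smul (F₀.sub_mem h3 h2) hw₁)
    (Rv.smul (F₀.sub_mem h1 h3) hw₂) hw₃ (mul_ne_zero h12 hc₃) hw₁' hind he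
  have hr₁ : c₁ / c₃ ∈ F₀ := by
    have : c₁ / c₃ = (ε₁ - ε₂) * (c₁ / ((ε₁ - ε₂) * c₃)) := by field_simp
    rw [this]
    exact F₀.mul_mem (F₀.sub_mem h1 h2) r1
  have hr₂ : c₂ / c₃ ∈ F₀ := by
    have : c₂ / c₃ = (ε₁ - ε₂) * (c₂ / ((ε₁ - ε₂) * c₃)) := by field_simp
    rw [this]
    exact F₀.mul_mem (F₀.sub_mem h1 h2) r2
  have hinv : (ε₁ - ε₂)⁻¹ ∈ F₀ := F₀.inv_mem (F₀.sub_mem h1 h2)
  have e1' : c₁ = c₃ * (c₁ / c₃) := by field_simp
  have e2' : c₂ = c₃ * (c₂ / c₃) := by field_simp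
  refine ⟨c₃, hc₃, ⟨(ε₁ - ε₂)⁻¹ • ((ε₁ * (c₂ / c₃)) • w₂ - (ε₂ * (c₁ / c₃)) • w₁), ?_, ?_⟩,
    ⟨(ε₁ - ε₂)⁻¹ • ((c₁ / c₃) • w₁ - (c₂ / c₃) • w₂), ?_, ?_⟩⟩
  · exact Rv.smul hinv ((Rv.smul (F₀.mul_mem h1 hr₂) hw₂).sub (Rv.smul (F₀.mul_mem h2 hr₁) hw₁))
  · calc (g : Matrix (Fin n) (Fin n) F) *ᵥ Pi.single i 1
        = (ε₁ - ε₂)⁻¹ • ((ε₁ - ε₂) • ((g : Matrix (Fin n) (Fin n) F) *ᵥ Pi.single i 1)) := by
          rw [smul_smul, inv_mul_cancel₀ h12, one_smul]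
      _ = (ε₁ - ε₂)⁻¹ • (ε₁ • c₂ • w₂ - ε₂ • c₁ • w₁) := by rw [gi]
      _ = (ε₁ - ε₂)⁻¹ • (ε₁ • (c₃ * (c₂ / c₃)) • w₂ - ε₂ • (c₃ * (c₁ / c₃)) • w₁) := by
          rw [← e1', ← e2']
      _ = c₃ • (ε₁ - ε₂)⁻¹ • ((ε₁ * (c₂ / c₃)) • w₂ - (ε₂ * (c₁ / c₃)) • w₁) := by module
  · exact Rv.smul hinv ((Rv.smul hr₁ hw₁).sub (Rv.smul hr₂ hw₂))
  · calc (g : Matrix (Fin n) (Fin n) F) *ᵥ Pi.single a 1
        = (ε₁ - ε₂)⁻¹ • ((ε₁ - ε₂) • ((g : Matrix (Fin n) (Fin n) F) *ᵥ Pi.single a 1)) := by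
          rw [smul_smul, inv_mul_cancel₀ h12, one_smul]
      _ = (ε₁ - ε₂)⁻¹ • (c₁ • w₁ - c₂ • w₂) := by rw [ga]
      _ = (ε₁ - ε₂)⁻¹ • ((c₃ * (c₁ / c₃)) • w₁ - (c₃ * (c₂ / c₃)) • w₂) := by
          rw [← e1', ← e2']
      _ = c₃ • (ε₁ - ε₂)⁻¹ • ((c₁ / c₃) • w₁ - (c₂ / c₃) • w₂) := by module

/-- an invertible matrix mapping the rational coordinate vectors to multiples of rational
vectors lies in the subfield subgroup -/
theorem mem_sub_of_prat (D : UD (F := F) q n F₀) (g : GL (Fin n) F)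
    (hP : ∀ (i a : Fin n) (u : Fin n → F), IsC q F₀ i a u →
      Prat F₀ ((g : Matrix (Fin n) (Fin n) F) *ᵥ u)) :
    g ∈ Cfsg.Geo.subfieldSubgroup F₀ (1 : GL (Fin n) F) := by
  have hn := D.hn
  have hcols : ∀ i a : Fin n, i ≠ a → ∃ c : F, c ≠ 0 ∧
      (∃ w, Rv F₀ w ∧ (g : Matrix (Fin n) (Fin n) F) *ᵥ Pi.single i 1 = c • w) ∧
      (∃ w, Rv F₀ w ∧ (g : Matrix (Fin n) (Fin n) F) *ᵥ Pi.single a 1 = c • w) :=
    fun i a hia => cols_plane D g hia (fun ε hε hn => hP i a _ ⟨hia, ε, hε, hn, rfl⟩)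
  obtain ⟨i₀, a₀, h01, -⟩ := exists_plane hn [] (by simp)
  obtain ⟨c₀, hc₀, ⟨w₀, hw₀, e₀⟩, -⟩ := hcols i₀ a₀ h01
  have hall : ∀ j : Fin n, ∃ w, Rv F₀ w ∧
      (g : Matrix (Fin n) (Fin n) F) *ᵥ Pi.single j 1 = c₀ • w := by
    intro j
    by_cases hj : j = i₀
    · subst hj; exact ⟨w₀, hw₀, e₀⟩
    · obtain ⟨c, hc, ⟨w, hw, e⟩, ⟨w', hw', e'⟩⟩ := hcols i₀ j (Ne.symm hj)
      have he : c₀ • w₀ = c • w := by rw [← e₀, e]
      have hG0 : (g : Matrix (Fin n) (Fin n) F) *ᵥ Pi.single i₀ 1 ≠ 0 := by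
        intro h0
        have h1 := gl_mulVec_injective g (h0.trans (Matrix.mulVec_zero _).symm)
        have h2 := congrFun h1 i₀
        simp at h2
      obtain ⟨s, hs⟩ : ∃ s, w s ≠ 0 := by
        by_contra hcon
        push Not at hcon
        apply hG0
        rw [e, funext hcon]
        exact smul_zero c
      have hr : c / c₀ ∈ F₀ := by
        have h1 := congrFun he s
        simp only [Pi.smul_apply, smul_eq_mul] at h1
        have : c / c₀ = w₀ s / w s := by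
          rw [div_eq_div_iff hc₀ hs]
          linear_combination -h1
        rw [this]
        exact F₀.div_mem (hw₀ s) (hw s)
      refine ⟨(c / c₀) • w', Rv.smul hr hw', ?_⟩
      rw [e', smul_smul]
      congr 1
      field_simp
  choose W hW hWe using hall
  have hent : ∀ s j, (g : Matrix (Fin n) (Fin n) F) s j = c₀ * W j s := by
    intro s j
    have h1 := congrFun (hWe j) s
    rw [Matrix.mulVec_single_one] at h1
    exact h1
  apply mem_subfieldSubgroup_of_maps F₀ 1 g c₀ hc₀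
  rintro v ⟨u, hu, rfl⟩
  rw [Units.val_one, Matrix.one_mulVec]
  refine ⟨fun s => ∑ j, W j s * u j, ⟨_, fun s => F₀.sum_mem (fun j _ => F₀.mul_mem (hW j s)
    (hu j)), by rw [Units.val_one, Matrix.one_mulVec]⟩, ?_⟩
  funext s
  simp only [Matrix.mulVec, dotProduct, Pi.smul_apply, smul_eq_mul, Finset.mul_sum, hent]
  apply Finset.sum_congr rfl
  intro j _
  ring

/-- an overgroup inside `SU` whose coefficient set is the subfield is the subfield subgroup -/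
theorem le_NN_of_rat (D : UD (F := F) q n F₀) {M : Subgroup (GL (Fin n) F)}
    (hM : NN q n F₀ ≤ M) (hMS : M ≤ suGL n F q)
    (hK : ∀ c : F, c ∈ KK q F₀ M → c ∈ F₀) : M ≤ NN q n F₀ := by
  intro g hg
  refine Subgroup.mem_inf.mpr ⟨?_, hMS hg⟩
  apply mem_sub_of_prat D g
  intro i a u hu
  have G := goodV_of_mem D hM hMS hK hg hu
  apply prat_of_ratio
  · intro h0
    have h1 : u = 0 := gl_mulVec_injective g (h0.trans (Matrix.mulVec_zero _).symm)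
    obtain ⟨hia, ε, hε, hn, rfl⟩ := hu
    exact cv_ne_zero hia ε h1
  · exact coord_ratio D (fun i' a' j' b' x y hx hy hd hα hβ => ratio_C D hM hK G hx hy hd hα hβ)

end Cfsg.Agent.Lib.Helper94.Usf
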