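-- helper94: unitary subfield subgroups (odd prime index) are maximal in `SU_n(q)`, `n ≥ 13`.
import Mathlib
import Cfsg.Prelude.Def_GeometricClasses
import Cfsg.Agent.Lib.Helper94.UsA
import Cfsg.Agent.Lib.Helper94.UsB3

set_option autoImplicit false
set_option linter.unusedSectionVars false
set_option linter.unusedVariables false

namespace Cfsg.Agent.Lib.Helper94.Usf

open Matrix Cfsg.Agent.Lib.Helper45 Cfsg.Agent.Lib.Helper44 Cfsg.Agent.Lib.Helper13

variable {F : Type*} [Field F] [Fintype F] {q n : ℕ} {F₀ : Subfield F}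

/-- a Siegel element of the subfield subgroup has a rational coefficient -/
theorem rat_of_inN (D : UD (F := F) q n F₀) {i a j b : Fin n} {u w : Fin n → F}
    (hu : IsC q F₀ i a u) (hw : IsC q F₀ j b w) (hd : Dj i a j b) {c : F}
    (h : InM (NN q n F₀) (Sg q u w c)) : c ∈ F₀ := by
  have hF := D.hF
  obtain ⟨E, hE, hEv⟩ := h
  have hE1 := (Subgroup.mem_inf.mp hE).1
  obtain ⟨c₀, hc₀, hmap⟩ := exists_scalar_of_mem_subfieldSubgroup F₀ 1 E hE1
  obtain ⟨k, l, hkl, d1, d2, -⟩ := exists_plane5 D.hn i a j b i a i a i a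
  obtain ⟨z, hz⟩ := D.exists_isC hkl
  have hrat : ∀ v : Fin n → F, Rv F₀ v → IsRat F₀ (1 : GL (Fin n) F) v :=
    fun v hv => ⟨v, hv, by rw [Units.val_one, Matrix.one_mulVec]⟩
  have hrat' : ∀ v : Fin n → F, IsRat F₀ (1 : GL (Fin n) F) v → Rv F₀ v := by
    rintro v ⟨u, hu, rfl⟩
    rw [Units.val_one, Matrix.one_mulVec]
    exact hu
  have huu := hu.iso hF
  obtain ⟨v', hv', e1⟩ := hmap z (hrat z hz.rat)
  rw [hEv, Sg_mulVec c huu, d1.orth' hF hu hz, d2.orth' hF hw hz, mul_zero, mul_zero, zero_smul,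
    zero_smul, add_zero, sub_zero] at e1
  have hc₀F : c₀ ∈ F₀ := by
    obtain ⟨-, ε, -, -, rfl⟩ := hz
    have h1 := congrFun e1 k
    rw [cv_apply] at h1
    simp only [if_true, if_neg hkl, mul_zero, add_zero, Pi.smul_apply, smul_eq_mul] at h1
    have : c₀ = (v' k)⁻¹ := eq_inv_of_mul_eq_one_left h1.symm
    rw [this]
    exact F₀.inv_mem (hrat' v' hv' k)
  obtain ⟨u', hu', hκ0, hκ⟩ := D.exists_mate hu
  obtain ⟨v'', hv'', e2⟩ := hmap u' (hrat u' hu'.rat)
  rw [hEv, Sg_mulVec c huu, hd.orth hF hu' hw, mul_zero, zero_smul, sub_zero] at e2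
  obtain ⟨hjb, ε, -, -, rfl⟩ := hw
  have h3 := congrFun e2 j
  have hu'j : u' j = 0 := by
    obtain ⟨-, ε', -, -, rfl⟩ := hu'
    rw [cv_apply, if_neg hd.1.symm, if_neg hd.2.2.1.symm, mul_zero, add_zero]
  simp only [Pi.add_apply, Pi.smul_apply, smul_eq_mul, cv_apply, hu'j, if_true, if_neg hjb,
    mul_zero, zero_add, add_zero, mul_one] at h3
  have : c = c₀ * v'' j / Cfsg.hermForm n F q u' u := by
    rw [← h3]; field_simp
  rw [this]
  exact F₀.div_mem (F₀.mul_mem hc₀F (hrat' v'' hv'' j)) hκ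

/-- the subfield subgroup with trivial change of basis is maximal in `SU` -/
theorem NN_max (D : UD (F := F) q n F₀) :
    Cfsg.Geo.IsMaximalIn (suGL n F q) (NN q n F₀) := by
  have hF := D.hF
  refine ⟨lt_of_le_of_ne inf_le_right ?_, ?_⟩
  · intro heq
    obtain ⟨c, hc⟩ : ∃ c : F, c ∉ F₀ := by
      by_contra hcon
      push Not at hcon
      exact D.hne (eq_top_iff.mpr fun x _ => hcon x)
    obtain ⟨i, a, hia, -⟩ := exists_plane D.hn [] (by simp)
    obtain ⟨j, b, hjb, d, -⟩ := exists_plane5 D.hn i a i a i a i a i a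
    obtain ⟨u, hu⟩ := D.exists_isC hia
    obtain ⟨w, hw⟩ := D.exists_isC hjb
    have hwu := d.orth' hF hu hw
    have h1 : InM (suGL n F q) (Sg q u w c) :=
      ⟨glOfDet _ (Sg_det hF c (hu.iso hF) hwu),
        glOfDet_mem_suGL _ _ (Sg_iso hF c (hu.iso hF) (hw.iso hF) hwu), rfl⟩
    rw [← heq] at h1
    exact hc (rat_of_inN D hu hw d h1)
  · intro M hHM hMK
    rcases KK_dichotomy D hHM with h | h
    · right
      exact le_antisymm hMK (suGL_le_of_top D h)
    · left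
      exact le_antisymm (le_NN_of_rat D hHM hMK h) hHM

/-! ### general change of basis -/

theorem map_conj_of_mem {G : Type*} [Group G] (S : Subgroup G) {Q : G} (hQ : Q ∈ S) :
    S.map (MulAut.conj Q).toMonoidHom = S := by
  ext x
  rw [Subgroup.mem_map_equiv, MulAut.conj_symm_apply]
  constructor
  · intro h
    have h1 := S.mul_mem (S.mul_mem hQ h) (S.inv_mem hQ)
    have e : Q * (Q⁻¹ * x * Q) * Q⁻¹ = x := by group
    rwa [e] at h1
  · intro h
    exact S.mul_mem (S.mul_mem (S.inv_mem hQ) h) hQ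

theorem subfieldSubgroup_mul_of_mem (F₀ : Subfield F) (P Q : GL (Fin n) F)
    (hQ : Q ∈ (Matrix.GeneralLinearGroup.map (F₀.subtype : F₀ →+* F)).range) :
    Cfsg.Geo.subfieldSubgroup F₀ (P * Q) = Cfsg.Geo.subfieldSubgroup F₀ P := by
  unfold Cfsg.Geo.subfieldSubgroup
  have hQ' : Q ∈ (Matrix.GeneralLinearGroup.map (F₀.subtype : F₀ →+* F)).range ⊔
      Cfsg.Geo.scalars (Fin n) F := Subgroup.mem_sup_left hQ
  have e : (MulAut.conj (P * Q)).toMonoidHom =
      (MulAut.conj P).toMonoidHom.comp (MulAut.conj Q).toMonoidHom := by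
    apply MonoidHom.ext
    intro x
    show (P * Q) * x * (P * Q)⁻¹ = P * (Q * x * Q⁻¹) * P⁻¹
    group
  rw [e, ← Subgroup.map_map, map_conj_of_mem _ hQ']

end Cfsg.Agent.Lib.Helper94.Usf
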