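-- helper94: unitary subfield subgroups (odd prime index) are maximal in `SU_n(q)`, `n ≥ 13`:
-- reduction of a general change of basis to the standard one.
import Mathlib
import Cfsg.Prelude.Def_GeometricClasses
import Cfsg.Agent.Lib.Helper94.UsMax
import Cfsg.Agent.Lib.Helper45.HermSigma

set_option autoImplicit false
set_option linter.unusedSectionVars false
set_option linter.unusedVariables false

namespace Cfsg.Agent.Lib.Helper94.Usf

open Matrix Cfsg.Agent.Lib.Helper45 Cfsg.Agent.Lib.Helper44 Cfsg.Agent.Lib.Helper13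

variable {F : Type*} [Field F] [Fintype F] {q n : ℕ}

/-- the inclusion of the rational vectors -/
def iota (F₀ : Subfield F) (u : Fin n → F₀) : Fin n → F := fun i => (u i : F)

theorem iota_add (F₀ : Subfield F) (u v : Fin n → F₀) :
    iota F₀ (u + v) = iota F₀ u + iota F₀ v := rfl

theorem iota_smul (F₀ : Subfield F) (c : F₀) (u : Fin n → F₀) :
    iota F₀ (c • u) = (c : F) • iota F₀ u := rfl

theorem iota_rat (F₀ : Subfield F) (u : Fin n → F₀) : Rv F₀ (iota F₀ u) := fun i => (u i).2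

/-- the form `h(P·, P·)` on the rational vectors -/
noncomputable def formB (hF : Fintype.card F = q ^ 2) (F₀ : Subfield F) (P : GL (Fin n) F)
    (hP : Cfsg.Geo.IsFormRationalStructure (Cfsg.hermForm n F q) F₀ 1 P) :
    (Fin n → F₀) →ₛₗ[sigma0 hF F₀] (Fin n → F₀) →ₗ[F₀] F₀ :=
  LinearMap.mk₂'ₛₗ (sigma0 hF F₀) (RingHom.id F₀)
    (fun u v => ⟨Cfsg.hermForm n F q ((P : Matrix (Fin n) (Fin n) F) *ᵥ iota F₀ v)
      ((P : Matrix (Fin n) (Fin n) F) *ᵥ iota F₀ u), by
      have := hP (iota F₀ v) (iota F₀ u) (iota_rat F₀ v) (iota_rat F₀ u)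
      rwa [one_mul] at this⟩)
    (by
      intro u₁ u₂ v
      apply Subtype.ext
      show Cfsg.hermForm n F q _ ((P : Matrix (Fin n) (Fin n) F) *ᵥ iota F₀ (u₁ + u₂)) =
        Cfsg.hermForm n F q _ _ + Cfsg.hermForm n F q _ _
      rw [iota_add, Matrix.mulVec_add, herm_add_right hF])
    (by
      intro c u v
      apply Subtype.ext
      show Cfsg.hermForm n F q _ ((P : Matrix (Fin n) (Fin n) F) *ᵥ iota F₀ (c • u)) =
        (c : F) ^ q * Cfsg.hermForm n F q _ _
      rw [iota_smul, Matrix.mulVec_smul, herm_smul_right])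
    (by
      intro u v₁ v₂
      apply Subtype.ext
      show Cfsg.hermForm n F q ((P : Matrix (Fin n) (Fin n) F) *ᵥ iota F₀ (v₁ + v₂)) _ =
        Cfsg.hermForm n F q _ _ + Cfsg.hermForm n F q _ _
      rw [iota_add, Matrix.mulVec_add, herm_add_left])
    (by
      intro c u v
      apply Subtype.ext
      show Cfsg.hermForm n F q ((P : Matrix (Fin n) (Fin n) F) *ᵥ iota F₀ (c • v)) _ =
        (c : F) * Cfsg.hermForm n F q _ _
      rw [iota_smul, Matrix.mulVec_smul, herm_smul_left])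

theorem formB_val (hF : Fintype.card F = q ^ 2) (F₀ : Subfield F) (P : GL (Fin n) F)
    (hP : Cfsg.Geo.IsFormRationalStructure (Cfsg.hermForm n F q) F₀ 1 P) (u v : Fin n → F₀) :
    ((formB hF F₀ P hP u v : F₀) : F) =
      Cfsg.hermForm n F q ((P : Matrix (Fin n) (Fin n) F) *ᵥ iota F₀ v)
        ((P : Matrix (Fin n) (Fin n) F) *ᵥ iota F₀ u) := rfl

/-- a rational change of basis making `P` an isometry -/
theorem exists_rational_isometry (hF : Fintype.card F = q ^ 2) (F₀ : Subfield F)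
    (hd : ∃ d ∈ F₀, d ^ q ≠ d) (P : GL (Fin n) F)
    (hP : Cfsg.Geo.IsFormRationalStructure (Cfsg.hermForm n F q) F₀ 1 P) :
    ∃ Q : GL (Fin n) F, Q ∈ (Matrix.GeneralLinearGroup.map (F₀.subtype : F₀ →+* F)).range ∧
      IsHermIso n F q ((P * Q : GL (Fin n) F) : Matrix (Fin n) (Fin n) F) := by
  classical
  have hq : q ≠ 0 := by have := two_le_q hF; omega
  obtain ⟨d, hd, hdq⟩ := hd
  have hσ : sigma0 hF F₀ ≠ RingHom.id F₀ := by
    intro h
    apply hdq
    have := congrArg (fun f : F₀ →+* F₀ => ((f ⟨d, hd⟩ : F₀) : F)) h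
    exact this
  have hσ2 : ∀ a : F₀, sigma0 hF F₀ (sigma0 hF F₀ a) = a := by
    intro a
    apply Subtype.ext
    show (((a : F)) ^ q) ^ q = a
    exact conj_conj hF a
  obtain ⟨B, hBdef⟩ : ∃ B, B = formB hF F₀ P hP := ⟨_, rfl⟩
  have hBv : ∀ u v : Fin n → F₀, ((B u v : F₀) : F) =
      Cfsg.hermForm n F q ((P : Matrix (Fin n) (Fin n) F) *ᵥ iota F₀ v)
        ((P : Matrix (Fin n) (Fin n) F) *ᵥ iota F₀ u) := by
    intro u v; rw [hBdef]; rfl
  have hS : B.IsSymm := ⟨fun u v => Subtype.ext (by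
    show ((B u v : F₀) : F) ^ q = ((B v u : F₀) : F)
    rw [hBv, hBv, herm_conj hF])⟩
  have hdetP : (P : Matrix (Fin n) (Fin n) F).det ≠ 0 :=
    ((Matrix.isUnit_iff_isUnit_det _).mp P.isUnit).ne_zero
  have hG : ((P : Matrix (Fin n) (Fin n) F)ᵀ *
      (P : Matrix (Fin n) (Fin n) F).map (sigmaQ hF)).det ≠ 0 := by
    have e : ((P : Matrix (Fin n) (Fin n) F).map (sigmaQ hF)).det =
        sigmaQ hF (P : Matrix (Fin n) (Fin n) F).det := by
      rw [RingHom.map_det]; rfl
    rw [Matrix.det_mul, Matrix.det_transpose, e, sigmaQ_apply]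
    exact mul_ne_zero hdetP (pow_ne_zero _ hdetP)
  have hsl : ∀ u : Fin n → F₀, (∀ v, B u v = 0) → u = 0 := by
    intro u hu
    have hw : ((P : Matrix (Fin n) (Fin n) F)ᵀ *
        (P : Matrix (Fin n) (Fin n) F).map (sigmaQ hF)) *ᵥ (fun i => (iota F₀ u i) ^ q) = 0 := by
      funext j
      have h1 : ((B u (Pi.single j 1) : F₀) : F) = 0 := by rw [hu]; rfl
      rw [hBv, herm_mulVec_gram hF] at h1
      have h2 : iota F₀ (Pi.single j (1 : F₀)) = Pi.single j 1 := by
        funext s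
        unfold iota
        by_cases hs : s = j
        · subst hs; simp
        · simp [Pi.single_eq_of_ne hs]
      rw [h2, single_one_dotProduct] at h1
      exact h1
    have hz := Matrix.eq_zero_of_mulVec_eq_zero hG hw
    funext i
    have h3 := congrFun hz i
    apply Subtype.ext
    exact (pow_eq_zero_iff hq).mp h3
  have hB : B.Nondegenerate :=
    ⟨hsl, fun v hv => hsl v (fun u => by rw [← hS.eq u v, hv u, map_zero])⟩
  obtain ⟨b, hb⟩ := herm_orthonormal_basis (sigma0 hF F₀) hσ hσ2 B hS hB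
  have hfin : Module.finrank F₀ (Fin n → F₀) = n := Module.finrank_fin_fun F₀
  obtain ⟨b', hb'⟩ : ∃ b' : Module.Basis (Fin n) F₀ (Fin n → F₀),
      ∀ i j, B (b' i) (b' j) = if i = j then 1 else 0 := by
    refine ⟨b.reindex (finCongr hfin), fun i j => ?_⟩
    rw [Module.Basis.reindex_apply, Module.Basis.reindex_apply, hb]
    simp
  have hinv : Invertible ((Pi.basisFun F₀ (Fin n)).toMatrix b') :=
    (Pi.basisFun F₀ (Fin n)).invertibleToMatrix b'
  obtain ⟨Q₀, hQ₀⟩ : ∃ Q₀ : GL (Fin n) F₀,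
      (Q₀ : Matrix (Fin n) (Fin n) F₀) = (Pi.basisFun F₀ (Fin n)).toMatrix b' :=
    ⟨@unitOfInvertible _ _ ((Pi.basisFun F₀ (Fin n)).toMatrix b') hinv, rfl⟩
  have hQ₀e : ∀ s j, (Q₀ : Matrix (Fin n) (Fin n) F₀) s j = b' j s := by
    intro s j; rw [hQ₀, Module.Basis.toMatrix_apply, Pi.basisFun_repr]
  refine ⟨Matrix.GeneralLinearGroup.map (F₀.subtype : F₀ →+* F) Q₀, ⟨Q₀, rfl⟩, ?_⟩
  rw [isHermIso_iff_gram hF]
  have hcol : ∀ j, ((P * Matrix.GeneralLinearGroup.map (F₀.subtype : F₀ →+* F) Q₀ :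
      GL (Fin n) F) : Matrix (Fin n) (Fin n) F) *ᵥ Pi.single j 1 =
      (P : Matrix (Fin n) (Fin n) F) *ᵥ iota F₀ (b' j) := by
    intro j
    rw [Units.val_mul, ← Matrix.mulVec_mulVec, Matrix.mulVec_single_one]
    congr 1
    funext s
    rw [Matrix.col_apply]
    have := Matrix.GeneralLinearGroup.map_apply (F₀.subtype : F₀ →+* F) s j Q₀
    rw [hQ₀e] at this
    exact this
  ext i j
  rw [Matrix.mul_apply, Matrix.one_apply]
  have key := hBv (b' j) (b' i)
  rw [hb' j i, ← hcol, ← hcol, Matrix.mulVec_single_one, Matrix.mulVec_single_one, herm_def]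
    at key
  simp only [Matrix.col_apply] at key
  simp only [Matrix.transpose_apply, Matrix.map_apply, sigmaQ_apply]
  rw [← key]
  by_cases hij : i = j
  · subst hij; simp
  · rw [if_neg hij, if_neg (Ne.symm hij)]; simp

/-- **unitary subfield subgroups of odd prime index are maximal in `SU_n(q)`** (`n ≥ 13`) -/
theorem unitary_subfield_max (n q : ℕ) (hF : Fintype.card F = q ^ 2) (hn : 13 ≤ n)
    (F₀ : Subfield F) (r : ℕ) (hr : r.Prime) (hro : Odd r)
    (hcard : Fintype.card F = Nat.card F₀ ^ r) (P : GL (Fin n) F)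
    (hP : Cfsg.Geo.IsFormRationalStructure (Cfsg.hermForm n F q) F₀ 1 P) :
    Cfsg.Geo.IsMaximalIn (Cfsg.GU n F q ⊓ Cfsg.Geo.specialLinear (Fin n) F)
      (Cfsg.Geo.subfieldSubgroup F₀ P ⊓
        (Cfsg.GU n F q ⊓ Cfsg.Geo.specialLinear (Fin n) F)) := by
  obtain ⟨hmax, hne⟩ := Subf.subfield_max_of_card F₀ r hr hcard
  have hd := exists_not_fixed_mem hF F₀ r hr hro hcard
  have D : UD (F := F) q n F₀ := ⟨hF, hn, hmax, hne, hd⟩
  obtain ⟨Q, hQ, hiso⟩ := exists_rational_isometry hF F₀ hd P hP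
  have h1 := Subf.isMaximalIn_map (MulAut.conj (P * Q)) (NN_max D)
  have hGU : P * Q ∈ Cfsg.GU n F q := hiso
  have hSL : (Cfsg.Geo.specialLinear (Fin n) F).map (MulAut.conj (P * Q)).toMonoidHom =
      Cfsg.Geo.specialLinear (Fin n) F := by
    ext x
    rw [Subgroup.mem_map_equiv]
    unfold Cfsg.Geo.specialLinear
    rw [MonoidHom.mem_ker, MonoidHom.mem_ker, MulAut.conj_symm_apply, map_mul, map_mul, map_inv,
      mul_comm, ← mul_assoc, mul_inv_cancel, one_mul]
  have hone : ∀ S : Subgroup (GL (Fin n) F),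
      S.map (MulAut.conj (1 : GL (Fin n) F)).toMonoidHom = S := by
    intro S
    ext x
    rw [Subgroup.mem_map_equiv, map_one]
    rfl
  have hsub : (Cfsg.Geo.subfieldSubgroup F₀ (1 : GL (Fin n) F)).map
      (MulAut.conj (P * Q)).toMonoidHom = Cfsg.Geo.subfieldSubgroup F₀ (P * Q) := by
    unfold Cfsg.Geo.subfieldSubgroup
    rw [hone]
  have hSU : (suGL n F q).map (MulAut.conj (P * Q)).toMonoidHom = suGL n F q := by
    rw [Subgroup.map_inf _ _ _ (MulAut.conj (P * Q)).injective, map_conj_of_mem _ hGU, hSL]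
  rw [hSU, Subgroup.map_inf _ _ _ (MulAut.conj (P * Q)).injective, hSU, hsub,
    subfieldSubgroup_mul_of_mem F₀ P Q hQ] at h1
  exact h1

end Cfsg.Agent.Lib.Helper94.Usf
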